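import Cfsg.Agent.H18.Monster.NoncentralFusion
import Cfsg.Agent.H24.Extraspecial
import Cfsg.Agent.H73.CharPLocal

/-! The centralizer of a non-central involution of `Q`, modulo that involution, is of Baby Monster
type. -/

set_option autoImplicit false

namespace Cfsg.Agent.H18.Monster.Data

open Cfsg.Agent.H14
open scoped commutatorElement

variable {G : Type*} [Group G] [Finite G] {z : G}
  {Q : Subgroup (Subgroup.centralizer ({z} : Set G))} [Q.Normal]

/-- A non-central involution in standard position. -/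
structure Nc (D : Data z Q) (t : Q) : Prop where
  ht : (QuotientGroup.mk t : Q ⧸ Subgroup.center Q) = D.mod.cls w0
  ho : orderOf (gv t) = 2
  hc : ¬ IsConj z (gv t)

/-- An element of `G` centralizing `z` and `t`. -/
abbrev Both (t : Q) : Subgroup G :=
  Subgroup.centralizer ({z} : Set G) ⊓ Subgroup.centralizer ({gv t} : Set G)

namespace Nc

variable {D : Data z Q} {t : Q} (N : Nc D t)
include N

theorem ne_one : t ≠ 1 := fun e => by
  have h := N.ho; rw [e] at h
  have h' : orderOf (1 : G) = 2 := h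
  rw [orderOf_one] at h'; omega

theorem ne_z : t ≠ D.zQ := fun e => N.hc (by rw [e]; exact IsConj.refl z)

theorem gv_ne_z : gv t ≠ z := fun e => N.ne_z (gv_injective e)

theorem tt : gv t * gv t = 1 := by rw [← pow_two, ← N.ho, pow_orderOf_eq_one]

theorem mem_zpowers {a : G} : a ∈ Subgroup.zpowers (gv t) ↔ a = 1 ∨ a = gv t :=
  mem_zpowers_iff_pair N.tt a

/-- `z t` is not conjugate to `z`. -/
theorem zt_not_conj : ¬ IsConj z (z * gv t) := by
  obtain ⟨u, hu⟩ : ∃ u : Q, u * t ≠ t * u := by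
    by_contra hcon
    push Not at hcon
    rcases (D.center_iff t).1 (Subgroup.mem_center_iff.2 hcon) with e | e
    exacts [N.ne_one e, N.ne_z e]
  intro hcj
  apply N.hc
  refine hcj.trans (isConj_iff.2 ⟨gv u, ?_⟩)
  have hcu : u * t * u⁻¹ * t⁻¹ = D.zQ := by
    rcases (D.center_iff _).1 (commutator_mem_center D.hset.2.2.1 u t) with e | e
    · exact absurd (commutatorElement_eq_one_iff_mul_comm.1 e) hu
    · rwa [commutatorElement_def] at e
  have h1 : gv u * gv t * (gv u)⁻¹ * (gv t)⁻¹ = z := congrArg gv hcu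
  have h2 : gv u * gv t * (gv u)⁻¹ = z * gv t := by
    calc gv u * gv t * (gv u)⁻¹ = (gv u * gv t * (gv u)⁻¹ * (gv t)⁻¹) * gv t := by group
      _ = z * gv t := by rw [h1]
  have h3 : gv u * z * (gv u)⁻¹ = z := by
    rw [D.singPt.comm_x (gv u) (D.mem_F.2 ⟨u, rfl⟩), mul_inv_cancel_right]
  calc gv u * (z * gv t) * (gv u)⁻¹ = (gv u * z * (gv u)⁻¹) * (gv u * gv t * (gv u)⁻¹) := by group
    _ = z * (z * gv t) := by rw [h2, h3]
    _ = gv t := by rw [← mul_assoc, D.z_sq, one_mul]

theorem z_mem : z ∈ Both t :=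
  ⟨D.z_mem_C, Subgroup.mem_centralizer_singleton_iff.2
    (D.singPt.comm_x (gv t) (D.mem_F.2 ⟨t, rfl⟩)).symm⟩

theorem t_mem : gv t ∈ Both t :=
  ⟨(t : Subgroup.centralizer ({z} : Set G)).2, Subgroup.mem_centralizer_singleton_iff.2 rfl⟩

theorem exists_k (a : Both t) : ∃ k : Co0,
    (QuotientGroup.mk k : Cfsg.Spor.Co1) =
      D.e (QuotientGroup.mk (⟨(a : G), a.2.1⟩ : Subgroup.centralizer ({z} : Set G))) ∧
    act k w0 = w0 := by
  obtain ⟨k, hk⟩ := QuotientGroup.mk_surjective
    (D.e (QuotientGroup.mk (⟨(a : G), a.2.1⟩ : Subgroup.centralizer ({z} : Set G))))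
  have hfix : D.mod.cls (act k w0) = D.mod.cls w0 := by
    rw [D.cls_conj _ k hk isLeech_w0 t N.ht, ← N.ht]
    congr 1
    apply gv_injective
    show (a : G) * gv t * (a : G)⁻¹ = gv t
    rw [Subgroup.mem_centralizer_singleton_iff.1 a.2.2, mul_inv_cancel_right]
  obtain ⟨u, hu, e⟩ := (D.cls_eq_iff (isLeech_act k isLeech_w0) isLeech_w0).1 hfix
  rcases congr_two_cases isLeech_w0 (isLeech_act k isLeech_w0) hu.neg
    (by rw [smul_neg, ← e, neg_sub]) (by rw [sqNorm_w0]; norm_num)
    (by rw [sqNorm_act k isLeech_w0, sqNorm_w0]; norm_num) with h | h | h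
  · exact ⟨k, hk, h⟩
  · refine ⟨negOne * k, ?_, ?_⟩
    · rw [QuotientGroup.mk_mul, (QuotientGroup.eq_one_iff _).2 negOne_mem_center, one_mul, hk]
    · rw [mul_act, h, act_negOne isLeech_w0.neg, neg_neg]
  · exact absurd h.1 (by rw [sqNorm_w0]; norm_num)

theorem k_unique {k k' : Co0}
    (h : (QuotientGroup.mk k : Cfsg.Spor.Co1) = QuotientGroup.mk k')
    (h1 : act k w0 = w0) (h2 : act k' w0 = w0) : k = k' := by
  rw [QuotientGroup.eq] at h
  rcases mem_center_iff.1 h with e | e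
  · exact inv_mul_eq_one.1 e
  · exfalso
    have h3 : act (k⁻¹ * k') w0 = w0 := by
      rw [mul_act, h2]
      conv_lhs => rw [← h1]
      rw [inv_act_act]
    rw [e, act_negOne isLeech_w0] at h3
    have := congrFun h3 oo
    simp [Spor.vecU, w0, oo] at this

/-- The lattice automorphism attached to an element centralizing `z` and `t`. -/
noncomputable def toCo0 : Both t →* Co0 :=
  MonoidHom.mk' (fun a => (N.exists_k a).choose) fun a b => by
    refine N.k_unique ?_ (N.exists_k (a * b)).choose_spec.2 ?_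
    · rw [(N.exists_k (a * b)).choose_spec.1, QuotientGroup.mk_mul, (N.exists_k a).choose_spec.1,
        (N.exists_k b).choose_spec.1, ← map_mul]
      rfl
    · rw [mul_act, (N.exists_k b).choose_spec.2, (N.exists_k a).choose_spec.2]

theorem toCo0_spec (a : Both t) : (QuotientGroup.mk (N.toCo0 a) : Cfsg.Spor.Co1) =
    D.e (QuotientGroup.mk (⟨(a : G), a.2.1⟩ : Subgroup.centralizer ({z} : Set G))) :=
  (N.exists_k a).choose_spec.1

theorem toCo0_fix (a : Both t) : act (N.toCo0 a) w0 = w0 := (N.exists_k a).choose_spec.2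

theorem toCo0_surj {k : Co0} (hk : act k w0 = w0) : ∃ a : Both t, N.toCo0 a = k := by
  obtain ⟨c, hkc, hfix⟩ := D.exists_lift isLeech_w0 t t N.ht N.ht N.ne_one N.ne_z k (by rw [hk])
  have hcs : (c : G) * gv t = gv t * (c : G) :=
    congrArg Subtype.val (mul_inv_eq_iff_eq_mul.1 hfix)
  refine ⟨⟨c, c.2, Subgroup.mem_centralizer_singleton_iff.2 hcs⟩, N.k_unique ?_ (N.toCo0_fix _) hk⟩
  rw [N.toCo0_spec, hkc]

theorem toCo0_eq_one_iff (a : Both t) : N.toCo0 a = 1 ↔ (a : G) ∈ D.F := by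
  constructor
  · intro e
    have h := N.toCo0_spec a
    rw [e, QuotientGroup.mk_one, eq_comm, MulEquiv.map_eq_one_iff, QuotientGroup.eq_one_iff] at h
    exact ⟨_, h, rfl⟩
  · intro h
    obtain ⟨c, hc, e⟩ := h
    have hc' : (⟨(a : G), a.2.1⟩ : Subgroup.centralizer ({z} : Set G)) ∈ Q := by
      rwa [show (⟨(a : G), a.2.1⟩ : Subgroup.centralizer ({z} : Set G)) = c from Subtype.ext e.symm]
    refine N.k_unique ?_ (N.toCo0_fix a) (one_act _)
    rw [N.toCo0_spec, (QuotientGroup.eq_one_iff _).2 hc', map_one, QuotientGroup.mk_one]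

variable [hn : ((Subgroup.zpowers (gv t)).subgroupOf
  (Subgroup.centralizer ({gv t} : Set G))).Normal]

omit N in
/-- The class of an element of `C(t)` modulo `⟨t⟩`. -/
abbrev bar (a : Subgroup.centralizer ({gv t} : Set G)) :
    Subgroup.centralizer ({gv t} : Set G) ⧸
      (Subgroup.zpowers (gv t)).subgroupOf (Subgroup.centralizer ({gv t} : Set G)) :=
  QuotientGroup.mk a

theorem bar_eq_iff {a b : Subgroup.centralizer ({gv t} : Set G)} :
    bar a = bar b ↔ (b : G) = a ∨ (b : G) = a * gv t := by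
  rw [QuotientGroup.eq, Subgroup.mem_subgroupOf, N.mem_zpowers]
  constructor
  · rintro (e | e)
    · exact Or.inl (inv_mul_eq_one.1 e).symm
    · exact Or.inr (inv_mul_eq_iff_eq_mul.1 e)
  · rintro (e | e)
    · exact Or.inl (inv_mul_eq_one.2 e.symm)
    · exact Or.inr (inv_mul_eq_iff_eq_mul.2 e)

/-- The image of `z`. -/
def zbar : Subgroup.centralizer ({gv t} : Set G) ⧸
    (Subgroup.zpowers (gv t)).subgroupOf (Subgroup.centralizer ({gv t} : Set G)) :=
  bar ⟨z, N.z_mem.2⟩

theorem bar_comm_iff (a : Subgroup.centralizer ({gv t} : Set G)) :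
    bar a ∈ Subgroup.centralizer ({N.zbar} : Set _) ↔
      (a : G) ∈ Subgroup.centralizer ({z} : Set G) := by
  rw [Subgroup.mem_centralizer_singleton_iff, Subgroup.mem_centralizer_singleton_iff]
  show bar (a * ⟨z, N.z_mem.2⟩) = bar (⟨z, N.z_mem.2⟩ * a) ↔ _
  rw [N.bar_eq_iff]
  show (z * a = (a : G) * z ∨ z * a = (a : G) * z * gv t) ↔ _
  constructor
  · rintro (e | e)
    · exact e.symm
    · exfalso
      have hat : (a : G) * gv t = gv t * a := Subgroup.mem_centralizer_singleton_iff.1 a.2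
      have hzt : z * gv t = gv t * z := Subgroup.mem_centralizer_singleton_iff.1 N.z_mem.2
      refine N.zt_not_conj (isConj_iff.2 ⟨(a : G)⁻¹, ?_⟩)
      calc (a : G)⁻¹ * z * (a : G)⁻¹⁻¹ = (a : G)⁻¹ * (z * a) := by group
        _ = z * gv t := by rw [e]; group
  · exact fun e => Or.inl e.symm

/-- The projection onto the centralizer of the image of `z`. -/
def proj : Both t →* Subgroup.centralizer ({N.zbar} : Set _) where
  toFun a := ⟨bar ⟨(a : G), a.2.2⟩, (N.bar_comm_iff _).2 a.2.1⟩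
  map_one' := rfl
  map_mul' _ _ := rfl

theorem proj_surjective : Function.Surjective N.proj := by
  rintro ⟨x, hx⟩
  obtain ⟨a, rfl⟩ := QuotientGroup.mk_surjective x
  exact ⟨⟨(a : G), (N.bar_comm_iff a).1 hx, a.2⟩, rfl⟩

theorem proj_eq_iff {a b : Both t} :
    N.proj a = N.proj b ↔ (b : G) = a ∨ (b : G) = a * gv t := by
  rw [Subtype.ext_iff]
  exact N.bar_eq_iff

/-- `Q ∩ C(t)`. -/
def qFix (_N : Nc D t) : Subgroup (Both t) := D.F.subgroupOf (Both t)

/-- The image of `Q ∩ C(t)`. -/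
def R : Subgroup (Subgroup.centralizer ({N.zbar} : Set _)) := N.qFix.map N.proj

theorem qFix_eq_ker : N.qFix = N.toCo0.ker := by
  ext a
  exact (N.toCo0_eq_one_iff a).symm

theorem R_normal : N.R.Normal := by
  haveI : N.qFix.Normal := N.qFix_eq_ker ▸ inferInstance
  exact Subgroup.Normal.map inferInstance _ N.proj_surjective

theorem ker_proj_le : N.proj.ker ≤ N.toCo0.ker := fun a ha => by
  have h : N.proj 1 = N.proj a := by rw [map_one]; exact (MonoidHom.mem_ker.1 ha).symm
  rw [MonoidHom.mem_ker, N.toCo0_eq_one_iff]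
  rcases N.proj_eq_iff.1 h with e | e
  · rw [e]; exact D.F.one_mem
  · rw [e, Subgroup.coe_one, one_mul]; exact D.mem_F.2 ⟨t, rfl⟩

theorem mem_R {x : Subgroup.centralizer ({N.zbar} : Set _)} :
    x ∈ N.R ↔ ∃ r : Q, ∃ hr : gv r ∈ Subgroup.centralizer ({gv t} : Set G),
      N.proj ⟨gv r, (r : Subgroup.centralizer ({z} : Set G)).2, hr⟩ = x := by
  constructor
  · rintro ⟨a, ha, rfl⟩
    obtain ⟨r, hr⟩ := D.mem_F.1 ha
    exact ⟨r, (show gv r = (a : G) from hr) ▸ a.2.2, congrArg N.proj (Subtype.ext hr)⟩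
  · rintro ⟨r, hr, rfl⟩
    exact ⟨_, D.mem_F.2 ⟨r, rfl⟩, rfl⟩

theorem card_qFix : Nat.card N.qFix = 2 ^ 24 := by
  have htF : gv t ∈ D.F := D.mem_F.2 ⟨t, rfl⟩
  have h1 := index_centralizer_singleton_le D.singPt.ext ⟨gv t, htF⟩
  have h2 := Subgroup.card_mul_index (Subgroup.centralizer ({⟨gv t, htF⟩} : Set D.F))
  have h3 : Nat.card (Subgroup.centralizer ({⟨gv t, htF⟩} : Set D.F)) = Nat.card N.qFix := by
    refine Nat.card_congr
      { toFun := fun a => ⟨⟨((a : D.F) : G),
          Subgroup.mem_centralizer_singleton_iff.2 (D.singPt.comm_x _ (a : D.F).2),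
          Subgroup.mem_centralizer_singleton_iff.2
            (congrArg Subtype.val (Subgroup.mem_centralizer_singleton_iff.1 a.2))⟩, (a : D.F).2⟩
        invFun := fun a => ⟨⟨((a : Both t) : G), a.2⟩,
          Subgroup.mem_centralizer_singleton_iff.2
            (Subtype.ext (Subgroup.mem_centralizer_singleton_iff.1 (a : Both t).2.2))⟩
        left_inv := fun _ => rfl
        right_inv := fun _ => rfl }
  have h4 : (Subgroup.centralizer ({⟨gv t, htF⟩} : Set D.F)).index ≠ 1 := by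
    rw [ne_eq, Subgroup.index_eq_one]
    intro e
    have hc : t ∈ Subgroup.center Q := Subgroup.mem_center_iff.2 fun u => by
      have hu : (⟨gv u, D.mem_F.2 ⟨u, rfl⟩⟩ : D.F) ∈
          Subgroup.centralizer ({⟨gv t, htF⟩} : Set D.F) := by rw [e]; trivial
      have h' : (⟨gv u, D.mem_F.2 ⟨u, rfl⟩⟩ : D.F) * ⟨gv t, htF⟩ = ⟨gv t, htF⟩ * ⟨gv u, D.mem_F.2 ⟨u, rfl⟩⟩ :=
        Subgroup.mem_centralizer_singleton_iff.1 hu
      exact gv_injective (congrArg (fun w : D.F => (w : G)) h')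
    rcases (D.center_iff t).1 hc with e' | e'
    exacts [N.ne_one e', N.ne_z e']
  have h5 : (Subgroup.centralizer ({⟨gv t, htF⟩} : Set D.F)).index ≠ 0 :=
    Subgroup.index_ne_zero_of_finite
  rw [show (Subgroup.centralizer ({⟨gv t, htF⟩} : Set D.F)).index = 2 by omega, D.card_F, h3] at h2
  omega

theorem card_R : Nat.card N.R = 2 ^ 23 := by
  have h := Subgroup.card_mul_index ((N.proj.comp N.qFix.subtype).ker)
  rw [Subgroup.index_ker, MonoidHom.range_comp, Subgroup.range_subtype, N.card_qFix] at h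
  have hk : Nat.card (N.proj.comp N.qFix.subtype).ker = 2 := by
    rw [← show Nat.card (Subgroup.zpowers (gv t)) = 2 by rw [Nat.card_zpowers, N.ho]]
    refine Nat.card_congr
      { toFun := fun a => ⟨((a : N.qFix) : Both t), N.mem_zpowers.2 ?_⟩
        invFun := fun a => ⟨⟨⟨(a : G), ?_⟩, ?_⟩, ?_⟩
        left_inv := fun _ => rfl
        right_inv := fun _ => rfl }
    · have e : N.proj 1 = N.proj ((a : N.qFix) : Both t) := by
        rw [map_one]; exact (MonoidHom.mem_ker.1 a.2).symm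
      simpa using N.proj_eq_iff.1 e
    · rcases N.mem_zpowers.1 a.2 with e | e <;> rw [e]
      · exact one_mem _
      · exact N.t_mem
    · show (a : G) ∈ D.F
      rcases N.mem_zpowers.1 a.2 with e | e <;> rw [e]
      · exact D.F.one_mem
      · exact D.mem_F.2 ⟨t, rfl⟩
    · rw [MonoidHom.mem_ker]
      show N.proj _ = 1
      rw [← map_one N.proj, eq_comm, N.proj_eq_iff]
      simpa using N.mem_zpowers.1 a.2
  rw [hk] at h
  show Nat.card (Subgroup.map N.proj N.qFix) = _
  omega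

/-- An element of `R` given by an element of `Q` commuting with `t`. -/
def rOf (r : Q) (hr : r * t = t * r) : N.R :=
  ⟨N.proj ⟨gv r, (r : Subgroup.centralizer ({z} : Set G)).2,
    Subgroup.mem_centralizer_singleton_iff.2 (congrArg gv hr)⟩,
    N.mem_R.2 ⟨r, Subgroup.mem_centralizer_singleton_iff.2 (congrArg gv hr), rfl⟩⟩

theorem rOf_surj (x : N.R) : ∃ r hr, N.rOf r hr = x := by
  obtain ⟨r, hr, e⟩ := N.mem_R.1 x.2
  exact ⟨r, gv_injective (Subgroup.mem_centralizer_singleton_iff.1 hr), Subtype.ext e⟩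

theorem rOf_eq_iff {r u : Q} (hr : r * t = t * r) (hu : u * t = t * u) :
    N.rOf r hr = N.rOf u hu ↔ u = r ∨ u = r * t := by
  rw [Subtype.ext_iff, rOf, rOf, N.proj_eq_iff]
  constructor
  · rintro (e | e)
    · exact Or.inl (gv_injective e)
    · exact Or.inr (gv_injective e)
  · rintro (rfl | rfl)
    · exact Or.inl rfl
    · exact Or.inr rfl

theorem rOf_mul {r u : Q} (hr : r * t = t * r) (hu : u * t = t * u) :
    N.rOf r hr * N.rOf u hu = N.rOf (r * u) (by rw [mul_assoc, hu, ← mul_assoc, hr, mul_assoc]) :=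
  rfl

theorem zQ_comm : D.zQ * t = t * D.zQ :=
  ((Subgroup.mem_center_iff.1 ((D.center_iff _).2 (Or.inr rfl))) t).symm

theorem eq_or_of_commutes {r : Q} (hc : ∀ u : Q, u * t = t * u → u * r = r * u) :
    r = 1 ∨ r = D.zQ ∨ r = t ∨ r = t * D.zQ := by
  set H : Subgroup Q := Subgroup.center Q ⊔ Subgroup.zpowers t with hH
  have hz : Subgroup.center Q ≤ H := le_sup_left
  have hr : r ∈ Subgroup.centralizer ((Subgroup.centralizer (H : Set Q) : Subgroup Q) : Set Q) :=
    fun u hu => hc u (hu t (Subgroup.mem_sup_right (Subgroup.mem_zpowers t))).symm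
  rw [centralizer_centralizer D.hset.2.2.1 H hz] at hr
  obtain ⟨c, hc', a, ha, rfl⟩ := Subgroup.mem_sup_of_normal_left.1 hr
  have htt : t * t = 1 := gv_injective N.tt
  rcases (D.center_iff c).1 hc' with rfl | rfl <;>
    rcases (mem_zpowers_iff_pair htt a).1 ha with rfl | rfl
  · left; rw [one_mul]
  · right; right; left; rw [one_mul]
  · right; left; rw [mul_one]
  · right; right; right; exact N.zQ_comm

theorem rOf_mem_center_iff {r : Q} (hr : r * t = t * r) :
    N.rOf r hr ∈ Subgroup.center N.R ↔ r = 1 ∨ r = D.zQ ∨ r = t ∨ r = t * D.zQ := by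
  constructor
  · intro h
    refine N.eq_or_of_commutes fun u hu => ?_
    have e := Subgroup.mem_center_iff.1 h (N.rOf u hu)
    rw [N.rOf_mul, N.rOf_mul, N.rOf_eq_iff] at e
    rcases e with e | e
    · exact e.symm
    · exfalso
      have h1 : (u * r)⁻¹ * (r * u) = t := by rw [e, inv_mul_cancel_left]
      have h2 : (u * r)⁻¹ * (r * u) ∈ Subgroup.center Q := by
        rw [show (u * r)⁻¹ * (r * u) = r⁻¹ * u⁻¹ * r⁻¹⁻¹ * u⁻¹⁻¹ by group]
        exact commutator_mem_center D.hset.2.2.1 r⁻¹ u⁻¹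
      rw [h1] at h2
      rcases (D.center_iff t).1 h2 with e' | e'
      exacts [N.ne_one e', N.ne_z e']
  · intro hcase
    refine Subgroup.mem_center_iff.2 fun x => ?_
    obtain ⟨u, hu, rfl⟩ := N.rOf_surj x
    rw [N.rOf_mul, N.rOf_mul, N.rOf_eq_iff]
    left
    have hz := Subgroup.mem_center_iff.1 ((D.center_iff D.zQ).2 (Or.inr rfl)) u
    rcases hcase with rfl | rfl | rfl | rfl
    · rw [one_mul, mul_one]
    · exact hz.symm
    · exact hu.symm
    · rw [mul_assoc, ← hz, ← mul_assoc, ← hu, mul_assoc]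

/-- The central involution of `R`. -/
def zR : N.R := N.rOf D.zQ N.zQ_comm

theorem zR_ne_one : N.zR ≠ N.rOf 1 (by rw [one_mul, mul_one]) := by
  rw [zR, Ne, N.rOf_eq_iff]
  rintro (e | e)
  · exact D.z_ne_one (congrArg gv e).symm
  · have h : gv t = z := by
      have h1 : (1 : G) = z * gv t := congrArg gv e
      calc gv t = z * (z * gv t) := by rw [← mul_assoc, D.z_sq, one_mul]
        _ = z := by rw [← h1, mul_one]
    exact N.gv_ne_z h

theorem R_center {x : N.R} : x ∈ Subgroup.center N.R ↔ x = 1 ∨ x = N.zR := by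
  have h1 : N.rOf 1 (by rw [one_mul, mul_one]) = 1 := Subtype.ext (map_one N.proj)
  obtain ⟨r, hr, rfl⟩ := N.rOf_surj x
  rw [N.rOf_mem_center_iff, ← h1, zR, N.rOf_eq_iff, N.rOf_eq_iff]
  have htt : t * t = 1 := gv_injective N.tt
  constructor
  · rintro (e | e | e | e) <;> subst e
    · exact Or.inl (Or.inl rfl)
    · exact Or.inr (Or.inl rfl)
    · exact Or.inl (Or.inr htt.symm)
    · exact Or.inr (Or.inr (by rw [mul_assoc, N.zQ_comm, ← mul_assoc, htt, one_mul]))
  · rintro ((e | e) | (e | e))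
    · exact Or.inl e.symm
    · refine Or.inr (Or.inr (Or.inl ?_))
      calc r = r * t * t := by rw [mul_assoc, htt, mul_one]
        _ = t := by rw [← e, one_mul]
    · exact Or.inr (Or.inl e.symm)
    · refine Or.inr (Or.inr (Or.inr ?_))
      calc r = r * t * t := by rw [mul_assoc, htt, mul_one]
        _ = t * D.zQ := by rw [← e, N.zQ_comm]

theorem R_extraspecial : Cfsg.IsExtraspecial 2 N.R := by
  haveI : Fact (Nat.Prime 2) := ⟨Nat.prime_two⟩
  have hcard := N.card_R
  refine H24.isExtraspecial_of (IsPGroup.of_card hcard) ?_ ?_ ?_ ?_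
  · have h1 : N.rOf 1 (by rw [one_mul, mul_one]) = 1 := Subtype.ext (map_one N.proj)
    rw [Nat.card_eq_two_iff' (1 : Subgroup.center N.R)]
    refine ⟨⟨N.zR, N.R_center.2 (Or.inr rfl)⟩, fun e => ?_, fun y hy => ?_⟩
    · have := congrArg Subtype.val e
      exact N.zR_ne_one (this.trans h1.symm)
    · rcases N.R_center.1 y.2 with e | e
      · exact absurd (Subtype.ext e) hy
      · exact Subtype.ext e
  · intro htop
    have h2 : Nat.card (Subgroup.center N.R) ≤ 2 := by
      classical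
      refine le_trans (Nat.card_le_card_of_injective
        (fun x : Subgroup.center N.R => (decide ((x : N.R) = 1))) ?_) (by simp)
      intro x y h
      apply Subtype.ext
      rcases N.R_center.1 x.2 with e | e <;> rcases N.R_center.1 y.2 with e' | e'
      · rw [e, e']
      · by_contra hne; simp [e, e'] at h hne; exact hne h.symm
      · by_contra hne; simp [e, e'] at h hne; exact hne h
      · rw [e, e']
    rw [htop, Subgroup.card_top, hcard] at h2
    omega
  · intro a b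
    obtain ⟨r, hr, rfl⟩ := N.rOf_surj a
    obtain ⟨u, hu, rfl⟩ := N.rOf_surj b
    have hc : r * u * r⁻¹ * u⁻¹ ∈ Subgroup.center Q := commutator_mem_center D.hset.2.2.1 r u
    have hct : r * u * r⁻¹ * u⁻¹ * t = t * (r * u * r⁻¹ * u⁻¹) :=
      ((Subgroup.mem_center_iff.1 hc) t).symm
    have e : ⁅N.rOf r hr, N.rOf u hu⁆ = N.rOf (r * u * r⁻¹ * u⁻¹) hct := rfl
    rw [e, N.rOf_mem_center_iff]
    rcases (D.center_iff _).1 hc with e' | e'
    exacts [Or.inl e', Or.inr (Or.inl e')]
  · intro a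
    obtain ⟨r, hr, rfl⟩ := N.rOf_surj a
    obtain ⟨x, hx⟩ := QuotientGroup.mk_surjective (QuotientGroup.mk r : Q ⧸ Subgroup.center Q)
    have hc : r * r ∈ Subgroup.center Q := by
      obtain ⟨v, hv, hrv⟩ := D.mod.cls_surj r
      rw [D.mod.sq_eq_form hrv.symm]
      exact (D.mod.form v).2
    rw [pow_two, N.rOf_mul, N.rOf_mem_center_iff]
    rcases (D.center_iff _).1 hc with e' | e'
    exacts [Or.inl e', Or.inr (Or.inl e')]

theorem eq_one_of_centralizes (a : Both t)
    (h : ∀ x ∈ N.R, x * N.proj a = N.proj a * x) : N.toCo0 a = 1 := by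
  refine eq_one_of_fix_classes isLeech_w0 sqNorm_w0 (N.toCo0_fix a) fun w hw hnw hdw => ?_
  obtain ⟨r, hrw⟩ := QuotientGroup.mk_surjective (D.mod.cls w)
  have hr : r * t = t * r := (D.mod.commute_iff hw isLeech_w0 hrw N.ht).2 (by
    rw [dotInt_comm, hdw]; exact dvd_zero _)
  set r' : Q := ⟨⟨(a : G), a.2.1⟩ * r * (⟨(a : G), a.2.1⟩ : Subgroup.centralizer ({z} : Set G))⁻¹,
    (inferInstance : Q.Normal).conj_mem _ r.2 _⟩ with hr'
  have hcls : D.mod.cls (act (N.toCo0 a) w) = QuotientGroup.mk r' :=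
    D.cls_conj _ _ (N.toCo0_spec a) hw r hrw
  have hc := h _ (N.rOf r hr).2
  have hp : N.proj ⟨gv r, (r : Subgroup.centralizer ({z} : Set G)).2,
      Subgroup.mem_centralizer_singleton_iff.2 (congrArg gv hr)⟩ * N.proj a =
      N.proj a * N.proj ⟨gv r, (r : Subgroup.centralizer ({z} : Set G)).2,
      Subgroup.mem_centralizer_singleton_iff.2 (congrArg gv hr)⟩ := hc
  rw [← map_mul, ← map_mul, N.proj_eq_iff] at hp
  have hnwn : IsLeech (act (N.toCo0 a) w) := isLeech_act _ hw
  rcases hp with e | e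
  · have e1 : gv r' = gv r := by
      show (a : G) * gv r * (a : G)⁻¹ = gv r
      rw [mul_inv_eq_iff_eq_mul]; exact e
    have hcl : D.mod.cls (act (N.toCo0 a) w) = D.mod.cls w := by
      rw [hcls, gv_injective e1, hrw]
    obtain ⟨u, hu, eu⟩ := (D.cls_eq_iff hnwn hw).1 hcl
    exact ⟨u, hu, Or.inl eu⟩
  · have e1 : gv r' = gv r * gv t := by
      show (a : G) * gv r * (a : G)⁻¹ = gv r * gv t
      rw [mul_inv_eq_iff_eq_mul]
      have hat : (a : G) * gv t = gv t * a := Subgroup.mem_centralizer_singleton_iff.1 a.2.2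
      calc (a : G) * gv r = gv r * a * gv t := e
        _ = gv r * gv t * a := by rw [mul_assoc, hat, ← mul_assoc]
    have hcl : D.mod.cls (act (N.toCo0 a) w) = D.mod.cls (w + w0) := by
      rw [hcls, show r' = r * t from gv_injective e1, QuotientGroup.mk_mul, hrw, N.ht,
        D.mod.cls_add hw isLeech_w0]
    obtain ⟨u, hu, eu⟩ := (D.cls_eq_iff hnwn (hw.add isLeech_w0)).1 hcl
    exact ⟨u, hu, Or.inr eu⟩

theorem centralizer_R_le : Subgroup.centralizer (N.R : Set _) ≤ N.R := by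
  intro x hx
  obtain ⟨a, rfl⟩ := N.proj_surjective x
  have h1 := N.eq_one_of_centralizes a hx
  exact ⟨a, (N.toCo0_eq_one_iff a).1 h1, rfl⟩

theorem pCore_eq_R :
    Cfsg.pCore 2 (Subgroup.centralizer ({N.zbar} : Set _)) = N.R := by
  haveI : Fact (Nat.Prime 2) := ⟨Nat.prime_two⟩
  set K := Cfsg.pCore 2 (Subgroup.centralizer ({N.zbar} : Set _)) with hK
  refine le_antisymm ?_ (le_pCore N.R_normal (IsPGroup.of_card N.card_R))
  have hker2 : IsPGroup 2 N.proj.ker := by
    have hker : N.proj.ker ≤ N.toCo0.ker := N.ker_proj_le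
    rw [← N.qFix_eq_ker] at hker
    exact (IsPGroup.of_card N.card_qFix).to_le hker
  have h2 : IsPGroup 2 ((K.comap N.proj).map N.toCo0) :=
    ((pCore_isPGroup 2).comap_of_ker_isPGroup _ hker2).map _
  have hbot := eq_bot_of_normal_stab isLeech_w0 sqNorm_w0 _ h2
    (by rintro - ⟨a, -, rfl⟩; exact N.toCo0_fix a) (by
      rintro k hk - ⟨a, ha, rfl⟩
      obtain ⟨b, rfl⟩ := N.toCo0_surj hk
      refine ⟨b * a * b⁻¹, ?_, by rw [map_mul, map_mul, map_inv]⟩
      show N.proj (b * a * b⁻¹) ∈ K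
      rw [map_mul, map_mul, map_inv]
      exact (pCore_normal 2).conj_mem _ ha _)
  intro x hx
  obtain ⟨a, rfl⟩ := N.proj_surjective x
  have h1 : N.toCo0 a ∈ (K.comap N.proj).map N.toCo0 := ⟨a, hx, rfl⟩
  rw [hbot, Subgroup.mem_bot] at h1
  exact ⟨a, (N.toCo0_eq_one_iff a).1 h1, rfl⟩

theorem setting : Cfsg.IsExtraspecialCentralizerSetting N.zbar N.R 11 := by
  haveI : Fact (Nat.Prime 2) := ⟨Nat.prime_two⟩
  refine ⟨?_, ?_, N.R_extraspecial, by rw [N.card_R], ?_⟩
  · refine orderOf_eq_prime ?_ ?_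
    · rw [pow_two]
      show bar (⟨z, N.z_mem.2⟩ * ⟨z, N.z_mem.2⟩) = bar 1
      rw [N.bar_eq_iff]
      exact Or.inl D.z_sq.symm
    · intro e
      have e' : bar ⟨z, N.z_mem.2⟩ = bar 1 := e
      rw [N.bar_eq_iff] at e'
      rcases e' with e' | e'
      · exact D.z_ne_one (show (1 : G) = z from e').symm
      · apply N.gv_ne_z
        have h1 : (1 : G) = z * gv t := e'
        calc gv t = z * (z * gv t) := by rw [← mul_assoc, D.z_sq, one_mul]
          _ = z := by rw [← h1, mul_one]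
  · rw [(H73.charP_iff_generalizedFitting (p := 2)).1 (by
      rw [N.pCore_eq_R]; exact N.centralizer_R_le), N.pCore_eq_R]
  · obtain ⟨k, hkt, s, hs, hsz⟩ := D.exists_fusion_centralizer N.ho N.hc
    have hk : k ∈ Subgroup.centralizer ({gv t} : Set G) :=
      Subgroup.mem_centralizer_singleton_iff.2 hkt
    have hst : gv s ∈ Subgroup.centralizer ({gv t} : Set G) := by
      rw [← hs]
      exact (Subgroup.centralizer ({gv t} : Set G)).mul_mem
        (Subgroup.mul_mem _ hk N.z_mem.2) (Subgroup.inv_mem _ hk)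
    have e : bar ⟨k, hk⟩ * N.zbar * (bar ⟨k, hk⟩)⁻¹ = bar ⟨gv s, hst⟩ := by
      show bar (⟨k, hk⟩ * ⟨z, N.z_mem.2⟩ * (⟨k, hk⟩ : Subgroup.centralizer ({gv t} : Set G))⁻¹) = _
      exact congrArg bar (Subtype.ext hs)
    refine ⟨bar ⟨k, hk⟩, ?_, ?_⟩
    · rw [e]
      have hs' : s * t = t * s := gv_injective (Subgroup.mem_centralizer_singleton_iff.1 hst)
      exact ⟨(N.rOf s hs').1.2, (N.rOf s hs').2⟩
    · rw [e]
      show bar ⟨gv s, hst⟩ ≠ bar ⟨z, N.z_mem.2⟩
      intro h
      rw [N.bar_eq_iff] at h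
      rcases h with h | h
      · exact hsz (show z = gv s from h).symm
      · have htt := N.tt
        have h1 : z = gv s * gv t := h
        have h2 : gv s = z * gv t := by
          calc gv s = gv s * gv t * gv t := by rw [mul_assoc, htt, mul_one]
            _ = z * gv t := congrArg (· * gv t) h1.symm
        exact N.zt_not_conj (h2 ▸ isConj_iff.2 ⟨k, hs⟩)

/-- The identification with `Co2`. -/
noncomputable def toCo2 : Both t →* Cfsg.Spor.Co2 :=
  MonoidHom.mk' (fun a => ⟨((N.toCo0 a : Co0) : Equiv.Perm Cfsg.leechLattice), (N.toCo0 a).2,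
      smul_eq_of_act (v := Cfsg.Spor.leechU) (w := Cfsg.Spor.leechU) (N.toCo0_fix a)⟩)
    fun a b => Subtype.ext
      (congrArg (fun k : Co0 => (k : Equiv.Perm Cfsg.leechLattice)) (map_mul N.toCo0 a b))

/-- The projection of the centralizer onto `Co2`. -/
noncomputable def gamma : Subgroup.centralizer ({N.zbar} : Set _) →* Cfsg.Spor.Co2 :=
  MonoidHom.mk' (fun x => N.toCo2 (N.proj_surjective x).choose) fun x y => by
    rw [← map_mul]
    have h : ∀ a b : Both t, N.proj a = N.proj b → N.toCo2 a = N.toCo2 b := by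
      intro a b e
      apply Subtype.ext
      show ((N.toCo0 a : Co0) : Equiv.Perm Cfsg.leechLattice) = (N.toCo0 b : Co0)
      congr 1
      rw [← inv_mul_eq_one, ← map_inv, ← map_mul]
      exact MonoidHom.mem_ker.1 (N.ker_proj_le (by
        rw [MonoidHom.mem_ker, map_mul, map_inv, e, inv_mul_cancel]))
    refine h _ _ ?_
    rw [map_mul, (N.proj_surjective x).choose_spec, (N.proj_surjective y).choose_spec,
      (N.proj_surjective (x * y)).choose_spec]

theorem gamma_proj (a : Both t) : N.gamma (N.proj a) = N.toCo2 a := by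
  apply Subtype.ext
  show ((N.toCo0 (N.proj_surjective (N.proj a)).choose : Co0) : Equiv.Perm Cfsg.leechLattice) =
    (N.toCo0 a : Co0)
  congr 1
  rw [← inv_mul_eq_one, ← map_inv, ← map_mul]
  exact MonoidHom.mem_ker.1 (N.ker_proj_le (by
    rw [MonoidHom.mem_ker, map_mul, map_inv, (N.proj_surjective (N.proj a)).choose_spec,
      inv_mul_cancel]))

theorem gamma_surjective : Function.Surjective N.gamma := by
  rintro ⟨k, hk0, hks⟩
  have hfix : act (⟨k, hk0⟩ : Co0) w0 = w0 := by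
    show act (⟨k, hk0⟩ : Co0) ((Cfsg.Spor.leechU : Cfsg.leechLattice) : V) = _
    rw [act_coe]
    exact congrArg Subtype.val hks
  obtain ⟨a, ha⟩ := N.toCo0_surj hfix
  refine ⟨N.proj a, ?_⟩
  rw [N.gamma_proj]
  exact Subtype.ext (congrArg (fun k : Co0 => (k : Equiv.Perm Cfsg.leechLattice)) ha)

theorem gamma_ker : N.R = N.gamma.ker := by
  ext x
  obtain ⟨a, rfl⟩ := N.proj_surjective x
  rw [MonoidHom.mem_ker, N.gamma_proj]
  constructor
  · rintro ⟨b, hb, e⟩
    have h1 : N.gamma (N.proj b) = 1 := by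
      rw [N.gamma_proj]
      exact Subtype.ext (congrArg (fun k : Co0 => (k : Equiv.Perm Cfsg.leechLattice)) ((N.toCo0_eq_one_iff b).2 hb))
    rwa [e, N.gamma_proj] at h1
  · intro e
    exact ⟨a, (N.toCo0_eq_one_iff a).1 (Subtype.ext (congrArg (fun k : Cfsg.Spor.Co2 => (k : Equiv.Perm Cfsg.leechLattice)) e)), rfl⟩

/-- `D / R` is `Co2`. -/
noncomputable def eTwo [N.R.Normal] :
    (Subgroup.centralizer ({N.zbar} : Set _)) ⧸ N.R ≃* Cfsg.Spor.Co2 :=
  (QuotientGroup.quotientMulEquivOfEq N.gamma_ker).trans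
    (QuotientGroup.quotientKerEquivOfSurjective N.gamma N.gamma_surjective)

theorem eTwo_mk [N.R.Normal] (x : Subgroup.centralizer ({N.zbar} : Set _)) :
    N.eTwo (QuotientGroup.mk x) = N.gamma x := rfl

theorem rep_comm (x : Cfsg.leechPerpU) :
    D.mod.rep ((x : Cfsg.leechLattice) : V) * t = t * D.mod.rep ((x : Cfsg.leechLattice) : V) :=
  (D.mod.commute_iff (IsLeech.coe _) isLeech_w0 (D.mod.mk_rep _) N.ht).2 x.2

/-- The module map. -/
noncomputable def psiTwo (x : Cfsg.leechPerpU) : N.R ⧸ Subgroup.center N.R :=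
  QuotientGroup.mk (N.rOf (D.mod.rep ((x : Cfsg.leechLattice) : V)) (N.rep_comm x))

theorem psiTwo_spec {x : Cfsg.leechPerpU} {r : Q}
    (h : (QuotientGroup.mk r : Q ⧸ Subgroup.center Q) = D.mod.cls ((x : Cfsg.leechLattice) : V))
    (hr : r * t = t * r) : N.psiTwo x = QuotientGroup.mk (N.rOf r hr) := by
  set p := D.mod.rep ((x : Cfsg.leechLattice) : V) with hp
  have h1 : (QuotientGroup.mk p : Q ⧸ Subgroup.center Q) = QuotientGroup.mk r := by
    rw [h]; exact D.mod.mk_rep _
  rw [psiTwo, QuotientGroup.eq]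
  have h2 : p⁻¹ * r ∈ Subgroup.center Q := QuotientGroup.eq.1 h1
  have hc : p⁻¹ * r * t = t * (p⁻¹ * r) := ((Subgroup.mem_center_iff.1 h2) t).symm
  have e : (N.rOf p (N.rep_comm x))⁻¹ * N.rOf r hr = N.rOf (p⁻¹ * r) hc := rfl
  rw [e, N.rOf_mem_center_iff]
  rcases (D.center_iff _).1 h2 with e' | e'
  exacts [Or.inl e', Or.inr (Or.inl e')]

theorem psiTwo_isIso [N.R.Normal] : Cfsg.IsLeechPerpModTwoIso N.R N.eTwo N.psiTwo := by
  refine ⟨fun x y => ?_, fun p => ?_, fun x => ?_, fun h g hg x y hxy p hp => ?_⟩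
  · have hr : D.mod.rep ((x : Cfsg.leechLattice) : V) * D.mod.rep ((y : Cfsg.leechLattice) : V) * t =
        t * (D.mod.rep ((x : Cfsg.leechLattice) : V) * D.mod.rep ((y : Cfsg.leechLattice) : V)) := by
      rw [mul_assoc, N.rep_comm y, ← mul_assoc, N.rep_comm x, mul_assoc]
    rw [N.psiTwo_spec (x := x + y) (by
      rw [QuotientGroup.mk_mul, D.mod.mk_rep, D.mod.mk_rep,
        ← D.mod.cls_add (IsLeech.coe _) (IsLeech.coe _)]
      rfl) hr]
    rfl
  · obtain ⟨u, rfl⟩ := QuotientGroup.mk_surjective p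
    obtain ⟨r, hr, rfl⟩ := N.rOf_surj u
    obtain ⟨v, hv, hrv⟩ := D.mod.cls_surj r
    have h16 := (D.mod.commute_iff hv isLeech_w0 hrv.symm N.ht).1 hr
    exact ⟨⟨⟨v, mem_leechLattice_iff.2 hv⟩, h16⟩, N.psiTwo_spec hrv.symm hr⟩
  · rw [psiTwo, QuotientGroup.eq_one_iff, N.rOf_mem_center_iff]
    have hrep := D.mod.mk_rep ((x : Cfsg.leechLattice) : V)
    have hU : ((Cfsg.Spor.leechU : Cfsg.leechLattice) : V) = w0 := rfl
    have hz1 : (QuotientGroup.mk D.zQ : Q ⧸ Subgroup.center Q) = 1 :=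
      (QuotientGroup.eq_one_iff _).2 ((D.center_iff _).2 (Or.inr rfl))
    constructor
    · intro hc
      have hcl : D.mod.cls ((x : Cfsg.leechLattice) : V) = 1 ∨
          D.mod.cls ((x : Cfsg.leechLattice) : V) = D.mod.cls w0 := by
        rcases hc with e | e | e | e <;> rw [e] at hrep
        · left; rw [← hrep, QuotientGroup.mk_one]
        · left; rw [← hrep, hz1]
        · right; rw [← hrep, N.ht]
        · right; rw [← hrep, QuotientGroup.mk_mul, hz1, mul_one, N.ht]
      rcases hcl with h1 | h1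
      · left
        rw [D.mod.cls_coe] at h1
        exact (D.mod.ker _).1 h1
      · right
        obtain ⟨w, hw, e⟩ := (D.cls_eq_iff (IsLeech.coe _) isLeech_w0).1 h1
        refine ⟨⟨w, mem_leechLattice_iff.2 hw⟩, Subtype.ext ?_⟩
        show ((x : Cfsg.leechLattice) : V) =
          ((Cfsg.Spor.leechU : Cfsg.leechLattice) : V) + (w + w)
        rw [hU, ← two_nsmul, ← e]; abel
    · intro hcase
      have hcl : D.mod.cls ((x : Cfsg.leechLattice) : V) = 1 ∨
          D.mod.cls ((x : Cfsg.leechLattice) : V) = D.mod.cls w0 := by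
        rcases hcase with ⟨w, e⟩ | ⟨w, e⟩
        · left; rw [D.mod.cls_coe]; exact (D.mod.ker _).2 ⟨w, e⟩
        · right
          rw [e]
          exact D.mod.cls_shift isLeech_w0 (IsLeech.coe w)
      rcases hcl with h1 | h1
      · rcases (D.cls_eq_one_iff _ hrep).1 h1 with e | e
        exacts [Or.inl e, Or.inr (Or.inl e)]
      · have h2 : t⁻¹ * D.mod.rep ((x : Cfsg.leechLattice) : V) ∈ Subgroup.center Q := by
          rw [← QuotientGroup.eq, hrep, h1, N.ht]
        rcases (D.center_iff _).1 h2 with e | e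
        · exact Or.inr (Or.inr (Or.inl (inv_mul_eq_one.1 e).symm))
        · exact Or.inr (Or.inr (Or.inr (inv_mul_eq_iff_eq_mul.1 e)))
  · obtain ⟨a, rfl⟩ := N.proj_surjective h
    rw [N.eTwo_mk, N.gamma_proj] at hg
    subst hg
    set r := D.mod.rep ((x : Cfsg.leechLattice) : V) with hrdef
    have hr := N.rep_comm x
    rw [← hrdef] at hr
    set c : Subgroup.centralizer ({z} : Set G) := ⟨(a : G), a.2.1⟩ with hcdef
    set r' : Q := ⟨c * r * c⁻¹, (inferInstance : Q.Normal).conj_mem _ r.2 c⟩ with hr'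
    have hat : (a : G) * gv t = gv t * a := Subgroup.mem_centralizer_singleton_iff.1 a.2.2
    have hrt : gv r * gv t = gv t * gv r := congrArg gv hr
    have hr't : r' * t = t * r' := by
      apply gv_injective
      show (a : G) * gv r * (a : G)⁻¹ * gv t = gv t * ((a : G) * gv r * (a : G)⁻¹)
      have hat' : (a : G)⁻¹ * gv t = gv t * (a : G)⁻¹ := by
        rw [inv_mul_eq_iff_eq_mul, ← mul_assoc, hat, mul_inv_cancel_right]
      rw [mul_assoc ((a : G) * gv r), hat', ← mul_assoc, mul_assoc (a : G) (gv r), hrt,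
        ← mul_assoc, hat]
      simp only [mul_assoc]
    have hy : D.mod.cls ((y : Cfsg.leechLattice) : V) = QuotientGroup.mk r' := by
      have h1 := D.cls_conj c (N.toCo0 a) (N.toCo0_spec a) (IsLeech.coe (x : Cfsg.leechLattice))
        r (D.mod.mk_rep _)
      rw [act_coe] at h1
      rw [← hxy]
      exact h1
    rw [N.psiTwo_spec hy.symm hr't]
    have hp' : p⁻¹ * N.rOf r hr ∈ Subgroup.center N.R := QuotientGroup.eq.1 hp.symm
    rw [QuotientGroup.eq]
    set u : N.R := ⟨N.proj a * p * (N.proj a)⁻¹,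
      (inferInstance : N.R.Normal).conj_mem _ p.2 (N.proj a)⟩
    have hconj : N.rOf r' hr't = (⟨N.proj a * (N.rOf r hr) * (N.proj a)⁻¹,
        (inferInstance : N.R.Normal).conj_mem _ (N.rOf r hr).2 (N.proj a)⟩ : N.R) := rfl
    rw [hconj]
    have e : (⟨N.proj a * (N.rOf r hr) * (N.proj a)⁻¹,
        (inferInstance : N.R.Normal).conj_mem _ (N.rOf r hr).2 (N.proj a)⟩ : N.R)⁻¹ * u =
        MulAut.conjNormal (N.proj a) ((N.rOf r hr)⁻¹ * p) := by
      rw [map_mul, map_inv]; rfl
    rw [e]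
    have hinv : (N.rOf r hr)⁻¹ * p ∈ Subgroup.center N.R := by
      have := Subgroup.inv_mem _ hp'
      rwa [mul_inv_rev, inv_inv] at this
    rw [LeechModule.center_fixed N.R_extraspecial _ hinv]
    exact hinv

end Nc

theorem exists_nc (D : Data z Q) {t : Q} (ho : orderOf (gv t) = 2) (hc : ¬ IsConj z (gv t)) :
    ∃ D' : Data z Q, Nc D' t := by
  obtain ⟨x, hx, hn, hq⟩ := D.exists_norm32 ho hc
  obtain ⟨k, -, hk⟩ := exists_act_min isLeech_w0 sqNorm_w0 hx hn
  exact ⟨D.twist k, by rw [D.twist_cls k isLeech_w0, hk, hq], ho, hc⟩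

theorem babyMonsterType (D : Data z Q) {t : Q} (ho : orderOf (gv t) = 2) (hc : ¬ IsConj z (gv t))
    [((Subgroup.zpowers (gv t)).subgroupOf (Subgroup.centralizer ({gv t} : Set G))).Normal] :
    Cfsg.IsOfBabyMonsterType (Subgroup.centralizer ({gv t} : Set G) ⧸
      (Subgroup.zpowers (gv t)).subgroupOf (Subgroup.centralizer ({gv t} : Set G))) := by
  obtain ⟨D', N⟩ := D.exists_nc ho hc
  haveI := N.R_normal
  exact ⟨N.zbar, N.R, N.R_normal, N.setting, N.eTwo, N.psiTwo, N.psiTwo_isIso⟩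

end Cfsg.Agent.H18.Monster.Data
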