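import Cfsg.Agent.H14.LeechMonomial
import Cfsg.Agent.S0364
import Cfsg.Agent.S0365
import Cfsg.Agent.S0358

/-! The stabiliser of the class of a vector of squared length 64 and its normal 2-subgroups. -/

set_option autoImplicit false

namespace Cfsg.Agent.H18.Monster

open Finset Cfsg.Agent.H14

theorem mem_crossStab_iff_class {g : Co0} :
    g ∈ crossStab ↔ ∃ t, IsLeech t ∧ act g (eight oo) - eight oo = 2 • t := by
  have h8 := isLeech_eight oo
  constructor
  · intro hg
    have h := mem_crossStab_iff.1 hg (eight oo) (mem_stdCross_iff.2 ⟨oo, Or.inl rfl⟩)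
    rw [← cross_eight oo] at h
    obtain ⟨-, -, t, ht, e⟩ := h
    exact ⟨-t, (mem_leechLattice_iff.1 ht).neg, by rw [smul_neg, ← e, neg_sub]⟩
  · rintro ⟨t, ht, e⟩
    have hy := isLeech_act g h8
    have hn : sqNorm (act g (eight oo)) = sqNorm (eight oo) := sqNorm_act g h8
    have hcr : cross (act g (eight oo)) = cross (eight oo) := by
      ext y
      constructor
      · rintro ⟨hy', hny, u, hu, eu⟩
        refine ⟨hy', hny.trans hn, u - t, sub_mem hu (mem_leechLattice_iff.2 ht), ?_⟩
        rw [smul_sub, ← eu, ← e]; abel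
      · rintro ⟨hy', hny, u, hu, eu⟩
        refine ⟨hy', hny.trans hn.symm, u + t, add_mem hu (mem_leechLattice_iff.2 ht), ?_⟩
        rw [smul_add, ← eu, ← e]; abel
    rw [cross_act g h8, cross_eight] at hcr
    exact hcr

/-- The elements inducing sign changes only. -/
def signSub : Subgroup Co0 where
  carrier := {g | ∀ p, act g (eight p) = eight p ∨ act g (eight p) = -eight p}
  one_mem' := fun p => Or.inl (one_act _)
  mul_mem' := fun {g h} hg hh p => by
    rw [mul_act]
    rcases hh p with e | e <;> rw [e]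
    · exact hg p
    · rw [act_neg g (isLeech_eight p)]
      rcases hg p with e' | e' <;> rw [e']
      · exact Or.inr rfl
      · exact Or.inl (neg_neg _)
  inv_mem' := fun {g} hg p => by
    rcases hg p with e | e
    · left; conv_lhs => rw [← e]
      rw [inv_act_act]
    · right
      rw [← neg_eq_iff_eq_neg, ← act_neg _ (isLeech_eight p), ← e, inv_act_act]

theorem signSub_le : signSub ≤ crossStab := fun g hg => mem_crossStab_iff.2 fun y hy => by
  obtain ⟨p, rfl | rfl⟩ := mem_stdCross_iff.1 hy
  · exact mem_stdCross_iff.2 ⟨p, hg p⟩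
  · rw [act_neg g (isLeech_eight p)]
    refine mem_stdCross_iff.2 ⟨p, ?_⟩
    rcases hg p with e | e <;> rw [e]
    · exact Or.inr rfl
    · exact Or.inl (neg_neg _)

theorem signAut_mem_signSub (c : GolayPt → ZMod 2) (hc : c ∈ golayCode) :
    signAut c hc ∈ signSub := fun p => by
  rw [act_signAut hc (isLeech_eight p), signFun_eight]
  split
  exacts [Or.inl rfl, Or.inr rfl]

theorem act_monoAut_eight (σ : Equiv.Perm GolayPt) (hσ : σ ∈ M24) (c : GolayPt → ZMod 2)
    (hc : c ∈ golayCode) (p : GolayPt) :
    act (monoAut σ hσ c hc) (eight p) = eight (σ p) ∨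
      act (monoAut σ hσ c hc) (eight p) = -eight (σ p) := by
  rw [act_monoAut hσ hc (isLeech_eight p), permFun_eight, signFun_eight]
  split
  exacts [Or.inl rfl, Or.inr rfl]

theorem point_unique {y : V} {p q : GolayPt} (hp : y = eight p ∨ y = -eight p)
    (hq : y = eight q ∨ y = -eight q) : p = q := by
  rcases hp with e | e <;> rcases hq with e' | e' <;> rw [e] at e'
  · exact eight_injective e'
  · exact absurd e' (eight_ne_neg p q)
  · exact absurd e'.symm (eight_ne_neg q p)
  · exact eight_injective (neg_injective e')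

/-- The permutation of the coordinates induced by an element of the cross stabiliser. -/
noncomputable def permVal (g : crossStab) : M24 :=
  ⟨(exists_mono g.2).choose, (exists_mono g.2).choose_spec.choose⟩

theorem act_eight_permVal (g : crossStab) (p : GolayPt) :
    act (g : Co0) (eight p) = eight ((permVal g : Equiv.Perm GolayPt) p) ∨
      act (g : Co0) (eight p) = -eight ((permVal g : Equiv.Perm GolayPt) p) := by
  obtain ⟨hσ, c, hc, e⟩ := (exists_mono g.2).choose_spec
  conv => congr <;> (lhs; rw [e])
  exact act_monoAut_eight _ hσ c hc p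

theorem permVal_unique (g : crossStab) (σ : M24)
    (h : ∀ p, act (g : Co0) (eight p) = eight ((σ : Equiv.Perm GolayPt) p) ∨
      act (g : Co0) (eight p) = -eight ((σ : Equiv.Perm GolayPt) p)) : permVal g = σ :=
  Subtype.ext (Equiv.ext fun p => point_unique (act_eight_permVal g p) (h p))

/-- The projection to the permutations of the coordinates. -/
noncomputable def permHom : crossStab →* M24 :=
  MonoidHom.mk' permVal fun g h => permVal_unique _ _ fun p => by
    simp only [Subgroup.coe_mul, Equiv.Perm.mul_apply, mul_act]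
    rcases act_eight_permVal h p with e | e <;> rw [e]
    · exact act_eight_permVal g _
    · rw [act_neg _ (isLeech_eight _)]
      rcases act_eight_permVal g ((permVal h : Equiv.Perm GolayPt) p) with e' | e' <;> rw [e']
      · exact Or.inr rfl
      · exact Or.inl (neg_neg _)

theorem permHom_monoAut (σ : M24) (c : GolayPt → ZMod 2) (hc : c ∈ golayCode) :
    permHom ⟨monoAut σ σ.2 c hc, monoAut_mem _ _ _ _⟩ = σ :=
  permVal_unique _ _ fun p => act_monoAut_eight _ σ.2 c hc p

theorem permHom_surjective : Function.Surjective permHom := fun σ =>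
  ⟨_, permHom_monoAut σ 0 (zero_mem _)⟩

theorem permHom_eq_one {g : crossStab} : permHom g = 1 ↔ (g : Co0) ∈ signSub := by
  constructor
  · intro h p
    have e := act_eight_permVal g p
    rw [show permVal g = 1 from h] at e
    exact e
  · exact fun h => permVal_unique _ _ fun p => h p

/-- A normal 2-subgroup of the cross stabiliser consists of sign changes. -/
theorem le_signSub_of_normalized (N : Subgroup Co0) (hle : N ≤ crossStab) (hN2 : IsPGroup 2 N)
    (hnorm : ∀ h ∈ crossStab, ∀ n ∈ N, h * n * h⁻¹ ∈ N) : N ≤ signSub := by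
  haveI : IsSimpleGroup M24 := Cfsg.Agent.S0365.result
  set K : Subgroup crossStab := N.subgroupOf crossStab with hK
  haveI hKn : K.Normal := ⟨fun n hn g => hnorm g g.2 n hn⟩
  have hmap : (K.map permHom).Normal := hKn.map _ permHom_surjective
  have h2 : IsPGroup 2 (K.map permHom) :=
    (hN2.of_equiv (Subgroup.subgroupOfEquivOfLe hle).symm).map _
  rcases hmap.eq_bot_or_eq_top with h | h
  · intro n hn
    have : permHom ⟨n, hle hn⟩ ∈ K.map permHom := ⟨⟨n, hle hn⟩, hn, rfl⟩
    rw [h, Subgroup.mem_bot] at this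
    exact permHom_eq_one.1 this
  · exfalso
    rw [h] at h2
    obtain ⟨k, hk⟩ := h2.exists_card_eq
    rw [Subgroup.card_top, Cfsg.Agent.S0364.result] at hk
    have h3 : 3 ∣ 2 ^ k := ⟨81607680, by rw [← hk]⟩
    have := (Nat.prime_three.dvd_of_dvd_pow h3)
    norm_num at this

theorem signSub_normalized {h : Co0} (hh : h ∈ crossStab) {n : Co0} (hn : n ∈ signSub) :
    h * n * h⁻¹ ∈ signSub := by
  have h1 := (permHom_eq_one (g := ⟨n, signSub_le hn⟩)).2 hn
  have h2 : permHom (⟨h, hh⟩ * ⟨n, signSub_le hn⟩ * ⟨h, hh⟩⁻¹) = 1 := by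
    rw [map_mul, map_mul, h1, mul_one, map_inv, mul_inv_cancel]
  exact permHom_eq_one.1 h2

theorem exists_signAut_of_mem {g : Co0} (hg : g ∈ signSub) :
    ∃ c hc, g = signAut c hc := by
  obtain ⟨σ, hσ, c, hc, e⟩ := exists_mono (signSub_le hg)
  have h1 := (permHom_eq_one (g := ⟨g, signSub_le hg⟩)).2 hg
  subst e
  have h2 : (⟨σ, hσ⟩ : M24) = 1 := (permHom_monoAut ⟨σ, hσ⟩ c hc).symm.trans h1
  have h3 : σ = 1 := congrArg Subtype.val h2
  subst h3
  refine ⟨c, hc, act_eq_of_forall fun x hx => ?_⟩
  rw [act_monoAut hσ hc hx, act_signAut hc hx]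
  rfl

theorem signAut_injective {c d : GolayPt → ZMod 2} {hc : c ∈ golayCode} {hd : d ∈ golayCode}
    (h : signAut c hc = signAut d hd) : c = d := by
  funext i
  have e : act (signAut c hc) (eight i) i = act (signAut d hd) (eight i) i := by rw [h]
  rw [act_signAut hc (isLeech_eight i), act_signAut hd (isLeech_eight i)] at e
  have hz : ∀ a b : ZMod 2, (a = 0 ↔ b = 0) → a = b := by decide
  refine hz _ _ ?_
  simp only [H14.signFun, eight, Pi.single_eq_same] at e
  split_ifs at e <;> simp_all

theorem card_golayCode : Nat.card golayCode = 4096 := by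
  rw [Module.natCard_eq_pow_finrank (K := ZMod 2) (V := golayCode), Cfsg.Agent.S0358.result]
  simp

theorem card_signSub : Nat.card signSub = 4096 := by
  rw [← card_golayCode]
  refine (Nat.card_congr (Equiv.ofBijective
    (fun c : golayCode => (⟨signAut c.1 c.2, signAut_mem_signSub c.1 c.2⟩ : signSub))
    ⟨fun a b e => Subtype.ext (signAut_injective (hc := a.2) (hd := b.2) (congrArg Subtype.val e)), fun g => ?_⟩)).symm
  obtain ⟨c, hc, e⟩ := exists_signAut_of_mem g.2
  exact ⟨⟨c, hc⟩, Subtype.ext e.symm⟩

theorem signSub_sq {g : Co0} (hg : g ∈ signSub) : g * g = 1 := by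
  obtain ⟨c, hc, rfl⟩ := exists_signAut_of_mem hg
  refine act_eq_of_forall fun x hx => ?_
  rw [mul_act, act_signAut hc hx, act_signAut hc (hx.signFun hc), signFun_signFun, one_act]

theorem negOne_mem_signSub : negOne ∈ signSub := fun p => Or.inr (act_negOne (isLeech_eight p))

/-- The permutation matrices. -/
def permEmb : M24 →* Co0 :=
  MonoidHom.mk' (fun σ => permAut σ σ.2) fun a b => act_eq_of_forall fun x hx => by
    rw [mul_act, act_permAut b.2 hx, act_permAut a.2 (hx.permFun b.2),
      act_permAut (a * b).2 hx]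
    ext i
    simp [H14.permFun, Equiv.Perm.mul_def]

theorem permEmb_mem (σ : M24) : permEmb σ ∈ crossStab := by
  have h : permEmb σ = monoAut σ σ.2 0 (zero_mem _) := act_eq_of_forall fun x hx => by
    rw [act_monoAut σ.2 (zero_mem _) hx]
    refine (act_permAut σ.2 hx).trans ?_
    ext i; simp [H14.signFun]
  rw [h]; exact monoAut_mem _ _ _ _

theorem permHom_permEmb (σ : M24) : permHom ⟨permEmb σ, permEmb_mem σ⟩ = σ :=
  permVal_unique _ _ fun p => Or.inl (by
    show act (permAut σ σ.2) (eight p) = _
    rw [act_permAut σ.2 (isLeech_eight p), permFun_eight])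

theorem permEmb_eq_one_of_signSub {σ : M24} (h : permEmb σ ∈ signSub) : σ = 1 :=
  (permHom_permEmb σ).symm.trans (permHom_eq_one.2 h)

/-- The cross stabiliser is the product of sign changes and permutations. -/
theorem exists_sign_mul_perm {g : Co0} (hg : g ∈ crossStab) :
    ∃ d ∈ signSub, ∃ σ, g = d * permEmb σ := by
  refine ⟨g * (permEmb (permHom ⟨g, hg⟩))⁻¹, ?_, permHom ⟨g, hg⟩, by rw [inv_mul_cancel_right]⟩
  have h : permHom (⟨g, hg⟩ * ⟨permEmb (permHom ⟨g, hg⟩), permEmb_mem _⟩⁻¹) = 1 := by
    rw [map_mul, map_inv, permHom_permEmb, mul_inv_cancel]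
  exact permHom_eq_one.1 h

end Cfsg.Agent.H18.Monster
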