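import Cfsg.Agent.H14.LeechMonomial
import Cfsg.Agent.H14.LeechPairs
import Cfsg.Agent.H14.LeechModTwo
import Cfsg.Agent.S1573

/-! A 2-group normalized by the stabiliser of a minimal vector and fixing it up to sign is central. -/

set_option autoImplicit false

namespace Cfsg.Agent.H18.Monster

open Finset Cfsg.Agent.H14

/-- The orbit argument: a 2-group permuting a set of cardinality not divisible by 4 has an orbit
of length at most 2. -/
theorem exists_small_orbit {K : Type*} [Group K] [Finite K] (hK : IsPGroup 2 K) {α : Type*}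
    [MulAction K α] [Finite α] (h : ¬ 4 ∣ Nat.card α) :
    ∃ a : α, Nat.card (MulAction.orbit K a) ≤ 2 := by
  haveI : Fact (Nat.Prime 2) := ⟨Nat.prime_two⟩
  by_contra hcon
  push Not at hcon
  apply h
  haveI := Fintype.ofFinite (MulAction.orbitRel.Quotient K α)
  rw [Nat.card_congr (MulAction.selfEquivSigmaOrbits K α), Nat.card_sigma]
  refine Finset.dvd_sum fun ω _ => ?_
  obtain ⟨n, hn⟩ := hK.card_orbit ω.out
  have h2 := hcon ω.out
  rw [hn] at h2 ⊢
  rcases n with _ | _ | n
  · omega
  · omega
  · exact ⟨2 ^ n, by ring⟩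

theorem act_eight_determines {g : Co0} (h : ∀ p, act g (eight p) = eight p) : g = 1 := by
  refine act_eq_of_forall fun x hx => ?_
  rw [one_act]
  ext i
  have e := dotInt_act g hx (isLeech_eight i)
  rw [h i, dotInt_eight, dotInt_eight] at e
  omega

/-- An automorphism fixing `v0` and fixing each orthogonal minimal vector up to sign is trivial. -/
theorem eq_one_of_fix_orth {n : Co0} (hnv : act n v0 = v0)
    (hall : ∀ w' : V, IsLeech w' → sqNorm w' = 32 → dotInt v0 w' = 0 →
      act n w' = w' ∨ act n w' = -w') : n = 1 := by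
  have hv := isLeech_v0
  have hw0 : dotInt v0 w0 = 0 := by decide
  obtain ⟨ε, hε, hεw⟩ : ∃ ε : ℤ, (ε = 1 ∨ ε = -1) ∧ act n w0 = ε • w0 := by
    rcases hall w0 isLeech_w0 sqNorm_w0 hw0 with e | e
    · exact ⟨1, Or.inl rfl, by rw [e, one_smul]⟩
    · exact ⟨-1, Or.inr rfl, by rw [e, neg_one_zsmul]⟩
  have hlink : ∀ u u' : V, IsLeech u → sqNorm u = 32 → dotInt v0 u = 0 → IsLeech u' →
      sqNorm u' = 32 → dotInt v0 u' = 0 → dotInt u u' ≠ 0 → act n u = ε • u →
      act n u' = ε • u' := by
    intro u u' hu hnu hdu hu' hnu' hdu' hne e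
    rcases hall u' hu' hnu' hdu' with e' | e'
    · have h1 := dotInt_act n hu hu'
      rw [e, e'] at h1
      rcases hε with rfl | rfl
      · rw [e', one_smul]
      · rw [neg_one_zsmul, dotInt_comm, dotInt_neg_right, dotInt_comm] at h1; omega
    · have h1 := dotInt_act n hu hu'
      rw [e, e', dotInt_neg_right] at h1
      rcases hε with rfl | rfl
      · rw [one_smul] at h1; omega
      · rw [e', neg_one_zsmul]
  have hpair : ∀ a b : GolayPt, a ≠ b → a ∉ ({oo, ll} : Finset GolayPt) →
      b ∉ ({oo, ll} : Finset GolayPt) → act n (pairVec a b) = ε • pairVec a b := by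
    intro a b hab ha hb
    simp only [Finset.mem_insert, Finset.mem_singleton, not_or] at ha hb
    obtain ⟨O, hO, hOs⟩ := exists_octad {oo, ll, a}
      (by have := card_le_three (a := oo) (b := ll) (c := a); omega)
    have hO' : IsLeech (twice (ind O)) := isLeech_twice (octad_ind_mem hO)
    have hval : ∀ i, twice (ind O) i = if i ∈ O then 2 else 0 := fun i => by
      by_cases h : i ∈ O <;> simp [twice, h, ZMod.val_one]
    have hnO : sqNorm (twice (ind O)) = 32 := by
      have : ∀ i, twice (ind O) i ^ 2 = if i ∈ O then 4 else 0 := fun i => by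
        rw [hval]; split <;> norm_num
      unfold sqNorm
      rw [sum_congr rfl fun i _ => this i, sum_ite_mem, univ_inter, sum_const, octad_card hO]
      rfl
    have hoo : oo ∈ O := hOs (by simp)
    have hll : ll ∈ O := hOs (by simp)
    have hdO : dotInt v0 (twice (ind O)) = 0 := by
      rw [dotInt_v0, hval, hval, if_pos hoo, if_pos hll]; norm_num
    have hw0p : w0 = pairVec oo ll := by
      ext i; simp only [w0, Spor.vecU, pairVec, oo, ll]
    have e1 := hlink w0 (twice (ind O)) isLeech_w0 sqNorm_w0 hw0 hO' hnO hdO (by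
      rw [hw0p, dotInt_pairVec (by decide), hval, hval, if_pos hoo, if_pos hll]; norm_num) hεw
    refine hlink (twice (ind O)) (pairVec a b) hO' hnO hdO (isLeech_pairVec hab)
      (sqNorm_pairVec hab) ?_ ?_ e1
    · rw [dotInt_v0]; simp [pairVec, Ne.symm ha.1, Ne.symm hb.1, Ne.symm ha.2, Ne.symm hb.2]
    · rw [dotInt_comm, dotInt_pairVec hab, hval, hval, if_pos (hOs (by simp))]
      split <;> norm_num
  have h8oo : eight oo + eight ll = w0 + w0 := by
    ext i
    by_cases a : i = oo
    · subst a; simp [eight, Spor.vecU, w0, oo, ll]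
    by_cases b : i = ll
    · subst b; simp [eight, Spor.vecU, w0, oo, ll]
    simp [eight, Spor.vecU, w0, oo, ll, a, b]
  have h8ll : eight oo = v0 + w0 := by
    ext i
    by_cases a : i = oo
    · subst a; simp [eight, Spor.vecU, Spor.vecU', v0, w0, oo, ll]
    by_cases b : i = ll
    · subst b; simp [eight, Spor.vecU, Spor.vecU', v0, w0, oo, ll]
    simp [eight, Spor.vecU, Spor.vecU', v0, w0, oo, ll, a, b]
  have hoo8 : act n (eight oo) = v0 + ε • w0 := by
    rw [h8ll, act_add n hv isLeech_w0, hnv, hεw]
  have hll8 : act n (eight ll) = ε • w0 - v0 := by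
    have e : eight ll = w0 - v0 := by
      rw [eq_sub_iff_add_eq]
      have := h8oo; rw [h8ll] at this
      linear_combination (norm := module) this
    rw [e, act_sub n isLeech_w0 hv, hnv, hεw]
  have hoth : ∀ i, i ≠ oo → i ≠ ll → act n (eight i) = ε • eight i := by
    intro i h1 h2
    obtain ⟨b, c, hb, hc, hbc⟩ := exists_pair_univ {oo, ll, i}
      (by have := card_le_three (a := oo) (b := ll) (c := i); omega)
    simp only [Finset.mem_insert, Finset.mem_singleton, not_or] at hb hc
    have e : eight i = pairVec i b + pairVec i c - pairVec b c := by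
      ext j
      by_cases a : j = i
      · subst a; simp [eight, pairVec, Ne.symm hb.2.2, Ne.symm hc.2.2]
      by_cases b' : j = b
      · subst b'; simp [eight, pairVec, a, hbc]
      by_cases c' : j = c
      · subst c'; simp [eight, pairVec, a, b']
      simp [eight, pairVec, a, b', c']
    have hib : i ≠ b := Ne.symm hb.2.2
    have hic : i ≠ c := Ne.symm hc.2.2
    rw [e, act_sub n ((isLeech_pairVec hib).add (isLeech_pairVec hic)) (isLeech_pairVec hbc),
      act_add n (isLeech_pairVec hib) (isLeech_pairVec hic), hpair i b hib (by simp [h1, h2])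
        (by simp [hb.1, hb.2.1]), hpair i c hic (by simp [h1, h2]) (by simp [hc.1, hc.2.1]),
      hpair b c hbc (by simp [hb.1, hb.2.1]) (by simp [hc.1, hc.2.1]), smul_sub, smul_add]
  rcases hε with rfl | rfl
  · refine act_eight_determines fun p => ?_
    by_cases a : p = oo
    · subst a; rw [hoo8, one_smul, ← h8ll]
    by_cases b : p = ll
    · subst b; rw [hll8, one_smul]
      have := h8oo; rw [h8ll] at this
      ext i
      have := congrFun this i
      simp only [Pi.add_apply, Pi.sub_apply] at *
      omega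
    rw [hoth p a b, one_smul]
  · exfalso
    obtain ⟨O, hO, hO1, hO2⟩ := exists_octad_missing {oo} (by simp) ll (by decide)
    have hx : IsLeech (twice (ind O)) := isLeech_twice (octad_ind_mem hO)
    have hval : ∀ i, twice (ind O) i = if i ∈ O then 2 else 0 := fun i => by
      by_cases h : i ∈ O <;> simp [twice, h, ZMod.val_one]
    set x := twice (ind O)
    have hy := isLeech_act n hx
    have hd : IsLeech (act n x + x) := hy.add hx
    have hnll : act n (eight ll) = -eight oo := by
      rw [hll8, h8ll, neg_one_zsmul]; abel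
    have hnoo : act n (eight oo) = -eight ll := by
      rw [hoo8, neg_one_zsmul]
      have := h8oo; rw [h8ll] at this
      linear_combination (norm := module) this
    have c1 : act n x ll = -x oo := by
      have e := dotInt_act n hx (isLeech_eight oo)
      rw [hnoo, dotInt_neg_right, dotInt_eight, dotInt_eight] at e; omega
    have c2 : act n x oo = -x ll := by
      have e := dotInt_act n hx (isLeech_eight ll)
      rw [hnll, dotInt_neg_right, dotInt_eight, dotInt_eight] at e; omega
    have c3 : ∀ i, i ≠ oo → i ≠ ll → act n x i = -x i := fun i h1 h2 => by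
      have e := dotInt_act n hx (isLeech_eight i)
      rw [hoth i h1 h2, neg_one_zsmul, dotInt_neg_right, dotInt_eight, dotInt_eight] at e; omega
    have hn8 : sqNorm (act n x + x) = 8 := by
      have hz : ∀ i, i ≠ oo → i ≠ ll → (act n x + x) i = 0 := fun i h1 h2 => by
        simp [c3 i h1 h2]
      unfold sqNorm
      rw [← sum_subset (subset_univ ({oo, ll} : Finset GolayPt)) fun i _ hi => by
        simp only [Finset.mem_insert, Finset.mem_singleton, not_or] at hi
        rw [hz i hi.1 hi.2]; rfl]
      rw [sum_pair (by decide), Pi.add_apply, Pi.add_apply, c1, c2, hval, hval,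
        if_pos (hO1 (Finset.mem_singleton_self _)), if_neg hO2]
      norm_num
    have h0 : act n x + x ≠ 0 := fun h => by rw [h] at hn8; exact absurd hn8 (by decide)
    have := hd.min_sqNorm h0
    omega

/-- A 2-subgroup of `Co0` fixing `v0` up to sign and normalized by the stabiliser of `v0` is
central. -/
theorem le_center_of_fix_min (N : Subgroup Co0) [Finite Co0] (hN2 : IsPGroup 2 N)
    (hfix : ∀ n ∈ N, act n v0 = v0 ∨ act n v0 = -v0) (hneg : negOne ∈ N)
    (hnorm : ∀ h : Co0, act h v0 = v0 → ∀ n ∈ N, h⁻¹ * n * h ∈ N) :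
    N ≤ Subgroup.center Co0 := by
  have hv := isLeech_v0
  set T : Set leechLattice := {w | sqNorm (w : V) = 32 ∧ dotInt v0 (w : V) = 0}
  have hTinv : ∀ n ∈ N, ∀ w ∈ T, n • w ∈ T := by
    intro n hn w hw
    have hwL : IsLeech (w : V) := IsLeech.coe w
    show sqNorm ((n • w : leechLattice) : V) = 32 ∧ dotInt v0 ((n • w : leechLattice) : V) = 0
    rw [← act_coe]
    refine ⟨by rw [sqNorm_act n hwL]; exact hw.1, ?_⟩
    rcases hfix n hn with e | e
    · rw [← e, dotInt_act n hv hwL]; exact hw.2
    · have h1 : v0 = -act n v0 := by rw [e, neg_neg]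
      rw [h1, ← act_neg n hv, dotInt_act n hv.neg hwL, dotInt_comm, dotInt_neg_right, dotInt_comm,
        hw.2, neg_zero]
  let sub : SubMulAction N leechLattice :=
    { carrier := T
      smul_mem' := fun n w hw => hTinv n n.2 w hw }
  have hcard : Nat.card sub = 93150 := by
    have h := (Cfsg.Agent.S1573.result v0 (mem_leechLattice_iff.2 hv) sqNorm_v0).2.2
    rw [← h, ← Nat.card_coe_set_eq]
    exact Nat.card_congr
      { toFun := fun w => ⟨((w : leechLattice) : V), (w : leechLattice).2, w.2.1, w.2.2⟩
        invFun := fun w => ⟨⟨w.1, w.2.1⟩, w.2.2.1, w.2.2.2⟩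
        left_inv := fun _ => rfl
        right_inv := fun _ => rfl }
  haveI : Finite sub := Nat.finite_of_card_ne_zero (by omega)
  obtain ⟨a, ha⟩ := exists_small_orbit hN2 (α := sub) (by rw [hcard]; norm_num)
  -- all elements of `N` fix `a` up to sign
  set w : V := ((a : leechLattice) : V) with hwdef
  have hwL : IsLeech w := IsLeech.coe _
  have hw : sqNorm w = 32 ∧ dotInt v0 w = 0 := a.2
  have hcoe : ∀ n : N, (((n • a : sub) : leechLattice) : V) = act (n : Co0) w := fun n => by
    rw [hwdef, act_coe]; rfl
  have hpm : ∀ n ∈ N, act n w = w ∨ act n w = -w := by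
    intro n hn
    by_contra hcon
    push Not at hcon
    let f : Fin 3 → MulAction.orbit N a := ![⟨a, MulAction.mem_orbit_self a⟩,
      ⟨(⟨negOne, hneg⟩ : N) • a, MulAction.mem_orbit _ _⟩, ⟨(⟨n, hn⟩ : N) • a, MulAction.mem_orbit _ _⟩]
    have hne : w ≠ -w := fun e => by
      have h0 : w = 0 := funext fun i => by
        have := congrFun e i; simp only [Pi.neg_apply, Pi.zero_apply] at this ⊢; omega
      rw [h0] at hw; exact absurd hw.1 (by decide)
    have hval : ∀ i, ((((f i : MulAction.orbit N a) : sub) : leechLattice) : V) =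
        ![w, -w, act n w] i := by
      intro i
      fin_cases i
      · rfl
      · show (((⟨negOne, hneg⟩ : N) • a : sub) : leechLattice).1 = -w
        rw [hcoe, act_negOne hwL]
      · show (((⟨n, hn⟩ : N) • a : sub) : leechLattice).1 = act n w
        rw [hcoe]
    have hinj : Function.Injective f := fun i j e => by
      have e' := (hval i).symm.trans ((congrArg (fun t : MulAction.orbit N a =>
        (((t : sub) : leechLattice) : V)) e).trans (hval j))
      fin_cases i <;> fin_cases j <;>
        simp [hne, Ne.symm hne, hcon.1, hcon.2, Ne.symm hcon.1, Ne.symm hcon.2] at e' ⊢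
    have := Nat.card_le_card_of_injective f hinj
    rw [Nat.card_eq_fintype_card (α := Fin 3), Fintype.card_fin] at this
    omega
  have hall : ∀ n ∈ N, ∀ w' : V, IsLeech w' → sqNorm w' = 32 → dotInt v0 w' = 0 →
      act n w' = w' ∨ act n w' = -w' := by
    intro n hn w' hw' hn' hd'
    obtain ⟨h, -, hh, hw2⟩ := exists_act_orth_pair hv sqNorm_v0 hwL hw.1 hw.2 hw' hn' hd'
    have key : ∀ u, act h w = u → act n u = u ∨ act n u = -u := by
      intro u hu
      have he : act n u = act h (act (h⁻¹ * n * h) w) := by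
        rw [mul_act, mul_act, act_inv_act, hu]
      rcases hpm _ (hnorm h hh n hn) with e | e <;> rw [he, e]
      · exact Or.inl hu
      · exact Or.inr (by rw [act_neg h hwL, hu])
    rcases hw2 with e | e
    · exact key _ e
    · rcases key _ e with e' | e' <;> rw [act_neg n hw'] at e'
      · exact Or.inl (neg_injective e')
      · exact Or.inr (neg_injective e')
  have htriv : ∀ n ∈ N, act n v0 = v0 → n = 1 := fun n hn hnv =>
    eq_one_of_fix_orth hnv (hall n hn)
  intro n hn
  rw [mem_center_iff]
  rcases hfix n hn with e | e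
  · exact Or.inl (htriv n hn e)
  · right
    have h1 := htriv _ (mul_mem hneg hn) (by
      rw [mul_act, e, act_negOne hv.neg, neg_neg])
    have h2 : negOne * negOne = 1 := act_eq_of_forall fun x hx => by
      rw [mul_act, act_negOne hx, act_negOne hx.neg, neg_neg, one_act]
    exact mul_left_cancel (h1.trans h2.symm)

/-- Kernel: an automorphism fixing a minimal vector and the classes of the orthogonal ones modulo
that vector is trivial. -/
theorem eq_one_of_fix_classes {x : V} (hx : IsLeech x) (hnx : sqNorm x = 32) {n : Co0}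
    (hn : act n x = x)
    (h : ∀ w, IsLeech w → sqNorm w = 32 → dotInt x w = 0 →
      ∃ t, IsLeech t ∧ (act n w - w = 2 • t ∨ act n w - (w + x) = 2 • t)) : n = 1 := by
  obtain ⟨g, -, hg⟩ := exists_act_v0 hx hnx
  have hg' : act g⁻¹ v0 = x := by rw [← hg, inv_act_act]
  have key : g * n * g⁻¹ = 1 := by
    refine eq_one_of_fix_orth (by rw [mul_act, mul_act, hg', hn, hg]) fun w' hw' hn' hd' => ?_
    have hw := isLeech_act g⁻¹ hw'
    have hnw : sqNorm (act g⁻¹ w') = 32 := by rw [sqNorm_act _ hw', hn']
    have hdw : dotInt x (act g⁻¹ w') = 0 := by rw [← hg', dotInt_act _ isLeech_v0 hw', hd']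
    obtain ⟨t, ht, e | e⟩ := h _ hw hnw hdw
    · have hy := isLeech_act n hw
      rw [mul_act, mul_act]
      rcases congr_two_cases hw hy ht.neg (by rw [smul_neg, ← e, neg_sub]) (by omega)
        (by rw [sqNorm_act n hw]; omega) with e' | e' | e'
      · left; rw [e', act_inv_act]
      · right; rw [e', act_neg g hw, act_inv_act]
      · omega
    · exfalso
      have hy := isLeech_act n hw
      have hs : sqNorm (act g⁻¹ w' + x) = 64 := by
        rw [sqNorm_add, hnw, hnx, dotInt_comm, hdw]; norm_num
      rcases congr_two_cases hy (hw.add hx) ht e (by rw [sqNorm_act n hw]; omega) (by omega)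
        with e' | e' | e'
      · rw [e', sqNorm_act n hw] at hs; omega
      · rw [e', sqNorm_neg, sqNorm_act n hw] at hs; omega
      · rw [sqNorm_act n hw] at e'; omega
  have h2 : g * n = g := by simpa using congrArg (· * g) key
  exact mul_eq_left.mp h2

/-- A 2-subgroup of the stabiliser of a minimal vector normalized by that stabiliser is trivial. -/
theorem eq_bot_of_normal_stab [Finite Co0] {x : V} (hx : IsLeech x) (hnx : sqNorm x = 32)
    (N : Subgroup Co0) (hN2 : IsPGroup 2 N) (hfix : ∀ n ∈ N, act n x = x)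
    (hnorm : ∀ h : Co0, act h x = x → ∀ n ∈ N, h * n * h⁻¹ ∈ N) : N = ⊥ := by
  haveI : Fact (Nat.Prime 2) := ⟨Nat.prime_two⟩
  obtain ⟨g, -, hg⟩ := exists_act_v0 hx hnx
  have hg' : act g⁻¹ v0 = x := by rw [← hg, inv_act_act]
  set N' := N.map (MulAut.conj g).toMonoidHom ⊔ Subgroup.center Co0 with hN'
  have hmem : ∀ a ∈ N', ∃ n ∈ N, ∃ c ∈ Subgroup.center Co0, a = g * n * g⁻¹ * c := by
    intro a ha
    obtain ⟨b, ⟨n, hn, rfl⟩, c, hc, rfl⟩ := Subgroup.mem_sup_of_normal_right.1 ha
    exact ⟨n, hn, c, hc, rfl⟩
  have hfix' : ∀ a ∈ N', act a v0 = v0 ∨ act a v0 = -v0 := by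
    intro a ha
    obtain ⟨n, hn, c, hc, rfl⟩ := hmem a ha
    rcases mem_center_iff.1 hc with rfl | rfl
    · left; rw [mul_one, mul_act, mul_act, hg', hfix n hn, hg]
    · right
      rw [mul_act, act_negOne isLeech_v0, act_neg _ isLeech_v0, mul_act, mul_act, hg', hfix n hn, hg]
  have hle := le_center_of_fix_min N'
    ((hN2.map _).to_sup_of_normal_right (IsPGroup.of_card (n := 1)
      (by rw [H14.card_center, pow_one])))
    hfix' (Subgroup.mem_sup_right negOne_mem_center) fun h hh a ha => by
      obtain ⟨n, hn, c, hc, rfl⟩ := hmem a ha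
      have hk : act (g⁻¹ * h⁻¹ * g) x = x := by
        rw [mul_act, mul_act, hg, show act h⁻¹ v0 = v0 by conv_lhs => rw [← hh, inv_act_act], hg']
      have e : h⁻¹ * (g * n * g⁻¹ * c) * h =
          g * ((g⁻¹ * h⁻¹ * g) * n * (g⁻¹ * h⁻¹ * g)⁻¹) * g⁻¹ * c := by
        have hc' : c * h = h * c := (Subgroup.mem_center_iff.1 hc h).symm
        calc h⁻¹ * (g * n * g⁻¹ * c) * h = h⁻¹ * (g * n * g⁻¹) * (c * h) := by group
          _ = _ := by rw [hc']; group
      rw [e]
      exact Subgroup.mul_mem_sup ⟨_, hnorm _ hk n hn, rfl⟩ hc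
  rw [eq_bot_iff]
  intro n hn
  have h1 := hle (Subgroup.mem_sup_left (T := Subgroup.center Co0)
    ⟨n, hn, rfl⟩ : (MulAut.conj g).toMonoidHom n ∈ N')
  have h1' : g * n * g⁻¹ ∈ Subgroup.center Co0 := h1
  have e : n = g * n * g⁻¹ := by
    calc n = g⁻¹ * ((g * n * g⁻¹) * g) := by group
      _ = g⁻¹ * (g * (g * n * g⁻¹)) := by rw [Subgroup.mem_center_iff.1 h1' g]
      _ = g * n * g⁻¹ := by group
  rw [← e] at h1'
  rcases mem_center_iff.1 h1' with h2 | h2
  · exact h2
  · have := hfix n hn
    rw [h2, act_negOne hx] at this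
    exfalso
    have h0 : x = 0 := funext fun i => by
      have := congrFun this i; simp only [Pi.neg_apply, Pi.zero_apply] at this ⊢; omega
    rw [h0] at hnx; exact absurd hnx (by decide)

end Cfsg.Agent.H18.Monster
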