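import Cfsg.Agent.H18.Monster.Setting
import Cfsg.Agent.H18.Monster.MinClass
import Cfsg.Agent.H18.Monster.CrossClass

/-! The conjugates of the central involution in `Q` form the classes of squared length 64. -/

set_option autoImplicit false

namespace Cfsg.Agent.H18.Monster.Data

open Cfsg.Agent.H14

variable {G : Type*} [Group G] [Finite G] {z : G}
  {Q : Subgroup (Subgroup.centralizer ({z} : Set G))} [Q.Normal] (D : Data z Q)

/-- The underlying element of `G`. -/
abbrev gv (q : Q) : G := ((q : Subgroup.centralizer ({z} : Set G)) : G)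

theorem gv_injective : Function.Injective (gv (z := z) (Q := Q)) := fun _ _ h =>
  Subtype.ext (Subtype.ext h)

/-- A second conjugate is neither `1` nor `z` in `Q`. -/
theorem noncentral {q : Q} (hs : IsConj z (gv q)) (h1 : gv q ≠ z) : q ≠ 1 ∧ q ≠ D.zQ := by
  refine ⟨fun e => ?_, fun e => h1 (congrArg gv e)⟩
  obtain ⟨c, hc⟩ := isConj_iff.1 hs
  rw [e] at hc
  exact D.z_ne_one (conj_eq_one_iff.1 hc)

theorem cls_eq_iff {x y : V} (hx : IsLeech x) (hy : IsLeech y) :
    D.mod.cls x = D.mod.cls y ↔ ∃ t, IsLeech t ∧ x - y = 2 • t := by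
  constructor
  · intro h
    have h1 : D.mod.cls (x - y) = 1 := by
      have h2 := D.mod.cls_add (hx.sub hy) hy
      rw [sub_add_cancel, h] at h2
      exact right_eq_mul.1 h2
    rw [D.mod.cls_of (hx.sub hy)] at h1
    obtain ⟨w, hw⟩ := (D.mod.ker _).1 h1
    refine ⟨w, IsLeech.coe w, ?_⟩
    rw [two_nsmul]
    exact congrArg Subtype.val hw
  · rintro ⟨t, ht, e⟩
    rw [← sub_add_cancel x y, e, two_nsmul, add_comm, D.mod.cls_shift hy ht]

/-- The class of an element of `Q` contains a vector of squared length 0, 32, 48 or 64. -/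
theorem exists_rep (q : Q) : ∃ x, IsLeech x ∧
    (sqNorm x = 0 ∨ sqNorm x = 32 ∨ sqNorm x = 48 ∨ sqNorm x = 64) ∧
    (QuotientGroup.mk q : Q ⧸ Subgroup.center Q) = D.mod.cls x := by
  obtain ⟨x, hx, hq⟩ := D.mod.cls_surj q
  obtain ⟨y, hy, hn, t, ht, e⟩ := exists_short_rep hx
  refine ⟨y, hy, ?_, by rw [← hq, D.cls_eq_iff hx hy]; exact ⟨t, ht, e⟩⟩
  by_cases h0 : y = 0
  · left; rw [h0]; rfl
  · have := hy.min_sqNorm h0
    have := hy.sixteen_dvd_sqNorm
    omega

/-- The first step: a second conjugate does not lie in a class of squared length 32. -/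
theorem not_min {q : Q} (hs : IsConj z (gv q)) (h1 : gv q ≠ z) {x : V} (hx : IsLeech x)
    (hn : sqNorm x = 32) : (QuotientGroup.mk q : Q ⧸ Subgroup.center Q) ≠ D.mod.cls x := by
  intro hq
  obtain ⟨k, -, ek⟩ := exists_act_v0 hx hn
  set D' := D.twist k⁻¹ with hD'
  have hq' : (QuotientGroup.mk q : Q ⧸ Subgroup.center Q) = D'.mod.cls v0 := by
    rw [hD', D.twist_cls _ isLeech_v0, ← ek, inv_act_act, hq]
  obtain ⟨hq1, hqz⟩ := D'.noncentral hs h1
  obtain ⟨g, hg⟩ := isConj_iff.1 hs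
  have hgF : g * z * g⁻¹ ∈ D'.F := D'.mem_F.2 ⟨q, hg.symm⟩
  have hfix : ∀ n ∈ D'.twoLocal g, act n v0 = v0 ∨ act n v0 = -v0 := by
    intro n hn'
    have hnL := isLeech_act n isLeech_v0
    obtain ⟨t, ht, e⟩ := (D'.cls_eq_iff hnL isLeech_v0).1
      (D'.twoLocal_fix isLeech_v0 q hq' hg.symm hn')
    rcases congr_two_cases isLeech_v0 hnL ht.neg (by rw [smul_neg, ← e, neg_sub])
      (by rw [sqNorm_v0]; norm_num) (by rw [sqNorm_act n isLeech_v0, sqNorm_v0]; norm_num)
      with h | h | h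
    · exact Or.inl h
    · exact Or.inr h
    · exact absurd h.1 (by rw [sqNorm_v0]; norm_num)
  have hle := le_center_of_fix_min (D'.twoLocal g) D'.twoLocal_isPGroup hfix
    (D'.center_le_twoLocal negOne_mem_center) fun h hh n hn' => by
      have hh' : act h⁻¹ v0 = v0 := by conv_lhs => rw [← hh, inv_act_act]
      have := D'.twoLocal_normalized isLeech_v0 q hq' hg.symm hq1 hqz (k := h⁻¹)
        (by rw [hh']) hn'
      rwa [inv_inv] at this
  have h2 : Nat.card (D'.twoLocal g) ≤ 2 := by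
    rw [← H14.card_center]; exact Subgroup.card_le_of_le hle
  have h3 := D'.le_card_twoLocal hgF
  have h4 := D'.card_inter_le hgF (by rw [hg]; exact h1)
  have := Nat.mul_le_mul h2 h4
  omega

/-- A second conjugate lies in a class of squared length 64. -/
theorem exists_norm64 {q : Q} (hs : IsConj z (gv q)) (h1 : gv q ≠ z) :
    ∃ x, IsLeech x ∧ sqNorm x = 64 ∧
      (QuotientGroup.mk q : Q ⧸ Subgroup.center Q) = D.mod.cls x := by
  obtain ⟨x, hx, hn, hq⟩ := D.exists_rep q
  obtain ⟨hq1, hqz⟩ := D.noncentral hs h1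
  have hqq : q * q = 1 := gv_injective (by
    obtain ⟨g, hg⟩ := isConj_iff.1 hs
    show gv q * gv q = 1
    rw [← hg, conj_mul, D.z_sq, mul_one, mul_inv_cancel])
  have h32 := (D.mod.sq_one_iff hx hq).1 hqq
  rcases hn with h | h | h | h
  · exfalso
    have hx0 : x = 0 := by
      by_contra hne
      have := hx.min_sqNorm hne
      omega
    subst hx0
    rcases (D.cls_eq_one_iff q hq).1 (by
      have h0 := D.mod.cls_double isLeech_zero
      rwa [add_zero] at h0) with e | e
    exacts [hq1 e, hqz e]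
  · exact absurd hq (D.not_min hs h1 hx h)
  · omega
  · exact ⟨x, hx, h, hq⟩

/-- Two classes of squared length 64 are in one orbit. -/
theorem exists_act_cls {x y : V} (hx : IsLeech x) (hnx : sqNorm x = 64) (hy : IsLeech y)
    (hny : sqNorm y = 64) : ∃ g : Co0, D.mod.cls (act g x) = D.mod.cls y := by
  have key : ∀ w, IsLeech w → sqNorm w = 64 → ∃ g : Co0,
      D.mod.cls (act g w) = D.mod.cls (eight oo) ∧
      ∀ k : Co0, D.mod.cls (act k (act g w)) = D.mod.cls (act k (eight oo)) := by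
    intro w hw hnw
    obtain ⟨g, -, e⟩ := exists_act_eight hw hnw
    have hcong : ∃ t, IsLeech t ∧ act g w - eight oo = 2 • t := by
      rcases e with e | e <;> rw [e]
      · exact ⟨0, isLeech_zero, by rw [sub_self, smul_zero]⟩
      · refine ⟨-w0, isLeech_w0.neg, ?_⟩
        ext i
        by_cases a : i = oo
        · subst a; simp [eight, Spor.vecU, w0, oo, ll]
        by_cases b : i = ll
        · subst b; simp [eight, Spor.vecU, w0, oo, ll]
        simp [eight, Spor.vecU, w0, oo, ll, a, b]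
    obtain ⟨t, ht, et⟩ := hcong
    refine ⟨g, (D.cls_eq_iff (isLeech_act g hw) (isLeech_eight oo)).2 ⟨t, ht, et⟩, fun k => ?_⟩
    refine (D.cls_eq_iff (isLeech_act k (isLeech_act g hw))
      (isLeech_act k (isLeech_eight oo))).2 ⟨act k t, isLeech_act k ht, ?_⟩
    rw [← act_sub k (isLeech_act g hw) (isLeech_eight oo), et, act_two_smul k ht]
  obtain ⟨g, -, hg⟩ := key x hx hnx
  obtain ⟨h, -, hh⟩ := key y hy hny
  refine ⟨h⁻¹ * g, ?_⟩
  rw [mul_act, hg, ← hh, inv_act_act]

/-- The criterion, given one second conjugate. -/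
theorem isConj_iff_norm64 (q : Q) :
    (IsConj z (gv q) ∧ gv q ≠ z) ↔
      ∃ v : Cfsg.leechLattice, sqNorm (v : V) = 64 ∧ D.ψ v = QuotientGroup.mk q := by
  constructor
  · rintro ⟨hs, h1⟩
    obtain ⟨x, hx, hn, hq⟩ := D.exists_norm64 hs h1
    exact ⟨⟨x, mem_leechLattice_iff.2 hx⟩, hn, by rw [hq, D.mod.cls_of hx]; rfl⟩
  · rintro ⟨v, hn, hv⟩
    have hvx : (QuotientGroup.mk q : Q ⧸ Subgroup.center Q) = D.mod.cls (v : V) := by
      rw [← hv, D.mod.cls_coe]; rfl
    obtain ⟨-, -, -, -, g, ⟨hC, hgQ⟩, hne⟩ := D.hset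
    set q₀ : Q := ⟨⟨g * z * g⁻¹, hC⟩, hgQ⟩ with hq₀
    have hs₀ : IsConj z (gv q₀) := isConj_iff.2 ⟨g, rfl⟩
    obtain ⟨x, hx, hnx, hqx⟩ := D.exists_norm64 hs₀ hne
    obtain ⟨k, hk⟩ := D.exists_act_cls hx hnx (IsLeech.coe v) hn
    have hq1 : q ≠ 1 ∧ q ≠ D.zQ := by
      by_contra hcon
      have hcon' : q = 1 ∨ q = D.zQ := by
        by_contra h; push Not at h; exact hcon h
      have h1 : D.mod.cls (v : V) = 1 := (D.cls_eq_one_iff q hvx).2 hcon'
      rw [D.mod.cls_coe] at h1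
      obtain ⟨w, hw⟩ := (D.mod.ker v).1 h1
      have hwv : (v : V) - 0 = 2 • (w : V) := by
        rw [sub_zero, two_nsmul]; exact congrArg Subtype.val hw
      rcases congr_two_cases (IsLeech.coe v) isLeech_zero (IsLeech.coe w) hwv
        hn.le (by decide) with e | e | e
      · rw [← e] at hn; exact absurd hn (by decide)
      · rw [eq_comm, neg_eq_zero] at e; rw [e] at hn; exact absurd hn (by decide)
      · exact absurd e.2.1 (by decide)
    obtain ⟨h, -, hh⟩ := D.exists_lift hx q₀ q hqx hvx hq1.1 hq1.2 k hk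
    have hconj : (h : G) * gv q₀ * (h : G)⁻¹ = gv q := congrArg Subtype.val hh
    exact ⟨hs₀.trans (isConj_iff.2 ⟨h, hconj⟩), fun e => hq1.2 (gv_injective e)⟩

include D in
/-- Transitivity on second conjugates. -/
theorem exists_conj_second {q r : Q} (hq : IsConj z (gv q)) (hq1 : gv q ≠ z)
    (hr : IsConj z (gv r)) (hr1 : gv r ≠ z) :
    ∃ h ∈ Subgroup.centralizer ({z} : Set G), h * gv q * h⁻¹ = gv r := by
  obtain ⟨x, hx, hnx, hqx⟩ := D.exists_norm64 hq hq1
  obtain ⟨y, hy, hny, hry⟩ := D.exists_norm64 hr hr1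
  obtain ⟨k, hk⟩ := D.exists_act_cls hx hnx hy hny
  obtain ⟨n1, n2⟩ := D.noncentral hr hr1
  obtain ⟨h, -, hh⟩ := D.exists_lift hx q r hqx hry n1 n2 k hk
  exact ⟨h, h.2, congrArg Subtype.val hh⟩

/-- An involution of `Q` not conjugate to `z` lies in a class of squared length 32. -/
theorem exists_norm32 {q : Q} (ho : orderOf (gv q) = 2) (hs : ¬ IsConj z (gv q)) :
    ∃ x, IsLeech x ∧ sqNorm x = 32 ∧
      (QuotientGroup.mk q : Q ⧸ Subgroup.center Q) = D.mod.cls x := by
  obtain ⟨x, hx, hn, hq⟩ := D.exists_rep q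
  have hqq : q * q = 1 := gv_injective (by
    show gv q * gv q = 1
    rw [← pow_two, ← ho, pow_orderOf_eq_one])
  have h32 := (D.mod.sq_one_iff hx hq).1 hqq
  rcases hn with h | h | h | h
  · exfalso
    have hx0 : x = 0 := by
      by_contra hne
      have := hx.min_sqNorm hne
      omega
    subst hx0
    rcases (D.cls_eq_one_iff q hq).1 (by
      have h0 := D.mod.cls_double isLeech_zero
      rwa [add_zero] at h0) with e | e
    · rw [e] at ho
      have : orderOf (1 : G) = 2 := ho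
      rw [orderOf_one] at this; omega
    · exact hs (by rw [e]; exact IsConj.refl z)
  · exact ⟨x, hx, h, hq⟩
  · omega
  · exact absurd ((D.isConj_iff_norm64 q).2 ⟨⟨x, mem_leechLattice_iff.2 hx⟩, h,
      by rw [hq, D.mod.cls_of hx]; rfl⟩).1 hs

include D in
/-- Transitivity on the involutions of `Q` not conjugate to `z`. -/
theorem exists_conj_other {q r : Q} (hq2 : orderOf (gv q) = 2) (hq : ¬ IsConj z (gv q))
    (hr2 : orderOf (gv r) = 2) (hr : ¬ IsConj z (gv r)) :
    ∃ h ∈ Subgroup.centralizer ({z} : Set G), h * gv q * h⁻¹ = gv r := by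
  obtain ⟨x, hx, hnx, hqx⟩ := D.exists_norm32 hq2 hq
  obtain ⟨y, hy, hny, hry⟩ := D.exists_norm32 hr2 hr
  obtain ⟨k, -, hk⟩ := exists_act_min hx hnx hy hny
  have n1 : r ≠ 1 := fun e => by
    rw [e] at hr2
    have : orderOf (1 : G) = 2 := hr2
    rw [orderOf_one] at this; omega
  have n2 : r ≠ D.zQ := fun e => hr (by rw [e]; exact IsConj.refl z)
  obtain ⟨h, -, hh⟩ := D.exists_lift hx q r hqx hry n1 n2 k (by rw [hk])
  exact ⟨h, h.2, congrArg Subtype.val hh⟩

end Cfsg.Agent.H18.Monster.Data
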