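import Cfsg.Agent.H18.Monster.Lattice
import Cfsg.Agent.H14.LeechPairs
import Cfsg.Agent.H14.LeechCrosses
import Cfsg.Prelude.Def_MonsterType

/-! Invariant quadratic forms on the Leech lattice modulo 2. -/

set_option autoImplicit false

namespace Cfsg.Agent.H18.Monster

open Finset Cfsg.Agent.H14

/-- A quadratic form on the lattice modulo 2, with values in a group of order at most 2,
invariant under the automorphisms of the lattice. -/
structure QForm (M : Type*) [CommGroup M] where
  f : V → M
  sq_one : ∀ a : M, a * a = 1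
  two : ∀ a b : M, a ≠ 1 → b ≠ 1 → a = b
  act_eq : ∀ (g : Co0) (x : V), IsLeech x → f (act g x) = f x
  shift : ∀ x y : V, IsLeech x → IsLeech y → f (x + (y + y)) = f x
  add_left : ∀ x y t : V, IsLeech x → IsLeech y → IsLeech t →
    f (x + y + t) * f (x + y) * f t =
      (f (x + t) * f x * f t) * (f (y + t) * f y * f t)

namespace QForm

variable {M : Type*} [CommGroup M] (F : QForm M)

/-- The associated bilinear form. -/
def B (x y : V) : M := F.f (x + y) * F.f x * F.f y

theorem B_add_left {x y t : V} (hx : IsLeech x) (hy : IsLeech y) (ht : IsLeech t) :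
    F.B (x + y) t = F.B x t * F.B y t := F.add_left x y t hx hy ht

theorem B_comm (x y : V) : F.B x y = F.B y x := by
  unfold B; rw [add_comm x y]; ac_rfl

theorem cancel (F : QForm M) (a b : M) : a * b * b = a := by rw [mul_assoc, F.sq_one, mul_one]

theorem f_zero : F.f 0 = 1 := by
  have h := F.add_left 0 0 0 isLeech_zero isLeech_zero isLeech_zero
  simp only [add_zero] at h
  rw [F.cancel, F.sq_one] at h
  exact h

theorem f_neg {x : V} (hx : IsLeech x) : F.f (-x) = F.f x := by
  have h := F.shift x (-x) hx hx.neg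
  rwa [show x + (-x + -x) = -x by abel] at h

theorem f_add_neg {x y : V} (hx : IsLeech x) (hy : IsLeech y) :
    F.f (x + -y) = F.f (x + y) := by
  have h := F.shift (x + y) (-y) (hx.add hy) hy.neg
  rwa [show x + y + (-y + -y) = x + -y by abel] at h

theorem B_neg_right {x y : V} (hx : IsLeech x) (hy : IsLeech y) : F.B x (-y) = F.B x y := by
  unfold B; rw [F.f_add_neg hx hy, F.f_neg hy]

theorem B_self {x : V} (hx : IsLeech x) : F.B x x = 1 := by
  unfold B
  have h := F.shift 0 x isLeech_zero hx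
  rw [zero_add, F.f_zero] at h
  rw [h, one_mul, F.sq_one]

theorem f_add (x y : V) : F.f (x + y) = F.f x * F.f y * F.B x y := by
  unfold B
  rw [show F.f x * F.f y * (F.f (x + y) * F.f x * F.f y) =
    F.f (x + y) * (F.f x * F.f x) * (F.f y * F.f y) by ac_rfl,
    F.sq_one, F.sq_one, mul_one, mul_one]

/-- A reference vector of squared length 48. -/
noncomputable def octad1 : Finset GolayPt :=
  (exists_octad_missing {oo} (by simp) ll (by decide)).choose

theorem octad1_spec : octad1 ∈ octads ∧ oo ∈ octad1 ∧ ll ∉ octad1 := by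
  have h := (exists_octad_missing {oo} (by simp) ll (by decide)).choose_spec
  exact ⟨h.1, h.2.1 (Finset.mem_singleton_self _), h.2.2⟩

theorem sqNorm_twice_octad {O : Finset GolayPt} (hO : O ∈ octads) :
    sqNorm (twice (ind O)) = 32 := by
  have : ∀ i, twice (ind O) i ^ 2 = if i ∈ O then 4 else 0 := fun i => by
    by_cases h : i ∈ O <;> simp [twice, h, ZMod.val_one]
  unfold sqNorm
  rw [sum_congr rfl fun i _ => this i, sum_ite_mem, univ_inter, sum_const, octad_card hO]
  rfl

theorem twice_ind_apply (O : Finset GolayPt) (i : GolayPt) :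
    twice (ind O) i = if i ∈ O then 2 else 0 := by
  by_cases h : i ∈ O <;> simp [twice, h, ZMod.val_one]

/-- The value on vectors of squared length 48. -/
noncomputable def beta : M := F.f (v0 + -twice (ind octad1))

theorem sqNorm_ref48 : sqNorm (v0 + -twice (ind octad1)) = 48 := by
  rw [sqNorm_add, sqNorm_v0, sqNorm_neg, sqNorm_twice_octad octad1_spec.1, dotInt_v0,
    Pi.neg_apply, Pi.neg_apply, twice_ind_apply, twice_ind_apply, if_pos octad1_spec.2.1,
    if_neg octad1_spec.2.2]
  norm_num

theorem f_48 {x : V} (hx : IsLeech x) (hn : sqNorm x = 48) : F.f x = F.beta := by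
  obtain ⟨g, -, e⟩ := exists_act48 hx hn
    (isLeech_v0.add (isLeech_twice (octad_ind_mem octad1_spec.1)).neg) sqNorm_ref48
  unfold beta
  rw [← e, F.act_eq g x hx]

theorem f_32' {x : V} (hx : IsLeech x) (hn : sqNorm x = 32) : F.f x = F.f v0 := by
  obtain ⟨g, -, e⟩ := exists_act_v0 hx hn
  rw [← e, F.act_eq g x hx]

theorem f_64' {x : V} (hx : IsLeech x) (hn : sqNorm x = 64) : F.f x = F.f (eight oo) := by
  obtain ⟨g, -, e⟩ := exists_act_eight hx hn
  rw [← F.act_eq g x hx]
  rcases e with e | e <;> rw [e]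
  rw [F.f_neg (isLeech_eight ll), ← F.shift (eight oo) (-v0) (isLeech_eight oo) isLeech_v0.neg]
  congr 1
  ext i
  by_cases a : i = oo
  · subst a; simp [eight, Pi.single_apply]; rw [v0_oo]; norm_num
  by_cases b : i = ll
  · subst b; simp [eight, Pi.single_apply]; rw [v0_ll]; norm_num
  simp [eight, Pi.single_apply, a, b, v0_other i a b]

theorem B_32 {u w : V} (hu : IsLeech u) (hnu : sqNorm u = 32) (hw : IsLeech w)
    (hnw : sqNorm w = 32) :
    (dotInt u w = 0 → F.B u w = F.f (eight oo)) ∧
    (dotInt u w = 8 ∨ dotInt u w = -8 → F.B u w = F.beta) ∧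
    (dotInt u w = 16 ∨ dotInt u w = -16 → F.B u w = F.f v0) := by
  have key : ∀ w' : V, IsLeech w' → sqNorm w' = 32 →
      (dotInt u w' = 0 → F.B u w' = F.f (eight oo)) ∧
      (dotInt u w' = -8 → F.B u w' = F.beta) ∧
      (dotInt u w' = -16 → F.B u w' = F.f v0) := by
    intro w' hw' hnw'
    have hsum := sqNorm_add u w'
    rw [hnu, hnw'] at hsum
    refine ⟨fun h => ?_, fun h => ?_, fun h => ?_⟩ <;> rw [h] at hsum <;> unfold B
    · rw [F.f_64' (hu.add hw') (by rw [hsum]; norm_num), F.f_32' hu hnu, F.f_32' hw' hnw',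
        F.cancel]
    · rw [F.f_48 (hu.add hw') (by rw [hsum]; norm_num), F.f_32' hu hnu, F.f_32' hw' hnw',
        F.cancel]
    · rw [F.f_32' (hu.add hw') (by rw [hsum]; norm_num), F.f_32' hu hnu, F.f_32' hw' hnw',
        F.cancel]
  obtain ⟨k0, k8, k16⟩ := key w hw hnw
  obtain ⟨-, n8, n16⟩ := key (-w) hw.neg (by rw [sqNorm_neg, hnw])
  rw [dotInt_neg_right, F.B_neg_right hu hw] at n8 n16
  exact ⟨k0, fun h => h.elim (fun e => n8 (by rw [e])) k8,
    fun h => h.elim (fun e => n16 (by rw [e])) k16⟩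

/-- Two test vectors of squared length 32 with sum of squared length 32. -/
theorem test_values : F.f (eight oo) = 1 ∧ F.f v0 = 1 := by
  obtain ⟨c, -, hc, -, -⟩ := exists_pair_univ {oo, ll} (by rw [card_pair (by decide)]; norm_num)
  simp only [Finset.mem_insert, Finset.mem_singleton, not_or] at hc
  set w : V := -(pairVec ll c) with hwdef
  set u : V := pairVec oo ll with hudef
  have hu : IsLeech u := isLeech_pairVec (by decide)
  have hnu : sqNorm u = 32 := sqNorm_pairVec (by decide)
  have hwp : IsLeech (pairVec ll c) := isLeech_pairVec (Ne.symm hc.2)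
  have hnwp : sqNorm (pairVec ll c) = 32 := sqNorm_pairVec (Ne.symm hc.2)
  have hw : IsLeech w := hwp.neg
  have hnw : sqNorm w = 32 := by rw [hwdef, sqNorm_neg, hnwp]
  have hdotu : ∀ x, dotInt u x = 4 * x oo + 4 * x ll := fun x => dotInt_pairVec (by decide) x
  have hdotw : ∀ x, dotInt w x = -(4 * x ll + 4 * x c) := fun x => by
    rw [hwdef, dotInt_comm, dotInt_neg_right, dotInt_comm, dotInt_pairVec (Ne.symm hc.2)]
  have hns : sqNorm (u + w) = 32 := by
    rw [sqNorm_add, hnu, hnw, hdotu]
    simp [hwdef, pairVec, Ne.symm hc.1, hc.2]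
  have hdots : ∀ x, dotInt (u + w) x = dotInt u x + dotInt w x := fun x => dotInt_add_left u w x
  -- an octad avoiding the three points
  obtain ⟨O', hO', hsub⟩ := exists_octad {oo, ll, c}
    (by have := card_le_three (a := oo) (b := ll) (c := c); omega)
  obtain ⟨O, hO, hO1, hO2⟩ := exists_octad_missing {oo, c}
    (by have := card_le_two (a := oo) (b := c); omega) ll
    (by simp [Ne.symm hc.2])
  have hA : IsLeech (twice (ind O)) := isLeech_twice (octad_ind_mem hO)
  have hnA : sqNorm (twice (ind O)) = 32 := sqNorm_twice_octad hO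
  have hsum : ∀ t, IsLeech t → F.B (u + w) t = F.B u t * F.B w t := fun t ht =>
    F.B_add_left hu hw ht
  have hus : IsLeech (u + w) := hu.add hw
  have hOoo : oo ∈ O := hO1 (by simp)
  have hOc : c ∈ O := hO1 (by simp)
  -- first test: inner products 8, 8, 16
  have h1 := hsum _ hA
  have d1 : dotInt u (twice (ind O)) = 8 := by
    rw [hdotu, twice_ind_apply, twice_ind_apply, if_pos hOoo, if_neg hO2]; norm_num
  have d2 : dotInt w (twice (ind O)) = -8 := by
    rw [hdotw, twice_ind_apply, twice_ind_apply, if_pos hOc, if_neg hO2]; norm_num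
  have d3 : dotInt (u + w) (twice (ind O)) = 0 := by rw [hdots, d1, d2]; norm_num
  rw [(F.B_32 hus hns hA hnA).1 d3, (F.B_32 hu hnu hA hnA).2.1 (Or.inl d1),
    (F.B_32 hw hnw hA hnA).2.1 (Or.inr d2), F.sq_one] at h1
  refine ⟨h1, ?_⟩
  -- second test: inner products 16, -16, 0 or 16, 0, 16
  have hA' : IsLeech (twice (ind O')) := isLeech_twice (octad_ind_mem hO')
  have hnA' : sqNorm (twice (ind O')) = 32 := sqNorm_twice_octad hO'
  have hoo' : oo ∈ O' := hsub (by simp)
  have hll' : ll ∈ O' := hsub (by simp)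
  have hc' : c ∈ O' := hsub (by simp)
  -- an octad through two of the points missing the third
  obtain ⟨O'', hO'', hO''1, hO''2⟩ := exists_octad_missing {oo, ll}
    (by rw [card_pair (by decide)]; norm_num) c (by simp [hc.1, hc.2])
  have hA'' : IsLeech (twice (ind O'')) := isLeech_twice (octad_ind_mem hO'')
  have hnA'' : sqNorm (twice (ind O'')) = 32 := sqNorm_twice_octad hO''
  have h2 := hsum _ hA''
  have e1 : dotInt u (twice (ind O'')) = 16 := by
    rw [hdotu, twice_ind_apply, twice_ind_apply, if_pos (hO''1 (by simp)),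
      if_pos (hO''1 (by simp))]; norm_num
  have e2 : dotInt w (twice (ind O'')) = -8 := by
    rw [hdotw, twice_ind_apply, twice_ind_apply, if_pos (hO''1 (by simp)), if_neg hO''2]
    norm_num
  have e3 : dotInt (u + w) (twice (ind O'')) = 8 := by rw [hdots, e1, e2]; norm_num
  rw [(F.B_32 hus hns hA'' hnA'').2.1 (Or.inl e3), (F.B_32 hu hnu hA'' hnA'').2.2 (Or.inl e1),
    (F.B_32 hw hnw hA'' hnA'').2.1 (Or.inr e2)] at h2
  exact right_eq_mul.1 h2

theorem f_32 {x : V} (hx : IsLeech x) (hn : sqNorm x = 32) : F.f x = 1 := by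
  rw [F.f_32' hx hn, F.test_values.2]

/-- Parity character of inner products. -/
noncomputable def chi (n : ℤ) : M := if (16 : ℤ) ∣ n then 1 else F.beta

theorem chi_add {a b : ℤ} (ha : (8 : ℤ) ∣ a) (hb : (8 : ℤ) ∣ b) :
    F.chi (a + b) = F.chi a * F.chi b := by
  unfold chi
  by_cases h1 : (16 : ℤ) ∣ a <;> by_cases h2 : (16 : ℤ) ∣ b
  · rw [if_pos h1, if_pos h2, if_pos (dvd_add h1 h2), one_mul]
  · rw [if_pos h1, if_neg h2, if_neg (by omega), one_mul]
  · rw [if_neg h1, if_pos h2, if_neg (by omega), mul_one]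
  · rw [if_neg h1, if_neg h2, if_pos (by omega), F.sq_one]

theorem B_min_min {u w : V} (hu : IsLeech u) (hnu : sqNorm u = 32) (hw : IsLeech w)
    (hnw : sqNorm w = 32) : F.B u w = F.chi (dotInt u w) := by
  have h8 := hu.eight_dvd_dotInt hw
  have ha := sqNorm_add u w
  have hs := sqNorm_sub u w
  rw [hnu, hnw] at ha hs
  have hpos : ∀ v : V, 0 ≤ sqNorm v := fun v => sum_nonneg fun i _ => sq_nonneg _
  have h1 := hpos (u + w)
  have h2 := hpos (u - w)
  have hmin : ∀ v, IsLeech v → sqNorm v = 0 ∨ 32 ≤ sqNorm v := fun v hv => by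
    by_cases h : v = 0
    · left; subst h; rfl
    · exact Or.inr (hv.min_sqNorm h)
  have m1 := hmin _ (hu.add hw)
  have m2 := hmin _ (hu.sub hw)
  obtain ⟨b0, b8, b16⟩ := F.B_32 hu hnu hw hnw
  rcases (show dotInt u w = 0 ∨ (dotInt u w = 8 ∨ dotInt u w = -8) ∨
      (dotInt u w = 16 ∨ dotInt u w = -16) ∨ (dotInt u w = 32 ∨ dotInt u w = -32) by omega)
    with h | h | h | h
  · rw [b0 h, F.test_values.1, h]; simp [chi]
  · rw [b8 h]; unfold chi; rw [if_neg (by omega)]
  · rw [b16 h, F.test_values.2]; unfold chi; rw [if_pos (by omega)]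
  · have hzero : ∀ v : V, sqNorm v = 0 → v = 0 := fun v hv => funext fun i =>
      (pow_eq_zero_iff two_ne_zero).1
        ((sum_eq_zero_iff_of_nonneg fun i _ => sq_nonneg (v i)).1 hv i (mem_univ i))
    unfold chi
    rw [if_pos (by omega)]
    rcases h with h | h
    · have : u = w := sub_eq_zero.1 (hzero _ (by omega))
      rw [← this, F.B_self hu]
    · have : w = -u := eq_neg_of_add_eq_zero_right (hzero _ (by omega))
      rw [this, F.B_neg_right hu hu, F.B_self hu]

theorem dotInt_add_right (a b c : V) : dotInt a (b + c) = dotInt a b + dotInt a c := by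
  rw [dotInt_comm, dotInt_add_left, dotInt_comm b, dotInt_comm c]

theorem B_eq {x y : V} (hx : IsLeech x) (hy : IsLeech y) : F.B x y = F.chi (dotInt x y) := by
  have step : ∀ t : V, IsLeech t →
      (∀ u, IsLeech u → sqNorm u = 32 → F.B u t = F.chi (dotInt u t)) →
      ∀ s, IsLeech s → F.B s t = F.chi (dotInt s t) := by
    intro t ht hmin
    let K : AddSubgroup V :=
      { carrier := {s | IsLeech s ∧ F.B s t = F.chi (dotInt s t)}
        zero_mem' := ⟨isLeech_zero, by
          unfold B; rw [zero_add, F.f_zero, mul_one, F.sq_one]; simp [chi, dotInt]⟩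
        add_mem' := fun {a b} ha hb => ⟨ha.1.add hb.1, by
          rw [F.B_add_left ha.1 hb.1 ht, ha.2, hb.2, dotInt_add_left,
            F.chi_add (ha.1.eight_dvd_dotInt ht) (hb.1.eight_dvd_dotInt ht)]⟩
        neg_mem' := fun {a} ha => ⟨ha.1.neg, by
          rw [F.B_comm, F.B_neg_right ht ha.1, F.B_comm, ha.2, dotInt_neg_left]
          unfold chi; simp only [dvd_neg]⟩ }
    exact fun s hs => (mem_of_min (K := K) (fun u hu hn => ⟨hu, hmin u hu hn⟩) hs).2
  refine step y hy (fun u hu hn => ?_) x hx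
  rw [F.B_comm, dotInt_comm]
  exact step u hu (fun w hw hnw => F.B_min_min hw hnw hu hn) y hy

/-- The form is determined by the squared length. -/
theorem f_eq {x : V} (hx : IsLeech x) :
    F.f x = if (32 : ℤ) ∣ sqNorm x then 1 else F.beta := by
  let K : AddSubgroup V :=
    { carrier := {s | IsLeech s ∧ F.f s = if (32 : ℤ) ∣ sqNorm s then 1 else F.beta}
      zero_mem' := ⟨isLeech_zero, by rw [F.f_zero]; simp [sqNorm]⟩
      add_mem' := fun {a b} ha hb => ⟨ha.1.add hb.1, by
        rw [F.f_add, F.B_eq ha.1 hb.1, ha.2, hb.2, sqNorm_add]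
        have := ha.1.sixteen_dvd_sqNorm
        have := hb.1.sixteen_dvd_sqNorm
        have := ha.1.eight_dvd_dotInt hb.1
        unfold chi
        split_ifs <;> simp_all [F.sq_one] <;> omega⟩
      neg_mem' := fun {a} ha => ⟨ha.1.neg, by rw [F.f_neg ha.1, sqNorm_neg]; exact ha.2⟩ }
  exact (mem_of_min (K := K) (fun u hu hn => ⟨hu, by rw [F.f_32 hu hn, hn]; norm_num⟩) hx).2

/-- A nondegenerate form takes the nontrivial value on squared length 48. -/
theorem beta_ne_one (h : ∃ x y, IsLeech x ∧ IsLeech y ∧ F.B x y ≠ 1) : F.beta ≠ 1 := by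
  obtain ⟨x, y, hx, hy, hB⟩ := h
  intro e
  rw [F.B_eq hx hy] at hB
  unfold chi at hB
  rw [e, ite_self] at hB
  exact hB rfl

end QForm

end Cfsg.Agent.H18.Monster
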