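import Cfsg.Agent.H18.Monster.SecondLocal
import Cfsg.Agent.H11.M24Chain
import Cfsg.Agent.H14.Co0Order

/-!
The Sylow 7-subgroup of the centralizer of two commuting conjugates of the central involution.
-/

set_option autoImplicit false

namespace Cfsg.Agent.H18.Monster.Data

open Cfsg.Agent.H14

variable {G : Type*} [Group G] [Finite G] {z : G}
  {Q : Subgroup (Subgroup.centralizer ({z} : Set G))} [Q.Normal] (D : Data z Q)

theorem exists_crossStab_card : Nat.card crossStab = 4096 * 244823040 := by
  rw [card_crossStab, H9.golayCode_natCard, H11.card_M24]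

include D in
/-- The order of the joint centralizer of `z` and a second conjugate. -/
theorem card_pair {q : Q} (h1 : IsConj z (gv q)) (h2 : gv q ≠ z) :
    ∃ j : ℕ, Nat.card (Subgroup.centralizer ({z} : Set G) ⊓
      Subgroup.centralizer ({gv q} : Set G) : Subgroup G) = 2048 * 244823040 * 2 ^ j := by
  haveI : Fact (Nat.Prime 2) := ⟨Nat.prime_two⟩
  obtain ⟨D', hq⟩ := D.exists_standard h1 h2
  obtain ⟨g, hg⟩ := isConj_iff.1 h1
  have h : Std D' q g := ⟨hq, hg, h2⟩
  set L := Subgroup.centralizer ({z} : Set G) ⊓ Subgroup.centralizer ({gv q} : Set G) with hL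
  set L' := L.subgroupOf (Subgroup.centralizer ({z} : Set G)) with hL'
  have hLL : Nat.card L = Nat.card L' :=
    Nat.card_congr (Subgroup.subgroupOfEquivOfLe (inf_le_left : L ≤ _)).toEquiv.symm
  have himg : L'.map (QuotientGroup.mk' Q) = crossStab.map h.toQuot := h.stab_eq
  have hsplit := Subgroup.card_mul_index (((QuotientGroup.mk' Q).comp L'.subtype).ker)
  rw [Subgroup.index_ker, MonoidHom.range_comp, Subgroup.range_subtype, himg] at hsplit
  have hcross : Nat.card (crossStab.map h.toQuot) = 2048 * 244823040 := by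
    have h1' := Subgroup.card_mul_index ((h.toQuot.comp crossStab.subtype).ker)
    rw [Subgroup.index_ker, MonoidHom.range_comp, Subgroup.range_subtype, exists_crossStab_card] at h1'
    have h2' : Nat.card (h.toQuot.comp crossStab.subtype).ker = 2 := by
      rw [← H14.card_center]
      exact Nat.card_congr
        { toFun := fun a => ⟨a.1.1, h.toQuot_eq_one.1 a.2⟩
          invFun := fun a => ⟨⟨a.1, signSub_le (h.center_le_sign a.2)⟩, h.toQuot_eq_one.2 a.2⟩
          left_inv := fun _ => rfl
          right_inv := fun _ => rfl }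
    rw [h2'] at h1'
    omega
  have hker : IsPGroup 2 ((QuotientGroup.mk' Q).comp L'.subtype).ker := by
    rw [← MonoidHom.comap_ker, QuotientGroup.ker_mk']
    exact (IsPGroup.of_card D.hset.2.2.2.1).comap_of_injective _ (Subgroup.subtype_injective _)
  obtain ⟨j, hj⟩ := hker.exists_card_eq
  exact ⟨j, by rw [hLL, ← hsplit, hcross, hj]; ring⟩

include D in
theorem not_49_dvd {q : Q} (h1 : IsConj z (gv q)) (h2 : gv q ≠ z) :
    ¬ 49 ∣ Nat.card (Subgroup.centralizer ({z} : Set G) ⊓
      Subgroup.centralizer ({gv q} : Set G) : Subgroup G) := by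
  obtain ⟨j, hj⟩ := D.card_pair h1 h2
  rw [hj]
  intro h
  have hc : Nat.Coprime 49 (2 ^ j) := Nat.Coprime.pow_right j (by norm_num)
  have := hc.dvd_of_dvd_mul_right h
  norm_num at this

end Cfsg.Agent.H18.Monster.Data
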