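import Cfsg.Agent.H18.Monster.CentralConj

/-! The intersection of `Q` with a second conjugate, and the stabiliser of that conjugate in `C / Q`. -/

set_option autoImplicit false

namespace Cfsg.Agent.H18.Monster.Data

open Cfsg.Agent.H14

variable {G : Type*} [Group G] [Finite G] {z : G}
  {Q : Subgroup (Subgroup.centralizer ({z} : Set G))} [Q.Normal] (D : Data z Q)

include D in
/-- An identification under which the class of a second conjugate is the standard one. -/
theorem exists_standard {q : Q} (hs : IsConj z (gv q)) (h1 : gv q ≠ z) :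
    ∃ D' : Data z Q, (QuotientGroup.mk q : Q ⧸ Subgroup.center Q) = D'.mod.cls (eight oo) := by
  obtain ⟨x, hx, hn, hq⟩ := D.exists_norm64 hs h1
  obtain ⟨k, hk⟩ := D.exists_act_cls (isLeech_eight oo) (sqNorm_eight oo) hx hn
  exact ⟨D.twist k, by rw [D.twist_cls k (isLeech_eight oo), hk, hq]⟩

/-- A second conjugate in standard position: all the data used below. -/
structure Std (D : Data z Q) (q : Q) (g : G) : Prop where
  hq : (QuotientGroup.mk q : Q ⧸ Subgroup.center Q) = D.mod.cls (eight oo)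
  hg : g * z * g⁻¹ = gv q
  hne : gv q ≠ z

namespace Std

variable {D} {q : Q} {g : G} (h : Std D q g)
include h

theorem nc : q ≠ 1 ∧ q ≠ D.zQ := D.noncentral (isConj_iff.2 ⟨g, h.hg⟩) h.hne

theorem hgF : g * z * g⁻¹ ∈ D.F := D.mem_F.2 ⟨q, h.hg.symm⟩

theorem twoLocal_le_cross : D.twoLocal g ≤ crossStab := fun n hn =>
  mem_crossStab_iff_class.2 ((D.cls_eq_iff (isLeech_act n (isLeech_eight oo)) (isLeech_eight oo)).1
    (D.twoLocal_fix (isLeech_eight oo) q h.hq h.hg.symm hn))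

theorem cls_fix_of_cross {k : Co0} (hk : k ∈ crossStab) :
    D.mod.cls (act k (eight oo)) = D.mod.cls (eight oo) :=
  (D.cls_eq_iff (isLeech_act k (isLeech_eight oo)) (isLeech_eight oo)).2
    (mem_crossStab_iff_class.1 hk)

theorem twoLocal_le : D.twoLocal g ≤ signSub :=
  le_signSub_of_normalized _ h.twoLocal_le_cross D.twoLocal_isPGroup fun k hk n hn =>
    D.twoLocal_normalized (isLeech_eight oo) q h.hq h.hg.symm h.nc.1 h.nc.2 (h.cls_fix_of_cross hk) hn

theorem card_inter :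
    Nat.card (D.F ⊓ D.F.map (MulAut.conj g).toMonoidHom : Subgroup G) = 2 ^ 13 := by
  have h1 := D.le_card_twoLocal h.hgF
  have h2 := D.card_inter_le h.hgF (by rw [h.hg]; exact h.hne)
  have h3 : Nat.card (D.twoLocal g) ≤ 4096 := by
    rw [← card_signSub]; exact Subgroup.card_le_of_le h.twoLocal_le
  have := Nat.mul_le_mul h3 (le_refl (Nat.card (D.F ⊓ D.F.map (MulAut.conj g).toMonoidHom : Subgroup G)))
  omega

theorem twoLocal_eq : D.twoLocal g = signSub := by
  have h1 := D.le_card_twoLocal h.hgF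
  rw [h.card_inter] at h1
  refine Subgroup.eq_of_le_of_card_ge h.twoLocal_le ?_
  rw [card_signSub]
  omega

/-- The composite `Co0 → C / Q`. -/
def toQuot (_h : Std D q g) : Co0 →* (Subgroup.centralizer ({z} : Set G)) ⧸ Q :=
  D.e.symm.toMonoidHom.comp (QuotientGroup.mk' (Subgroup.center Co0))

theorem toQuot_eq_iff {k : Co0} {c : Subgroup.centralizer ({z} : Set G)} :
    h.toQuot k = QuotientGroup.mk c ↔
      (QuotientGroup.mk k : Cfsg.Spor.Co1) = D.e (QuotientGroup.mk c) := by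
  show D.e.symm (QuotientGroup.mk k) = _ ↔ _
  rw [MulEquiv.symm_apply_eq]

theorem local_eq :
    ((D.F.map (MulAut.conj g).toMonoidHom ⊓ Subgroup.centralizer ({z} : Set G)).subgroupOf
      (Subgroup.centralizer ({z} : Set G))).map (QuotientGroup.mk' Q) = signSub.map h.toQuot := by
  rw [← h.twoLocal_eq, Subgroup.inf_subgroupOf_right]
  ext a
  constructor
  · rintro ⟨r, hr, rfl⟩
    obtain ⟨k, hk⟩ := QuotientGroup.mk_surjective (D.e (QuotientGroup.mk r))
    exact ⟨k, D.mem_twoLocal.2 ⟨r, hr, hk⟩, h.toQuot_eq_iff.2 hk⟩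
  · rintro ⟨k, hk, rfl⟩
    obtain ⟨r, hr, e⟩ := D.mem_twoLocal.1 hk
    exact ⟨r, hr, (h.toQuot_eq_iff.2 e).symm⟩

theorem stab_eq :
    ((Subgroup.centralizer ({z} : Set G) ⊓ Subgroup.centralizer ({gv q} : Set G)).subgroupOf
      (Subgroup.centralizer ({z} : Set G))).map (QuotientGroup.mk' Q) = crossStab.map h.toQuot := by
  ext a
  constructor
  · rintro ⟨c, hc, rfl⟩
    obtain ⟨k, hk⟩ := QuotientGroup.mk_surjective (D.e (QuotientGroup.mk c))
    refine ⟨k, mem_crossStab_iff_class.2 ((D.cls_eq_iff (isLeech_act k (isLeech_eight oo))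
      (isLeech_eight oo)).1 ?_), h.toQuot_eq_iff.2 hk⟩
    rw [D.cls_conj c k hk (isLeech_eight oo) q h.hq, ← h.hq]
    congr 1
    apply gv_injective
    show (c : G) * gv q * (c : G)⁻¹ = gv q
    have hcs : (c : G) * gv q = gv q * (c : G) := Subgroup.mem_centralizer_singleton_iff.1 hc.2
    rw [hcs, mul_inv_cancel_right]
  · rintro ⟨k, hk, rfl⟩
    obtain ⟨c, hkc, hfix⟩ := D.exists_lift (isLeech_eight oo) q q h.hq h.hq h.nc.1 h.nc.2 k
      (h.cls_fix_of_cross hk)
    refine ⟨c, ⟨c.2, Subgroup.mem_centralizer_singleton_iff.2 ?_⟩, (h.toQuot_eq_iff.2 hkc).symm⟩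
    exact congrArg Subtype.val (mul_inv_eq_iff_eq_mul.1 hfix)

theorem toQuot_eq_one {k : Co0} : h.toQuot k = 1 ↔ k ∈ Subgroup.center Co0 := by
  show D.e.symm (QuotientGroup.mk k) = 1 ↔ _
  rw [MulEquiv.map_eq_one_iff, QuotientGroup.eq_one_iff]

theorem center_le_sign : Subgroup.center Co0 ≤ signSub := fun k hk => by
  rcases mem_center_iff.1 hk with rfl | rfl
  exacts [one_mem _, negOne_mem_signSub]

theorem mem_sign_of_toQuot {k d : Co0} (hd : d ∈ signSub) (e : h.toQuot k = h.toQuot d) :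
    k ∈ signSub := by
  have h1 : h.toQuot (k * d⁻¹) = 1 := by rw [map_mul, e, map_inv, mul_inv_cancel]
  have h2 := mul_mem (h.center_le_sign (h.toQuot_eq_one.1 h1)) hd
  rwa [inv_mul_cancel_right] at h2

theorem structure_thm :
    signSub.map h.toQuot ≤ crossStab.map h.toQuot ∧
    (∀ x ∈ crossStab.map h.toQuot, ∀ y ∈ signSub.map h.toQuot,
      x * y * x⁻¹ ∈ signSub.map h.toQuot) ∧
    Cfsg.IsElementaryAbelian 2 (signSub.map h.toQuot) ∧
    Nat.card (signSub.map h.toQuot) = 2 ^ 11 ∧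
    ∃ K : Subgroup ((Subgroup.centralizer ({z} : Set G)) ⧸ Q), K ≤ crossStab.map h.toQuot ∧
      signSub.map h.toQuot ⊓ K = ⊥ ∧ signSub.map h.toQuot ⊔ K = crossStab.map h.toQuot ∧
      Nonempty (K ≃* Cfsg.M24) := by
  refine ⟨Subgroup.map_mono signSub_le, ?_, ⟨⟨⟨?_⟩⟩, ?_⟩, ?_, (h.toQuot.comp permEmb).range,
    ?_, ?_, ?_, ?_⟩
  · rintro - ⟨a, ha, rfl⟩ - ⟨b, hb, rfl⟩
    exact ⟨_, signSub_normalized ha hb, by simp only [map_mul, map_inv]⟩
  · rintro ⟨-, a, ha, rfl⟩ ⟨-, b, hb, rfl⟩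
    apply Subtype.ext
    show h.toQuot a * h.toQuot b = h.toQuot b * h.toQuot a
    rw [← map_mul, ← map_mul]
    congr 1
    calc a * b = a * b * ((b * a) * (b * a)) := by rw [signSub_sq (mul_mem hb ha), mul_one]
      _ = a * (b * b) * a * (b * a) := by group
      _ = b * a := by rw [signSub_sq hb, mul_one, signSub_sq ha, one_mul]
  · rintro - ⟨a, ha, rfl⟩
    rw [pow_two, ← map_mul, signSub_sq ha, map_one]
  · have h1 := Subgroup.card_mul_index ((h.toQuot.comp signSub.subtype).ker)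
    rw [Subgroup.index_ker, MonoidHom.range_comp, Subgroup.range_subtype] at h1
    have h2 : Nat.card (h.toQuot.comp signSub.subtype).ker = 2 := by
      rw [← H14.card_center]
      exact Nat.card_congr
        { toFun := fun a => ⟨a.1.1, h.toQuot_eq_one.1 a.2⟩
          invFun := fun a => ⟨⟨a.1, h.center_le_sign a.2⟩, h.toQuot_eq_one.2 a.2⟩
          left_inv := fun _ => rfl
          right_inv := fun _ => rfl }
    have h3 : Nat.card signSub = 4096 := card_signSub
    rw [h2, h3] at h1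
    omega
  · rintro - ⟨σ, rfl⟩
    exact ⟨permEmb σ, permEmb_mem σ, rfl⟩
  · rw [eq_bot_iff]
    rintro a ⟨⟨d, hd, rfl⟩, σ, hσ⟩
    have := permEmb_eq_one_of_signSub (h.mem_sign_of_toQuot hd hσ)
    subst this
    rw [Subgroup.mem_bot, ← hσ, map_one]
  · refine le_antisymm (sup_le (Subgroup.map_mono signSub_le) ?_) ?_
    · rintro - ⟨σ, rfl⟩
      exact ⟨permEmb σ, permEmb_mem σ, rfl⟩
    · rintro - ⟨k, hk, rfl⟩
      obtain ⟨d, hd, σ, rfl⟩ := exists_sign_mul_perm hk
      rw [map_mul]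
      exact Subgroup.mul_mem_sup ⟨d, hd, rfl⟩ ⟨σ, rfl⟩
  · refine ⟨(MonoidHom.ofInjective ((injective_iff_map_eq_one _).2 fun σ hσ => ?_)).symm⟩
    exact permEmb_eq_one_of_signSub (h.center_le_sign (h.toQuot_eq_one.1 hσ))

end Std

end Cfsg.Agent.H18.Monster.Data
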