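import Cfsg.Agent.H18.Monster.HeldExtra
import Cfsg.Agent.H18.Monster.HeldSylow
import Cfsg.Agent.H18.Monster.SecondLocal
import Cfsg.Agent.H19.Cores
import Cfsg.Agent.H24.Extraspecial
import Cfsg.Agent.H73.CharPLocal

/-!
In a group of Monster type the centralizer of an element of order 7 centralizing two commuting
conjugates of the central involution is, modulo that element, of Held type.
-/

set_option autoImplicit false

namespace Cfsg.Agent.H18.Monster

open Cfsg.Agent.H14
open scoped commutatorElement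

/-- Two subgroups of order 7 are conjugate when 49 does not divide the group order. -/
theorem conj_seven {Γ : Type*} [Group Γ] [Finite Γ] (h49 : ¬ 49 ∣ Nat.card Γ) {H K : Subgroup Γ}
    (hH : Nat.card H = 7) (hK : Nat.card K = 7) :
    ∃ g : Γ, K.map (MulAut.conj g).toMonoidHom = H := by
  haveI : Fact (Nat.Prime 7) := ⟨by norm_num⟩
  have h7 : (Nat.card Γ).factorization 7 = 1 := by
    have h1 : 7 ∣ Nat.card Γ := hH ▸ H.card_subgroup_dvd_card
    have hp : Nat.Prime 7 := by norm_num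
    have hn : Nat.card Γ ≠ 0 := Nat.card_pos.ne'
    have a := (hp.dvd_iff_one_le_factorization hn).1 h1
    have b : ¬ 2 ≤ (Nat.card Γ).factorization 7 := fun h2 =>
      h49 ((hp.pow_dvd_iff_le_factorization (k := 2) hn).2 h2)
    omega
  let P : Sylow 7 Γ := Sylow.ofCard H (by rw [hH, h7, pow_one])
  let R : Sylow 7 Γ := Sylow.ofCard K (by rw [hK, h7, pow_one])
  obtain ⟨g, hg⟩ := MulAction.exists_smul_eq Γ R P
  refine ⟨g, ?_⟩
  have h := congrArg (fun S : Sylow 7 Γ => (S : Subgroup Γ)) hg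
  simp only [P, R] at h
  exact h

/-- Lifts of order 7 of one element of order 7 of a quotient by a 2-group are conjugate. -/
theorem conj_lift_seven {Γ : Type*} [Group Γ] [Finite Γ] (Q : Subgroup Γ) [Q.Normal] {n : ℕ}
    (hQ : Nat.card Q = 2 ^ n) {b y : Γ} (hb : orderOf b = 7) (hy : orderOf y = 7)
    (e : (QuotientGroup.mk y : Γ ⧸ Q) = QuotientGroup.mk b) : ∃ u ∈ Q, u * y * u⁻¹ = b := by
  haveI : Fact (Nat.Prime 7) := ⟨by norm_num⟩
  have hcop : Nat.Coprime 7 (Nat.card Q) := by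
    rw [hQ]; exact Nat.Coprime.pow_right n (by norm_num)
  have hob : orderOf (QuotientGroup.mk b : Γ ⧸ Q) = 7 := by
    refine orderOf_eq_prime (by rw [← QuotientGroup.mk_pow, ← hb, pow_orderOf_eq_one]; rfl) fun h1 => ?_
    rw [QuotientGroup.eq_one_iff] at h1
    have := Subgroup.orderOf_coe (⟨b, h1⟩ : Q) ▸ orderOf_dvd_natCard (⟨b, h1⟩ : Q)
    rw [hb] at this
    exact absurd (Nat.Coprime.eq_one_of_dvd hcop this) (by norm_num)
  set P : Subgroup Γ := (Subgroup.zpowers (QuotientGroup.mk b : Γ ⧸ Q)).comap (QuotientGroup.mk' Q)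
    with hP
  have hcard : Nat.card P = 7 * Nat.card Q := by
    have h1 := Subgroup.card_mul_index P
    rw [hP, Subgroup.index_comap_of_surjective _ (QuotientGroup.mk'_surjective _)] at h1
    have h2 := Subgroup.card_mul_index (Subgroup.zpowers (QuotientGroup.mk b : Γ ⧸ Q))
    have h3 := Subgroup.card_eq_card_quotient_mul_card_subgroup Q
    rw [Nat.card_zpowers, hob] at h2
    rw [← h2] at h3
    refine Nat.eq_of_mul_eq_mul_right (Nat.pos_of_ne_zero (Subgroup.index_ne_zero_of_finite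
      (H := Subgroup.zpowers (QuotientGroup.mk b : Γ ⧸ Q)))) (h1.trans (h3.trans (by ring)))
  have h49 : ¬ 49 ∣ Nat.card P := by
    intro h
    rw [hcard, show (49 : ℕ) = 7 * 7 from rfl] at h
    have h' : 7 ∣ Nat.card Q := Nat.dvd_of_mul_dvd_mul_left (by norm_num) h
    exact absurd (Nat.Coprime.eq_one_of_dvd hcop h') (by norm_num)
  have hbP : b ∈ P := Subgroup.mem_zpowers (QuotientGroup.mk b : Γ ⧸ Q)
  have hyP : y ∈ P := by
    show (QuotientGroup.mk y : Γ ⧸ Q) ∈ Subgroup.zpowers (QuotientGroup.mk b : Γ ⧸ Q)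
    rw [e]; exact Subgroup.mem_zpowers _
  obtain ⟨p, hp⟩ := conj_seven h49 (H := Subgroup.zpowers (⟨b, hbP⟩ : P))
    (K := Subgroup.zpowers (⟨y, hyP⟩ : P))
    (by rw [Nat.card_zpowers, ← Subgroup.orderOf_coe]; exact hb)
    (by rw [Nat.card_zpowers, ← Subgroup.orderOf_coe]; exact hy)
  obtain ⟨i, hi⟩ := Subgroup.mem_zpowers_iff.1 (show (QuotientGroup.mk (p : Γ) : Γ ⧸ Q) ∈
    Subgroup.zpowers (QuotientGroup.mk b : Γ ⧸ Q) from p.2)
  have hu : (b ^ i)⁻¹ * (p : Γ) ∈ Q := by
    rw [← QuotientGroup.eq, QuotientGroup.mk_zpow, hi]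
  refine ⟨_, hu, ?_⟩
  have hmem : p * (⟨y, hyP⟩ : P) * p⁻¹ ∈ Subgroup.zpowers (⟨b, hbP⟩ : P) := by
    rw [← hp]; exact ⟨_, Subgroup.mem_zpowers _, rfl⟩
  obtain ⟨j, hj⟩ := Subgroup.mem_zpowers_iff.1 hmem
  have hj' : b ^ j = (p : Γ) * y * (p : Γ)⁻¹ := by
    have := congrArg Subtype.val hj
    simpa using this
  have hj1 : (QuotientGroup.mk b : Γ ⧸ Q) ^ j = QuotientGroup.mk b := by
    rw [← QuotientGroup.mk_zpow, hj', QuotientGroup.mk_mul, QuotientGroup.mk_mul, e,
      QuotientGroup.mk_inv, ← hi]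
    group
  have hdvd : (7 : ℤ) ∣ j - 1 := by
    rw [show (7 : ℤ) = (orderOf (QuotientGroup.mk b : Γ ⧸ Q) : ℤ) by rw [hob]; rfl,
      orderOf_dvd_iff_zpow_eq_one, zpow_sub, zpow_one, hj1, mul_inv_cancel]
  have hbj : b ^ j = b := by
    have h1 : b ^ (j - 1) = 1 := by
      rw [← orderOf_dvd_iff_zpow_eq_one, hb]; exact hdvd
    rw [zpow_sub, zpow_one] at h1
    exact mul_inv_eq_one.1 h1
  rw [hbj] at hj'
  calc (b ^ i)⁻¹ * (p : Γ) * y * ((b ^ i)⁻¹ * (p : Γ))⁻¹
      = (b ^ i)⁻¹ * ((p : Γ) * y * (p : Γ)⁻¹) * b ^ i := by group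
    _ = b := by rw [← hj']; group

namespace Data

variable {G : Type*} [Group G] [Finite G] {z : G}
  {Q : Subgroup (Subgroup.centralizer ({z} : Set G))} [Q.Normal]

/-- An element of order 7 of `C(z)` in standard position. -/
structure Seven (D : Data z Q) (b : G) : Prop where
  hzb : b * z = z * b
  ord : orderOf b = 7
  hb : D.e (QuotientGroup.mk ⟨b, Subgroup.mem_centralizer_singleton_iff.2 hzb⟩) =
    (QuotientGroup.mk Held.sigA : Cfsg.Spor.Co1)

namespace Seven

variable {D : Data z Q} {b : G} (S : Seven D b)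
include S

/-- The element in `C(z)`. -/
abbrev bC : Subgroup.centralizer ({z} : Set G) :=
  ⟨b, Subgroup.mem_centralizer_singleton_iff.2 S.hzb⟩

theorem orderC : orderOf S.bC = 7 := by rw [← Subgroup.orderOf_coe]; exact S.ord

theorem b_pow_seven : b ^ 7 = 1 := by rw [← S.ord, pow_orderOf_eq_one]

theorem pow_two_eq {x : G} (hc : x * b = b * x) (h : x ^ 2 = 1) (hb : x ∈ Subgroup.zpowers b) :
    x = 1 := by
  obtain ⟨j, rfl⟩ := Subgroup.mem_zpowers_iff.1 hb
  have h7 : (b ^ j) ^ 7 = 1 := by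
    rw [← zpow_natCast, ← zpow_mul, mul_comm, zpow_mul, zpow_natCast, S.b_pow_seven, one_zpow]
  calc b ^ j = (b ^ j) ^ 7 * ((b ^ j) ^ 2)⁻¹ ^ 3 := by group
    _ = 1 := by rw [h7, h, inv_one, one_pow, mul_one]

/-- An element of `Q` commutes with `b` exactly when its class is fixed. -/
theorem comm_iff {x : V} (hx : IsLeech x) {q : Q}
    (hq : (QuotientGroup.mk q : Q ⧸ Subgroup.center Q) = D.mod.cls x) :
    gv q * b = b * gv q ↔ D.mod.cls (permFun Held.sig x) = D.mod.cls x := by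
  have h1 := D.cls_conj S.bC Held.sigA S.hb.symm hx q hq
  rw [Held.act_sigA hx] at h1
  rw [h1, ← hq]
  set r : Q := ⟨S.bC * q * S.bC⁻¹, (inferInstance : Q.Normal).conj_mem _ q.2 S.bC⟩ with hr
  have hrv : gv r = b * gv q * b⁻¹ := rfl
  constructor
  · intro h
    congr 1
    exact gv_injective (by rw [hrv, ← h, mul_inv_cancel_right])
  · intro h
    rw [QuotientGroup.eq, D.center_iff] at h
    rcases h with e | e
    · have := congrArg gv (inv_mul_eq_one.1 e)
      rw [hrv, mul_inv_eq_iff_eq_mul] at this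
      exact this.symm
    · exfalso
      have e2 : q = r * D.zQ := by rw [← e, mul_inv_cancel_left]
      have e3 : gv q = b * gv q * b⁻¹ * z := congrArg gv e2
      have hzq : z * gv q = gv q * z :=
        (Subgroup.mem_centralizer_singleton_iff.1 (q : Subgroup.centralizer ({z} : Set G)).2).symm
      have e4 : b * gv q * b⁻¹ = gv q * z := by
        calc b * gv q * b⁻¹ = b * gv q * b⁻¹ * z * z := by rw [mul_assoc _ z z, D.z_sq, mul_one]
          _ = gv q * z := by rw [← e3]
      have hn : ∀ n : ℕ, b ^ n * gv q * (b ^ n)⁻¹ = gv q * z ^ n := by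
        intro n
        induction n with
        | zero => simp
        | succ n ih =>
          have hbz : b * z ^ n * b⁻¹ = z ^ n := by
            rw [(show Commute b z from S.hzb).pow_right n |>.eq, mul_inv_cancel_right]
          calc b ^ (n + 1) * gv q * (b ^ (n + 1))⁻¹ = b * (b ^ n * gv q * (b ^ n)⁻¹) * b⁻¹ := by
                rw [pow_succ']; group
            _ = b * gv q * b⁻¹ * (b * z ^ n * b⁻¹) := by rw [ih]; group
            _ = gv q * z ^ (n + 1) := by rw [e4, hbz, mul_assoc, ← pow_succ']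
      have := hn 7
      rw [S.b_pow_seven, one_mul, inv_one, mul_one, show z ^ 7 = z by
        simp only [pow_succ, pow_zero, one_mul, D.z_sq]] at this
      exact D.z_ne_one (left_eq_mul.1 this)

/-- The classes fixed by the permutation contain fixed vectors. -/
theorem exists_fixed {q : Q} (h : gv q * b = b * gv q) :
    ∃ v, Held.FixV v ∧ (QuotientGroup.mk q : Q ⧸ Subgroup.center Q) = D.mod.cls v := by
  obtain ⟨x, hx, hq⟩ := D.mod.cls_surj q
  obtain ⟨t, ht, et⟩ := (D.cls_eq_iff (hx.permFun Held.sig_mem) hx).1 ((S.comm_iff hx hq.symm).1 h)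
  have hp : ∀ n : ℕ, ∃ u, IsLeech u ∧ permFun (Held.sig ^ n) x - x = 2 • u := by
    intro n
    induction n with
    | zero => exact ⟨0, isLeech_zero, by rw [smul_zero, sub_eq_zero]; rfl⟩
    | succ n ih =>
      obtain ⟨u, hu, eu⟩ := ih
      refine ⟨permFun Held.sig u + t, (hu.permFun Held.sig_mem).add ht, ?_⟩
      rw [smul_add, ← et, show 2 • permFun Held.sig u = permFun Held.sig (2 • u) from rfl, ← eu,
        pow_succ']
      show permFun (Held.sig * Held.sig ^ n) x - x =
        (permFun Held.sig (permFun (Held.sig ^ n) x) - permFun Held.sig x) + (permFun Held.sig x - x)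
      rw [show permFun (Held.sig * Held.sig ^ n) x =
        permFun Held.sig (permFun (Held.sig ^ n) x) from rfl]
      abel
  choose u hu eu using hp
  set v : V := ∑ j ∈ Finset.range 7, permFun (Held.sig ^ j) x with hv
  have hsum : ∀ (s : Finset ℕ) (f : ℕ → V), (∀ j, IsLeech (f j)) → IsLeech (∑ j ∈ s, f j) :=
    fun s f hf => AddSubgroup.sum_mem leechAdd fun j _ => hf j
  have hvL : IsLeech v := hsum _ _ fun j => hx.permFun (pow_mem Held.sig_mem j)
  have hfix : permFun Held.sig v = v := by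
    have e1 : permFun Held.sig v = ∑ j ∈ Finset.range 7, permFun (Held.sig ^ (j + 1)) x := by
      rw [hv]
      funext p
      show (∑ j ∈ Finset.range 7, permFun (Held.sig ^ j) x) (Held.sig.symm p) = _
      simp only [Finset.sum_apply, pow_succ']
      rfl
    have h2 := Finset.sum_range_succ' (fun j => permFun (Held.sig ^ j) x) 7
    rw [Finset.sum_range_succ, Held.sig_pow_seven] at h2
    rw [e1]
    simp only [pow_zero] at h2
    exact (add_right_cancel h2).symm
  refine ⟨v, ⟨hvL, hfix⟩, ?_⟩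
  rw [← hq, D.cls_eq_iff hx hvL]
  refine ⟨-(3 • x + ∑ j ∈ Finset.range 7, u j),
    (((hx.add hx).add hx).add (hsum _ _ hu)).neg |> fun h => by
      rwa [show 3 • x = x + x + x by abel], ?_⟩
  have e3 : v = ∑ j ∈ Finset.range 7, (2 • u j + x) :=
    Finset.sum_congr rfl fun j _ => by rw [← eu j, sub_add_cancel]
  rw [e3, Finset.sum_add_distrib, ← Finset.smul_sum, Finset.sum_const, Finset.card_range]
  abel

/-- A fixed vector gives an element commuting with `b`. -/
theorem comm_of_fixed {v : V} (hv : Held.FixV v) {q : Q}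
    (hq : (QuotientGroup.mk q : Q ⧸ Subgroup.center Q) = D.mod.cls v) : gv q * b = b * gv q :=
  (S.comm_iff hv.1 hq).2 (by rw [hv.2])

theorem code_unique {v w : V} (hv : Held.FixV v) (hw : Held.FixV w)
    (h : D.mod.cls v = D.mod.cls w) : Held.code v = Held.code w := by
  obtain ⟨t, ht, e⟩ := (D.cls_eq_iff hv.1 hw.1).1 h
  exact Held.code_congr hw.1 ht e

/-! ### The subgroups -/

omit S in
/-- The joint centralizer. -/
abbrev cen (b : G) (z : G) : Subgroup G :=
  Subgroup.centralizer ({z} : Set G) ⊓ Subgroup.centralizer ({b} : Set G)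

/-- The fixed part of `Q`. -/
def qFix (_S : Seven D b) : Subgroup (cen b z) := D.F.subgroupOf (cen b z)

/-- An element of the fixed part. -/
def mkFix {q : Q} (h : gv q * b = b * gv q) : S.qFix :=
  ⟨⟨gv q, (q : Subgroup.centralizer ({z} : Set G)).2, Subgroup.mem_centralizer_singleton_iff.2 h⟩,
    D.mem_F.2 ⟨q, rfl⟩⟩

/-- The element of `Q`. -/
noncomputable def qOf (r : S.qFix) : Q := (D.mem_F.1 r.2).choose

theorem gv_qOf (r : S.qFix) : gv (S.qOf r) = ((r : cen b z) : G) := (D.mem_F.1 r.2).choose_spec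

theorem qOf_mul (r u : S.qFix) : S.qOf (r * u) = S.qOf r * S.qOf u :=
  gv_injective (by
    show gv (S.qOf (r * u)) = gv (S.qOf r) * gv (S.qOf u)
    rw [S.gv_qOf, S.gv_qOf, S.gv_qOf]; rfl)

theorem qOf_comm (r : S.qFix) : gv (S.qOf r) * b = b * gv (S.qOf r) := by
  rw [S.gv_qOf]; exact Subgroup.mem_centralizer_singleton_iff.1 (r : cen b z).2.2

theorem qOf_mkFix {q : Q} (h : gv q * b = b * gv q) : S.qOf (S.mkFix h) = q :=
  gv_injective (S.gv_qOf _)

/-- The fixed vector of an element. -/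
noncomputable def vec (r : S.qFix) : V := (S.exists_fixed (S.qOf_comm r)).choose

theorem fixV_vec (r : S.qFix) : Held.FixV (S.vec r) :=
  (S.exists_fixed (S.qOf_comm r)).choose_spec.1

theorem cls_vec (r : S.qFix) :
    (QuotientGroup.mk (S.qOf r) : Q ⧸ Subgroup.center Q) = D.mod.cls (S.vec r) :=
  (S.exists_fixed (S.qOf_comm r)).choose_spec.2

/-- The code of an element. -/
noncomputable def codeR : S.qFix →* Multiplicative Held.Code :=
  MonoidHom.mk' (fun r => Multiplicative.ofAdd (Held.code (S.vec r))) fun r u => by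
    rw [← ofAdd_add, ← Held.code_add (S.fixV_vec r).1 (S.fixV_vec u).1]
    congr 1
    refine S.code_unique (S.fixV_vec _) ((S.fixV_vec r).add (S.fixV_vec u)) ?_
    rw [D.mod.cls_add (S.fixV_vec r).1 (S.fixV_vec u).1, ← S.cls_vec, ← S.cls_vec, ← S.cls_vec,
      S.qOf_mul, QuotientGroup.mk_mul]

/-- The code as a vector. -/
noncomputable abbrev cd (r : S.qFix) : Held.Code := Held.code (S.vec r)

theorem cd_mul (r u : S.qFix) : S.cd (r * u) = S.cd r + S.cd u :=
  congrArg Multiplicative.toAdd (map_mul S.codeR r u)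

theorem cd_eq {v : V} (hv : Held.FixV v) (r : S.qFix)
    (h : (QuotientGroup.mk (S.qOf r) : Q ⧸ Subgroup.center Q) = D.mod.cls v) :
    S.cd r = Held.code v :=
  S.code_unique (S.fixV_vec r) hv (by rw [← S.cls_vec, h])

/-- The central involution in the fixed part. -/
def zF : S.qFix :=
  ⟨⟨z, D.z_mem_C, Subgroup.mem_centralizer_singleton_iff.2 S.hzb.symm⟩, D.mem_F.2 ⟨D.zQ, rfl⟩⟩

theorem qOf_zF : S.qOf S.zF = D.zQ := gv_injective (S.gv_qOf _)

theorem zF_ne_one : S.zF ≠ 1 := fun h =>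
  D.z_ne_one (congrArg (fun r : S.qFix => ((r : cen b z) : G)) h)

theorem zF_sq : S.zF * S.zF = 1 := Subtype.ext (Subtype.ext D.z_sq)

/-- The kernel of the code. -/
theorem cd_eq_zero {r : S.qFix} : S.cd r = 0 ↔ r = 1 ∨ r = S.zF := by
  have hcoe : ∀ u : S.qFix, S.qOf r = S.qOf u → r = u := fun u e => by
    apply Subtype.ext; apply Subtype.ext
    rw [← S.gv_qOf, ← S.gv_qOf, e]
  have hq1 : S.qOf (1 : S.qFix) = 1 := gv_injective (S.gv_qOf _)
  constructor
  · intro h
    obtain ⟨t, ht, e⟩ := Held.two_dvd_of_code (S.fixV_vec r) h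
    have h1 : D.mod.cls (S.vec r) = 1 := by rw [e, two_nsmul, D.mod.cls_double ht]
    rcases (D.cls_eq_one_iff _ (S.cls_vec r)).1 h1 with e' | e'
    · exact Or.inl (hcoe 1 (by rw [e', hq1]))
    · exact Or.inr (hcoe _ (by rw [e', S.qOf_zF]))
  · intro h
    rw [← Held.code_zero]
    refine S.cd_eq Held.FixV.zero r ?_
    have h0 : D.mod.cls (0 : V) = 1 := by
      have h1 := D.mod.cls_double isLeech_zero
      rwa [add_zero] at h1
    rw [h0, QuotientGroup.eq_one_iff, D.center_iff]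
    rcases h with rfl | rfl
    · exact Or.inl hq1
    · exact Or.inr S.qOf_zF

/-- An element with a given code. -/
noncomputable def sec (c : Held.Code) : S.qFix :=
  S.mkFix (S.comm_of_fixed (Held.fixV_rep c) (D.mod.mk_rep _))

theorem cd_sec (c : Held.Code) : S.cd (S.sec c) = c :=
  (S.cd_eq (Held.fixV_rep c) _ (by rw [sec, S.qOf_mkFix, D.mod.mk_rep])).trans (Held.code_rep c)

theorem cd_fibre (r : S.qFix) : r = S.sec (S.cd r) ∨ r = S.sec (S.cd r) * S.zF := by
  have h : S.cd ((S.sec (S.cd r))⁻¹ * r) = 0 := by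
    have e := S.cd_mul (S.sec (S.cd r)) ((S.sec (S.cd r))⁻¹ * r)
    rw [mul_inv_cancel_left, S.cd_sec] at e
    exact left_eq_add.1 e
  rcases S.cd_eq_zero.1 h with e | e
  · exact Or.inl (inv_mul_eq_one.1 e).symm
  · exact Or.inr (inv_mul_eq_iff_eq_mul.1 e)

theorem card_qFix : Nat.card S.qFix = 2 ^ 7 := by
  have hsurj : Function.Surjective S.codeR := fun c =>
    ⟨S.sec (Multiplicative.toAdd c), congrArg Multiplicative.ofAdd (S.cd_sec _)⟩
  have h := Subgroup.card_mul_index S.codeR.ker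
  rw [Subgroup.index_ker, MonoidHom.range_eq_top.2 hsurj, Subgroup.card_top] at h
  have hk : Nat.card S.codeR.ker = 2 := by
    rw [Nat.card_eq_two_iff' (1 : S.codeR.ker)]
    refine ⟨⟨S.zF, MonoidHom.mem_ker.2 (congrArg Multiplicative.ofAdd (S.cd_eq_zero.2 (Or.inr rfl)))⟩,
      fun e => S.zF_ne_one (congrArg Subtype.val e), fun y hy => ?_⟩
    have hy0 : S.cd y.1 = 0 := congrArg Multiplicative.toAdd (MonoidHom.mem_ker.1 y.2)
    rcases S.cd_eq_zero.1 hy0 with e | e
    · exact absurd (Subtype.ext e) hy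
    · exact Subtype.ext e
  rw [hk] at h
  rw [← h]
  simp [Nat.card_eq_fintype_card]

theorem qOf_commute_iff (r u : S.qFix) : r * u = u * r ↔ (16 : ℤ) ∣ dotInt (S.vec r) (S.vec u) := by
  rw [← D.mod.commute_iff (S.fixV_vec r).1 (S.fixV_vec u).1 (S.cls_vec r) (S.cls_vec u),
    ← S.qOf_mul, ← S.qOf_mul]
  constructor
  · intro h; rw [h]
  · intro h
    apply Subtype.ext; apply Subtype.ext
    rw [← S.gv_qOf, ← S.gv_qOf, h]

theorem qFix_center (r : S.qFix) : r ∈ Subgroup.center S.qFix ↔ r = 1 ∨ r = S.zF := by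
  constructor
  · intro h
    by_contra hne
    have hc : S.cd r ≠ 0 := fun e => hne (S.cd_eq_zero.1 e)
    obtain ⟨j, hj⟩ := Held.rep_pairing (S.cd r) hc
    have h16 := (S.qOf_commute_iff r (S.sec (Held.unit6 j))).1 (Subgroup.mem_center_iff.1 h _).symm
    obtain ⟨t, ht, e⟩ := Held.congr_of_code (S.fixV_vec r) (Held.fixV_rep (S.cd r))
      (Held.code_rep _).symm
    obtain ⟨s, hs, e'⟩ := Held.congr_of_code (S.fixV_vec (S.sec (Held.unit6 j)))
      (Held.fixV_rep (Held.unit6 j)) ((S.cd_sec _).trans (Held.code_rep _).symm)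
    exact hj (Held.dvd_of_congr (S.fixV_vec r).1 (S.fixV_vec _).1 (Held.fixV_rep (S.cd r)).1
      ht hs e e' h16)
  · rintro (rfl | rfl)
    · exact one_mem _
    · refine Subgroup.mem_center_iff.2 fun u => Subtype.ext (Subtype.ext ?_)
      exact Subgroup.mem_centralizer_singleton_iff.1 (u : cen b z).2.1

theorem qFix_extraspecial : Cfsg.IsExtraspecial 2 S.qFix := by
  haveI : Fact (Nat.Prime 2) := ⟨Nat.prime_two⟩
  refine H24.isExtraspecial_of (IsPGroup.of_card S.card_qFix) ?_ ?_ ?_ ?_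
  · rw [Nat.card_eq_two_iff' (1 : Subgroup.center S.qFix)]
    refine ⟨⟨S.zF, (S.qFix_center _).2 (Or.inr rfl)⟩, fun e => S.zF_ne_one (congrArg Subtype.val e),
      fun y hy => ?_⟩
    rcases (S.qFix_center _).1 y.2 with e | e
    · exact absurd (Subtype.ext e) hy
    · exact Subtype.ext e
  · intro htop
    have h := (S.qFix_center _).1 (htop ▸ Subgroup.mem_top (S.sec (Held.unit6 0)))
    have h0 := S.cd_eq_zero.2 h
    rw [S.cd_sec] at h0
    exact absurd (congrFun h0 0) (by simp [Held.unit6])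
  · intro a c
    rw [S.qFix_center, ← S.cd_eq_zero]
    have h : S.codeR ⁅a, c⁆ = 1 := by
      rw [map_commutatorElement, commutatorElement_eq_one_iff_mul_comm]
      exact mul_comm _ _
    exact congrArg Multiplicative.toAdd h
  · intro a
    rw [S.qFix_center, ← S.cd_eq_zero, pow_two, S.cd_mul]
    funext i
    exact CharTwo.add_self_eq_zero _

/-- An element of the fixed part conjugate to `z` other than `z`. -/
theorem conj_code_iff (r : S.qFix) :
    (IsConj z ((r : cen b z) : G) ∧ ((r : cen b z) : G) ≠ z) ↔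
      Held.repNorm.getD (Held.num (S.cd r)) 0 = 64 := by
  rw [← S.gv_qOf]
  constructor
  · rintro ⟨h1, h2⟩
    obtain ⟨y, hy, hn, hq⟩ := D.exists_norm64 h1 h2
    obtain ⟨t, ht, e⟩ := (D.cls_eq_iff hy (S.fixV_vec r).1).1 (hq.symm.trans (S.cls_vec r))
    exact Held.norm_of_congr hy hn (S.fixV_vec r) ht e
  · intro h
    refine (D.isConj_iff_norm64 _).2 ⟨⟨Held.rep (S.cd r), mem_leechLattice_iff.2 (Held.fixV_rep _).1⟩,
      by rw [← h, ← Held.sqNorm_rep], ?_⟩
    refine (D.mod.cls_of (Held.fixV_rep (S.cd r)).1).symm.trans ?_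
    obtain ⟨t, ht, e⟩ := Held.congr_of_code (Held.fixV_rep (S.cd r)) (S.fixV_vec r) (Held.code_rep _)
    rw [(D.cls_eq_iff (Held.fixV_rep _).1 (S.fixV_vec r).1).2 ⟨t, ht, e⟩, ← S.cls_vec]

/-! ### Fusion in the centralizer of `b` -/

/-- The element `z x` is conjugate to `z` by an element commuting with `b`. -/
theorem conj_mul_z {r : S.qFix} (h1 : IsConj z ((r : cen b z) : G))
    (h2 : ((r : cen b z) : G) ≠ z) :
    ∃ c : G, c * b = b * c ∧ c * z * c⁻¹ = z * ((r : cen b z) : G) := by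
  set x := ((r : cen b z) : G) with hx
  have hxb : x * b = b * x := Subgroup.mem_centralizer_singleton_iff.1 (r : cen b z).2.2
  have hzx : z * x = x * z := (Subgroup.mem_centralizer_singleton_iff.1 (r : cen b z).2.1).symm
  -- an element of the fixed part moving `x`
  have hrc : ¬ r ∈ Subgroup.center S.qFix := by
    rw [S.qFix_center]
    rintro (e | e)
    · obtain ⟨c, hc⟩ := isConj_iff.1 h1
      rw [hx, e] at hc
      exact D.z_ne_one (conj_eq_one_iff.1 hc)
    · exact h2 (by rw [hx, e]; rfl)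
  obtain ⟨u, hu⟩ : ∃ u : S.qFix, u * r ≠ r * u := by
    by_contra hcon
    push Not at hcon
    exact hrc (Subgroup.mem_center_iff.2 hcon)
  have hux : ((u : cen b z) : G) * x * ((u : cen b z) : G)⁻¹ = z * x := by
    have hc : ⁅u, r⁆ ∈ Subgroup.center S.qFix := commutator_mem_center S.qFix_extraspecial u r
    rcases (S.qFix_center _).1 hc with e | e
    · exact absurd (commutatorElement_eq_one_iff_mul_comm.1 e) hu
    · have := congrArg (fun r : S.qFix => ((r : cen b z) : G)) e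
      simp only [commutatorElement_def, Subgroup.coe_mul, Subgroup.coe_inv] at this
      rw [← mul_inv_eq_iff_eq_mul]
      exact this
  -- an element exchanging `z` and `x`
  obtain ⟨g, hg⟩ := isConj_iff.1 h1
  have hgF : g * z * g⁻¹ ∈ D.F := D.mem_F.2 ⟨S.qOf r, by rw [hg, hx]; exact S.gv_qOf r⟩
  obtain ⟨q', hq'⟩ : ∃ q' : Q, gv q' = g⁻¹ * z * g := by
    obtain ⟨a, ha, e⟩ := D.z_mem_conj hgF
    obtain ⟨q', hq'⟩ := D.mem_F.1 ha
    refine ⟨q', hq'.trans ?_⟩
    simp only [MulEquiv.coe_toMonoidHom, MulAut.conj_apply] at e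
    rw [← e]; group
  have hq'z : gv q' ≠ z := by
    intro e
    rw [hq'] at e
    apply h2
    rw [hx] at hg ⊢
    rw [← hg]
    calc g * z * g⁻¹ = g * (g⁻¹ * z * g) * g⁻¹ := by rw [e]
      _ = z := by group
  obtain ⟨h, hhC, hh⟩ := D.exists_conj_second (q := S.qOf r) (r := q')
    (by rw [S.gv_qOf]; exact h1) (by rw [S.gv_qOf]; exact h2)
    (by rw [hq']; exact isConj_iff.2 ⟨g⁻¹, by rw [inv_inv]⟩) hq'z
  rw [S.gv_qOf, ← hx, hq'] at hh
  have hhz : h * z * h⁻¹ = z := by
    rw [Subgroup.mem_centralizer_singleton_iff.1 hhC, mul_inv_cancel_right]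
  set w := g * h with hw
  have hwz : w * z * w⁻¹ = x := by
    calc w * z * w⁻¹ = g * (h * z * h⁻¹) * g⁻¹ := by rw [hw]; group
      _ = x := by rw [hhz, hg]
  have hwx : w * x * w⁻¹ = z := by
    calc w * x * w⁻¹ = g * (h * x * h⁻¹) * g⁻¹ := by rw [hw]; group
      _ = z := by rw [hh]; group
  -- correct it so that it normalizes the group of `b`
  set L : Subgroup G := Subgroup.centralizer ({z} : Set G) ⊓ Subgroup.centralizer ({x} : Set G)
    with hL
  have memL : ∀ a : G, a ∈ L ↔ a * z = z * a ∧ a * x = x * a := fun a => by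
    rw [hL, Subgroup.mem_inf, Subgroup.mem_centralizer_singleton_iff,
      Subgroup.mem_centralizer_singleton_iff]
  have hbL : b ∈ L := (memL b).2 ⟨S.hzb, hxb.symm⟩
  have hwL : w * b * w⁻¹ ∈ L := by
    refine (memL _).2 ⟨?_, ?_⟩
    · calc w * b * w⁻¹ * z = w * b * w⁻¹ * (w * x * w⁻¹) := by rw [hwx]
        _ = w * (b * x) * w⁻¹ := by group
        _ = w * (x * b) * w⁻¹ := by rw [hxb]
        _ = (w * x * w⁻¹) * (w * b * w⁻¹) := by group
        _ = z * (w * b * w⁻¹) := by rw [hwx]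
    · calc w * b * w⁻¹ * x = w * b * w⁻¹ * (w * z * w⁻¹) := by rw [hwz]
        _ = w * (b * z) * w⁻¹ := by group
        _ = w * (z * b) * w⁻¹ := by rw [S.hzb]
        _ = (w * z * w⁻¹) * (w * b * w⁻¹) := by group
        _ = x * (w * b * w⁻¹) := by rw [hwz]
  have h49 : ¬ 49 ∣ Nat.card L := by
    have := D.not_49_dvd (q := S.qOf r) (by rw [S.gv_qOf]; exact h1) (by rw [S.gv_qOf]; exact h2)
    rwa [S.gv_qOf] at this
  obtain ⟨l, hl⟩ := conj_seven h49 (H := Subgroup.zpowers (⟨b, hbL⟩ : L))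
    (K := Subgroup.zpowers (⟨_, hwL⟩ : L))
    (by rw [Nat.card_zpowers, ← Subgroup.orderOf_coe]; exact S.ord)
    (by
      rw [Nat.card_zpowers, ← Subgroup.orderOf_coe]
      show orderOf (MulAut.conj w b) = 7
      rw [MulEquiv.orderOf_eq, S.ord])
  have hnb : (l : G) * w * b * ((l : G) * w)⁻¹ ∈ Subgroup.zpowers b := by
    have hm : l * (⟨_, hwL⟩ : L) * l⁻¹ ∈ Subgroup.zpowers (⟨b, hbL⟩ : L) := by
      rw [← hl]; exact ⟨_, Subgroup.mem_zpowers _, rfl⟩
    obtain ⟨j, hj⟩ := Subgroup.mem_zpowers_iff.1 hm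
    refine Subgroup.mem_zpowers_iff.2 ⟨j, ?_⟩
    have := congrArg Subtype.val hj
    simp only [SubgroupClass.coe_zpow, Subgroup.coe_mul, Subgroup.coe_inv] at this
    rw [this]; group
  obtain ⟨hlz, hlx⟩ := (memL _).1 l.2
  set n := (l : G) * w with hn
  have hnz : n * z * n⁻¹ = x := by
    calc n * z * n⁻¹ = (l : G) * (w * z * w⁻¹) * (l : G)⁻¹ := by rw [hn]; group
      _ = x := by rw [hwz, hlx, mul_inv_cancel_right]
  have hnx : n * x * n⁻¹ = z := by
    calc n * x * n⁻¹ = (l : G) * (w * x * w⁻¹) * (l : G)⁻¹ := by rw [hn]; group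
      _ = z := by rw [hwx, hlz, mul_inv_cancel_right]
  obtain ⟨j, hj⟩ := Subgroup.mem_zpowers_iff.1 hnb
  refine ⟨n * ((u : cen b z) : G) * n⁻¹, ?_, ?_⟩
  · have hub : ((u : cen b z) : G) * b = b * ((u : cen b z) : G) :=
      Subgroup.mem_centralizer_singleton_iff.1 (u : cen b z).2.2
    -- `b` is a power of its image
    have hord : orderOf (b ^ j) = 7 := by
      rw [hj]
      show orderOf (MulAut.conj n b) = 7
      rw [MulEquiv.orderOf_eq, S.ord]
    have hbmem : b ∈ Subgroup.zpowers (b ^ j) := by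
      have hle : Subgroup.zpowers (b ^ j) = Subgroup.zpowers b :=
        Subgroup.eq_of_le_of_card_ge (by rw [Subgroup.zpowers_le]; exact ⟨j, rfl⟩)
          (by rw [Nat.card_zpowers, Nat.card_zpowers, hord, S.ord])
      rw [hle]; exact Subgroup.mem_zpowers b
    obtain ⟨i, hi⟩ := Subgroup.mem_zpowers_iff.1 hbmem
    have hcomm : Commute (n * ((u : cen b z) : G) * n⁻¹) (b ^ j) := by
      rw [hj]
      show _ = _
      calc n * ((u : cen b z) : G) * n⁻¹ * (n * b * n⁻¹) = n * (((u : cen b z) : G) * b) * n⁻¹ := by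
            group
        _ = n * (b * ((u : cen b z) : G)) * n⁻¹ := by rw [hub]
        _ = n * b * n⁻¹ * (n * ((u : cen b z) : G) * n⁻¹) := by group
    have := (hcomm.zpow_right i).eq
    rwa [hi] at this
  · have e : n⁻¹ * z * n = x := by rw [← hnx]; group
    calc n * ((u : cen b z) : G) * n⁻¹ * z * (n * ((u : cen b z) : G) * n⁻¹)⁻¹
        = n * (((u : cen b z) : G) * (n⁻¹ * z * n) * ((u : cen b z) : G)⁻¹) * n⁻¹ := by group
      _ = n * (z * x) * n⁻¹ := by rw [e, hux]
      _ = (n * z * n⁻¹) * (n * x * n⁻¹) := by group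
      _ = z * x := by rw [hnz, hnx, hzx]

/-- Conjugates of `z` in the fixed part are conjugate to it in the centralizer of `b`. -/
theorem fusion {r : S.qFix} (h1 : IsConj z ((r : cen b z) : G)) :
    ∃ c : G, c * b = b * c ∧ c * z * c⁻¹ = ((r : cen b z) : G) := by
  by_cases h2 : ((r : cen b z) : G) = z
  · exact ⟨1, by rw [one_mul, mul_one], by rw [h2]; group⟩
  set x := ((r : cen b z) : G) with hx
  obtain ⟨c, hcb, hc⟩ := S.conj_mul_z h1 h2
  have hcr : ((S.zF * r : S.qFix) : cen b z).1 = z * x := rfl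
  have h1' : IsConj z (((S.zF * r : S.qFix) : cen b z) : G) := isConj_iff.2 ⟨c, hc.trans hcr.symm⟩
  have h2' : (((S.zF * r : S.qFix) : cen b z) : G) ≠ z := by
    rw [hcr]
    intro e
    have e1 : x = 1 := by simpa using e
    obtain ⟨a, ha⟩ := isConj_iff.1 h1
    rw [e1] at ha
    exact D.z_ne_one (conj_eq_one_iff.1 ha)
  obtain ⟨d, hdb, hd⟩ := S.conj_mul_z h1' h2'
  refine ⟨d, hdb, ?_⟩
  rw [hd, hcr, ← mul_assoc, D.z_sq, one_mul]

/-! ### The quotient -/

variable [hn : ((Subgroup.zpowers b).subgroupOf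
  (Subgroup.centralizer ((Subgroup.zpowers b : Subgroup G) : Set G))).Normal]

omit S [Finite G] hn in
theorem mem_cent {a : G} :
    a ∈ Subgroup.centralizer ((Subgroup.zpowers b : Subgroup G) : Set G) ↔ a * b = b * a := by
  constructor
  · intro h
    exact (Subgroup.mem_centralizer_iff.1 h b (Subgroup.mem_zpowers b)).symm
  · intro h
    refine Subgroup.mem_centralizer_iff.2 fun y hy => ?_
    obtain ⟨j, rfl⟩ := Subgroup.mem_zpowers_iff.1 hy
    exact ((show Commute a b from h).zpow_right j).eq.symm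

omit S in
/-- The quotient of the centralizer of `b`. -/
abbrev NQ (b : G) [((Subgroup.zpowers b).subgroupOf
    (Subgroup.centralizer ((Subgroup.zpowers b : Subgroup G) : Set G))).Normal] : Type _ :=
  Subgroup.centralizer ((Subgroup.zpowers b : Subgroup G) : Set G) ⧸
    (Subgroup.zpowers b).subgroupOf (Subgroup.centralizer ((Subgroup.zpowers b : Subgroup G) : Set G))

/-- The image of `z`. -/
def zbar : NQ b := QuotientGroup.mk ⟨z, mem_cent.2 S.hzb.symm⟩

theorem zbar_def : S.zbar = QuotientGroup.mk ⟨z, mem_cent.2 S.hzb.symm⟩ := rfl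

theorem bar_comm_iff (a : Subgroup.centralizer ((Subgroup.zpowers b : Subgroup G) : Set G)) :
    (QuotientGroup.mk a : NQ b) ∈ Subgroup.centralizer ({S.zbar} : Set (NQ b)) ↔
      (a : G) * z = z * a := by
  rw [Subgroup.mem_centralizer_singleton_iff, zbar_def, ← QuotientGroup.mk_mul,
    ← QuotientGroup.mk_mul, QuotientGroup.eq, Subgroup.mem_subgroupOf]
  constructor
  · intro h
    set β := ((a * ⟨z, mem_cent.2 S.hzb.symm⟩)⁻¹ * (⟨z, mem_cent.2 S.hzb.symm⟩ * a) :
      Subgroup.centralizer ((Subgroup.zpowers b : Subgroup G) : Set G)).1 with hβ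
    have hβ' : β = ((a : G) * z)⁻¹ * (z * a) := rfl
    have hzb : β * z = z * β := by
      obtain ⟨j, hj⟩ := Subgroup.mem_zpowers_iff.1 h
      rw [← hj]
      exact ((show Commute z b from S.hzb.symm).zpow_right j).eq.symm
    have hcb : β * b = b * β := by
      obtain ⟨j, hj⟩ := Subgroup.mem_zpowers_iff.1 h
      rw [← hj]
      exact (Commute.refl b).zpow_left j |>.eq
    have e1 : z * β = (a : G)⁻¹ * z * a := by
      rw [hβ', mul_inv_rev, inv_eq_of_mul_eq_one_right D.z_sq]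
      calc z * (z * (a : G)⁻¹ * (z * a)) = (z * z) * ((a : G)⁻¹ * z * a) := by group
        _ = (a : G)⁻¹ * z * a := by rw [D.z_sq, one_mul]
    have e2 : β ^ 2 = 1 := by
      have : (z * β) * (z * β) = 1 := by
        rw [e1]
        calc (a : G)⁻¹ * z * a * ((a : G)⁻¹ * z * a) = (a : G)⁻¹ * (z * z) * a := by group
          _ = 1 := by rw [D.z_sq]; group
      calc β ^ 2 = z * (z * β) * β := by rw [← mul_assoc z z, D.z_sq, one_mul, pow_two]
        _ = z * (β * z) * β := by rw [hzb]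
        _ = (z * β) * (z * β) := by group
        _ = 1 := this
    have := S.pow_two_eq hcb e2 h
    rw [hβ', inv_mul_eq_one] at this
    exact this
  · intro h
    show ((a : G) * z)⁻¹ * (z * a) ∈ Subgroup.zpowers b
    rw [h, inv_mul_cancel]
    exact Subgroup.one_mem _

/-- The projection onto the centralizer of the image of `z`. -/
def proj : cen b z →* Subgroup.centralizer ({S.zbar} : Set (NQ b)) where
  toFun a := ⟨QuotientGroup.mk ⟨(a : G),
      mem_cent.2 (Subgroup.mem_centralizer_singleton_iff.1 a.2.2)⟩,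
    (S.bar_comm_iff _).2 (Subgroup.mem_centralizer_singleton_iff.1 a.2.1)⟩
  map_one' := rfl
  map_mul' _ _ := rfl

theorem proj_surjective : Function.Surjective S.proj := by
  rintro ⟨x, hx⟩
  obtain ⟨a, rfl⟩ := QuotientGroup.mk_surjective x
  exact ⟨⟨(a : G), Subgroup.mem_centralizer_singleton_iff.2 ((S.bar_comm_iff a).1 hx),
    Subgroup.mem_centralizer_singleton_iff.2 (mem_cent.1 a.2)⟩, rfl⟩

theorem proj_eq_iff {a c : cen b z} :
    S.proj a = S.proj c ↔ (a : G)⁻¹ * c ∈ Subgroup.zpowers b := by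
  rw [Subtype.ext_iff]
  show (QuotientGroup.mk _ : NQ b) = QuotientGroup.mk _ ↔ _
  rw [QuotientGroup.eq, Subgroup.mem_subgroupOf]
  rfl

theorem mem_ker_proj {a : cen b z} : a ∈ S.proj.ker ↔ (a : G) ∈ Subgroup.zpowers b := by
  rw [MonoidHom.mem_ker, ← map_one S.proj, eq_comm, S.proj_eq_iff, Subgroup.coe_one, inv_one, one_mul]

/-- The projection on the fixed part is injective. -/
theorem proj_inj {r u : S.qFix} (h : S.proj (r : cen b z) = S.proj (u : cen b z)) : r = u := by
  rw [S.proj_eq_iff] at h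
  set d : S.qFix := r⁻¹ * u with hd
  have hdG : ((d : cen b z) : G) ∈ Subgroup.zpowers b := h
  have h7 : orderOf ((d : cen b z) : G) ∣ 7 := by
    obtain ⟨j, hj⟩ := Subgroup.mem_zpowers_iff.1 hdG
    rw [orderOf_dvd_iff_pow_eq_one, ← hj, ← zpow_natCast, ← zpow_mul, mul_comm, zpow_mul,
      zpow_natCast, S.b_pow_seven, one_zpow]
  have h2 : orderOf ((d : cen b z) : G) ∣ 2 ^ 7 := by
    rw [Subgroup.orderOf_coe, Subgroup.orderOf_coe, ← S.card_qFix]
    exact orderOf_dvd_natCard d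
  have h1 := Nat.Coprime.eq_one_of_dvd (Nat.Coprime.coprime_dvd_left h7 (by norm_num)) h2
  rw [orderOf_eq_one_iff] at h1
  exact inv_mul_eq_one.1 (Subtype.ext (Subtype.ext h1) : d = 1)

/-- The image of the fixed part. -/
def R : Subgroup (Subgroup.centralizer ({S.zbar} : Set (NQ b))) := S.qFix.map S.proj

/-- The fixed part and its image. -/
noncomputable def equivR : S.qFix ≃* S.R :=
  MulEquiv.ofBijective
    ((S.proj.comp S.qFix.subtype).codRestrict S.R fun r => ⟨_, r.2, rfl⟩)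
    ⟨fun _ _ h => S.proj_inj (congrArg Subtype.val h), fun ⟨_, a, ha, e⟩ => ⟨⟨a, ha⟩, Subtype.ext e⟩⟩

/-! ### The map onto `SL₃(2)` -/

theorem exists_k (a : cen b z) : ∃ k : Co0, k ∈ Held.K ∧
    (QuotientGroup.mk k : Cfsg.Spor.Co1) =
      D.e (QuotientGroup.mk (⟨(a : G), a.2.1⟩ : Subgroup.centralizer ({z} : Set G))) := by
  obtain ⟨k, hk⟩ := QuotientGroup.mk_surjective
    (D.e (QuotientGroup.mk (⟨(a : G), a.2.1⟩ : Subgroup.centralizer ({z} : Set G))))
  refine ⟨k, ?_, hk⟩
  have hcomm : (QuotientGroup.mk (k * Held.sigA) : Cfsg.Spor.Co1) = QuotientGroup.mk (Held.sigA * k) := by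
    rw [QuotientGroup.mk_mul, QuotientGroup.mk_mul, hk, ← S.hb, ← map_mul, ← map_mul,
      ← QuotientGroup.mk_mul, ← QuotientGroup.mk_mul]
    exact congrArg (fun c => D.e (QuotientGroup.mk c)) (Subtype.ext
      (Subgroup.mem_centralizer_singleton_iff.1 a.2.2))
  rw [QuotientGroup.eq, mem_center_iff] at hcomm
  rw [Held.mem_K]
  rcases hcomm with e | e
  · exact inv_mul_eq_one.1 e
  · exfalso
    exact Held.sigA_not_negated (k := k) (inv_mul_eq_iff_eq_mul.1 e)

/-- The lattice automorphism of an element. -/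
noncomputable def kOf (a : cen b z) : Held.K := ⟨(S.exists_k a).choose, (S.exists_k a).choose_spec.1⟩

theorem kOf_spec (a : cen b z) : (QuotientGroup.mk (S.kOf a : Co0) : Cfsg.Spor.Co1) =
    D.e (QuotientGroup.mk (⟨(a : G), a.2.1⟩ : Subgroup.centralizer ({z} : Set G))) :=
  (S.exists_k a).choose_spec.2

/-- The map onto `SL₃(2)`. -/
noncomputable def toSL : cen b z →* Matrix.SpecialLinearGroup (Fin 3) (ZMod 2) :=
  MonoidHom.mk' (fun a => Held.mu (S.kOf a)) fun a c => by
    rw [← map_mul]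
    refine Held.mu_eq_of_mk (k := S.kOf (a * c)) (l := S.kOf a * S.kOf c) ?_
    rw [S.kOf_spec]
    show _ = (QuotientGroup.mk ((S.kOf a : Co0) * (S.kOf c : Co0)) : Cfsg.Spor.Co1)
    rw [QuotientGroup.mk_mul, S.kOf_spec, S.kOf_spec, ← map_mul]
    rfl

theorem toSL_eq {a : cen b z} {k : Held.K} (h : (QuotientGroup.mk (k : Co0) : Cfsg.Spor.Co1) =
    D.e (QuotientGroup.mk (⟨(a : G), a.2.1⟩ : Subgroup.centralizer ({z} : Set G)))) :
    S.toSL a = Held.mu k :=
  Held.mu_eq_of_mk (by rw [S.kOf_spec, h])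

theorem toSL_surjective : Function.Surjective S.toSL := by
  intro m
  obtain ⟨k, rfl⟩ := Held.mu_surjective m
  obtain ⟨c, hc⟩ := QuotientGroup.mk_surjective (D.e.symm (QuotientGroup.mk (k : Co0)))
  have hck : D.e (QuotientGroup.mk c) = (QuotientGroup.mk (k : Co0) : Cfsg.Spor.Co1) := by
    rw [hc, MulEquiv.apply_symm_apply]
  have hconj : (QuotientGroup.mk (c * S.bC * c⁻¹) :
      Subgroup.centralizer ({z} : Set G) ⧸ Q) = QuotientGroup.mk S.bC := by
    apply D.e.injective
    rw [QuotientGroup.mk_mul, QuotientGroup.mk_mul, QuotientGroup.mk_inv, map_mul, map_mul, map_inv,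
      hck, S.hb, ← QuotientGroup.mk_inv, ← QuotientGroup.mk_mul, ← QuotientGroup.mk_mul,
      Held.mem_K.1 k.2, mul_inv_cancel_right]
  obtain ⟨u, hu, e⟩ := conj_lift_seven Q D.hset.2.2.2.1 S.orderC
    (y := c * S.bC * c⁻¹) (by
      show orderOf (MulAut.conj c S.bC) = 7
      rw [MulEquiv.orderOf_eq, S.orderC]) hconj
  set a := u * c with ha
  have hab : (a : G) * b = b * a := by
    have e' : a * S.bC * a⁻¹ = S.bC := by
      conv_rhs => rw [← e]
      rw [ha]; group
    exact congrArg Subtype.val (mul_inv_eq_iff_eq_mul.1 e')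
  refine ⟨⟨a, a.2, Subgroup.mem_centralizer_singleton_iff.2 hab⟩, S.toSL_eq ?_⟩
  show _ = D.e (QuotientGroup.mk a)
  rw [ha, QuotientGroup.mk_mul, (QuotientGroup.eq_one_iff u).2 hu, one_mul, hck]

theorem toSL_eq_one_iff (a : cen b z) :
    S.toSL a = 1 ↔ ∃ m : ℕ, (b ^ m)⁻¹ * (a : G) ∈ D.F := by
  have hbm : ∀ m : ℕ, (QuotientGroup.mk (Held.sigA ^ m) : Cfsg.Spor.Co1) =
      D.e (QuotientGroup.mk (S.bC ^ m)) := fun m => by
    rw [QuotientGroup.mk_pow, QuotientGroup.mk_pow, map_pow, S.hb]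
  constructor
  · intro h
    have h' : Held.muMat (S.kOf a : Co0) = 1 := congrArg Subtype.val h
    obtain ⟨m, hm⟩ := Held.ker_mu (S.kOf a).2 h'
    refine ⟨m, ?_⟩
    have e : (QuotientGroup.mk (S.kOf a : Co0) : Cfsg.Spor.Co1) = QuotientGroup.mk (Held.sigA ^ m) := by
      rcases hm with e | e <;> rw [e]
      rw [QuotientGroup.mk_mul, (QuotientGroup.eq_one_iff _).2 negOne_mem_center, one_mul]
    rw [S.kOf_spec, hbm] at e
    exact ⟨_, QuotientGroup.eq.1 (D.e.injective e).symm, rfl⟩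
  · rintro ⟨m, q, hq, e⟩
    rw [S.toSL_eq (k := ⟨Held.sigA ^ m, pow_mem (Held.mem_K.2 rfl) m⟩) ?_]
    · exact Subtype.ext (Held.muMat_sigA_pow m)
    · rw [hbm]
      congr 1
      rw [QuotientGroup.eq]
      have : (S.bC ^ m)⁻¹ * (⟨(a : G), a.2.1⟩ : Subgroup.centralizer ({z} : Set G)) = q :=
        Subtype.ext e.symm
      rw [this]; exact hq

theorem ker_proj_le : S.proj.ker ≤ S.toSL.ker := by
  intro a ha
  rw [S.mem_ker_proj] at ha
  obtain ⟨j, hj⟩ := (isOfFinOrder_of_finite b).mem_powers_iff_mem_zpowers.2 ha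
  rw [MonoidHom.mem_ker, S.toSL_eq_one_iff]
  exact ⟨j, by rw [show b ^ j = (a : G) from hj, inv_mul_cancel]; exact D.F.one_mem⟩

/-- The map on the centralizer of the image of `z`. -/
noncomputable def gamma :
    Subgroup.centralizer ({S.zbar} : Set (NQ b)) →* Matrix.SpecialLinearGroup (Fin 3) (ZMod 2) :=
  MonoidHom.liftOfSurjective S.proj S.proj_surjective ⟨S.toSL, S.ker_proj_le⟩

theorem gamma_proj (a : cen b z) : S.gamma (S.proj a) = S.toSL a :=
  MonoidHom.liftOfRightInverse_comp_apply _ _ _ _ a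

theorem gamma_surjective : Function.Surjective S.gamma := fun m => by
  obtain ⟨a, rfl⟩ := S.toSL_surjective m
  exact ⟨S.proj a, S.gamma_proj a⟩

theorem gamma_ker : S.R = S.gamma.ker := by
  ext x
  obtain ⟨a, rfl⟩ := S.proj_surjective x
  rw [MonoidHom.mem_ker, S.gamma_proj, S.toSL_eq_one_iff]
  constructor
  · rintro ⟨r, hr, e⟩
    rw [S.proj_eq_iff] at e
    obtain ⟨j, hj⟩ := (isOfFinOrder_of_finite b).mem_powers_iff_mem_zpowers.2 e
    refine ⟨j, ?_⟩
    have hj' : b ^ j = (r : G)⁻¹ * a := hj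
    have hrb : Commute (r : G) (b ^ j) :=
      (show Commute (r : G) b from Subgroup.mem_centralizer_singleton_iff.1 r.2.2).pow_right j
    have ha : (a : G) = b ^ j * r := by rw [← hrb.eq, hj', mul_inv_cancel_left]
    rw [ha, inv_mul_cancel_left]
    exact hr
  · rintro ⟨m, hm⟩
    have hbz : b ∈ cen b z :=
      ⟨Subgroup.mem_centralizer_singleton_iff.2 S.hzb, Subgroup.mem_centralizer_singleton_iff.2 rfl⟩
    refine ⟨(⟨b, hbz⟩ ^ m)⁻¹ * a, hm, ?_⟩
    rw [S.proj_eq_iff]
    have hcomm : Commute (a : G) (b ^ m) :=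
      (show Commute (a : G) b from Subgroup.mem_centralizer_singleton_iff.1 a.2.2).pow_right m
    show ((b ^ m)⁻¹ * (a : G))⁻¹ * a ∈ _
    rw [mul_inv_rev, inv_inv, mul_assoc, ← hcomm.eq, inv_mul_cancel_left]
    exact Subgroup.npow_mem_zpowers b m

theorem R_normal : S.R.Normal := S.gamma_ker ▸ inferInstance

theorem centralizer_R_le : Subgroup.centralizer (S.R : Set _) ≤ S.R := by
  intro x hx
  obtain ⟨a, rfl⟩ := S.proj_surjective x
  rw [S.gamma_ker, MonoidHom.mem_ker, S.gamma_proj]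
  apply Subtype.ext
  show Held.muMat (S.kOf a : Co0) = 1
  funext i j
  set r := S.sec (Held.unit6 (Held.lo j)) with hr
  set r' : S.qFix := ⟨a * (r : cen b z) * a⁻¹, by
    show (a : G) * ((r : cen b z) : G) * (a : G)⁻¹ ∈ D.F
    rw [← S.gv_qOf r]
    exact ⟨⟨(a : G), a.2.1⟩ * S.qOf r * (⟨(a : G), a.2.1⟩ : Subgroup.centralizer ({z} : Set G))⁻¹,
      (inferInstance : Q.Normal).conj_mem _ (S.qOf r).2 _, rfl⟩⟩
  have hrr : r' = r := by
    refine S.proj_inj ?_
    have h := hx _ ⟨(r : cen b z), r.2, rfl⟩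
    show S.proj (a * (r : cen b z) * a⁻¹) = _
    rw [map_mul, map_mul, map_inv, mul_inv_eq_iff_eq_mul]
    exact h.symm
  have hq : (QuotientGroup.mk (S.qOf r) : Q ⧸ Subgroup.center Q) =
      D.mod.cls (Held.rep (Held.unit6 (Held.lo j))) := by
    rw [hr, sec, S.qOf_mkFix, D.mod.mk_rep]
  have hcls := D.cls_conj _ _ (S.kOf_spec a) (Held.fixV_rep _).1 (S.qOf r) hq
  have hq' : (QuotientGroup.mk (S.qOf r') : Q ⧸ Subgroup.center Q) =
      D.mod.cls (act (S.kOf a : Co0) (Held.rep (Held.unit6 (Held.lo j)))) := by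
    rw [hcls]
    congr 1
    apply gv_injective
    rw [S.gv_qOf]
    show (a : G) * ((r : cen b z) : G) * (a : G)⁻¹ = (a : G) * gv (S.qOf r) * (a : G)⁻¹
    rw [S.gv_qOf]
  rw [hrr, hq] at hq'
  have hcode := S.code_unique (Held.fixV_rep _) (Held.fixV_actK (S.kOf a).2 (Held.fixV_rep _)) hq'
  show Held.code (act _ _) _ = _
  rw [← hcode, ← congrFun (congrFun Held.muMat_one i) j]
  show _ = Held.code (act 1 _) _
  rw [one_act]

theorem pCore_eq_R : Cfsg.pCore 2 (Subgroup.centralizer ({S.zbar} : Set (NQ b))) = S.R := by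
  haveI : Fact (Nat.Prime 2) := ⟨Nat.prime_two⟩
  set P := Cfsg.pCore 2 (Subgroup.centralizer ({S.zbar} : Set (NQ b))) with hP
  refine le_antisymm ?_ (H19.le_pCore S.R_normal
    ((IsPGroup.of_card S.card_qFix).map _))
  rw [S.gamma_ker, ← Subgroup.map_eq_bot_iff]
  haveI := Held.sl_simple
  haveI : P.Normal := H19.pCore_normal 2 _
  rcases IsSimpleGroup.eq_bot_or_eq_top_of_normal (P.map S.gamma)
    (Subgroup.Normal.map inferInstance _ S.gamma_surjective) with h | h
  · exact h
  · exfalso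
    have h2 : IsPGroup 2 (P.map S.gamma) := (H19.pCore_isPGroup 2).map _
    obtain ⟨k, hk⟩ := h2.exists_card_eq
    rw [h, Subgroup.card_top, Held.sl_card] at hk
    have h7 : (7 : ℕ) ∣ 2 ^ k := hk ▸ (by norm_num)
    have := (Nat.prime_dvd_prime_iff_eq (by norm_num) Nat.prime_two).1
      ((by norm_num : Nat.Prime 7).dvd_of_dvd_pow h7)
    omega

theorem isConj_bar_iff (r : S.qFix) :
    IsConj S.zbar ((S.proj (r : cen b z) : Subgroup.centralizer ({S.zbar} : Set (NQ b))) : NQ b) ↔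
      IsConj z ((r : cen b z) : G) := by
  constructor
  · intro h
    obtain ⟨y, hy⟩ := isConj_iff.1 h
    obtain ⟨c, rfl⟩ := QuotientGroup.mk_surjective y
    replace hy : (QuotientGroup.mk ⟨((r : cen b z) : G), mem_cent.2
          (Subgroup.mem_centralizer_singleton_iff.1 (r : cen b z).2.2)⟩ : NQ b) =
        QuotientGroup.mk (c * ⟨z, mem_cent.2 S.hzb.symm⟩ * c⁻¹) := hy.symm
    rw [QuotientGroup.eq, Subgroup.mem_subgroupOf] at hy
    set x := ((r : cen b z) : G) with hx
    set y := (c : G) * z * (c : G)⁻¹ with hyd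
    have hm : x⁻¹ * y ∈ Subgroup.zpowers b := hy
    obtain ⟨j, hj⟩ := Subgroup.mem_zpowers_iff.1 hm
    have hxb : Commute x (b ^ j) :=
      (show Commute x b from Subgroup.mem_centralizer_singleton_iff.1 (r : cen b z).2.2).zpow_right j
    have hy2 : y * y = 1 := by rw [hyd, conj_mul, D.z_sq, mul_one, mul_inv_cancel]
    have hyx : y = x * b ^ j := by rw [hj, mul_inv_cancel_left]
    have hx2 : x * x = 1 := by
      have h1 : S.cd (r * r) = 0 := by
        rw [S.cd_mul]; funext i; exact (by decide : ∀ c : ZMod 2, c + c = 0) _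
      rcases S.cd_eq_zero.1 h1 with e | e
      · exact congrArg (fun r : S.qFix => ((r : cen b z) : G)) e
      · exfalso
        have e' : x * x = z := congrArg (fun r : S.qFix => ((r : cen b z) : G)) e
        have : (b ^ j) ^ 2 = z := by
          have h2 : y * y = x * x * (b ^ j) ^ 2 := by
            rw [hyx, pow_two, mul_assoc, ← mul_assoc (b ^ j), ← hxb.eq, mul_assoc x, mul_assoc]
          rw [hy2, e'] at h2
          exact (inv_eq_of_mul_eq_one_right h2.symm).symm.trans (inv_eq_of_mul_eq_one_right D.z_sq)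
        have hmem : z ∈ Subgroup.zpowers b := by
          rw [← this]; exact pow_mem (Subgroup.zpow_mem _ (Subgroup.mem_zpowers b) j) 2
        exact D.z_ne_one (S.pow_two_eq S.hzb.symm (by rw [pow_two, D.z_sq]) hmem)
    have hb2 : (b ^ j) ^ 2 = 1 := by
      rw [hyx, mul_assoc, ← mul_assoc (b ^ j), ← hxb.eq, mul_assoc x, ← mul_assoc x x, hx2, one_mul,
        ← pow_two] at hy2
      exact hy2
    have hb1 := S.pow_two_eq ((Commute.refl b).zpow_left j).eq hb2 (Subgroup.zpow_mem _ (Subgroup.mem_zpowers b) j)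
    exact isConj_iff.2 ⟨c, by rw [← hyd, hyx, hb1, mul_one]⟩
  · intro h
    obtain ⟨c, hcb, hc⟩ := S.fusion h
    refine isConj_iff.2 ⟨QuotientGroup.mk ⟨c, mem_cent.2 hcb⟩, ?_⟩
    show (QuotientGroup.mk _ : NQ b) = _
    congr 1
    exact Subtype.ext hc

theorem ncard_conj : Set.ncard {x : Subgroup.centralizer ({S.zbar} : Set (NQ b)) |
    x ∈ S.R ∧ IsConj S.zbar (x : NQ b)} = 29 := by
  have e1 : {x : Subgroup.centralizer ({S.zbar} : Set (NQ b)) | x ∈ S.R ∧ IsConj S.zbar (x : NQ b)} =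
      (fun r : S.qFix => S.proj (r : cen b z)) '' {r | IsConj z ((r : cen b z) : G)} := by
    ext x
    constructor
    · rintro ⟨⟨a, ha, rfl⟩, hc⟩
      exact ⟨⟨a, ha⟩, (S.isConj_bar_iff ⟨a, ha⟩).1 hc, rfl⟩
    · rintro ⟨r, hr, rfl⟩
      exact ⟨⟨_, r.2, rfl⟩, (S.isConj_bar_iff r).2 hr⟩
  rw [e1, Set.ncard_image_of_injective _ (fun _ _ h => S.proj_inj h)]
  classical
  set T : Finset Held.Code := Finset.univ.filter fun c => Held.repNorm.getD (Held.num c) 0 = 64
    with hT
  have hz : S.cd S.zF = 0 := S.cd_eq_zero.2 (Or.inr rfl)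
  have e2 : {r : S.qFix | IsConj z ((r : cen b z) : G)} =
      ↑(insert S.zF (T.image S.sec ∪ T.image fun c => S.sec c * S.zF)) := by
    ext r
    simp only [Finset.coe_insert, Finset.coe_union, Finset.coe_image, Set.mem_insert_iff,
      Set.mem_union, Set.mem_image, Set.mem_setOf_eq, Finset.mem_coe]
    constructor
    · intro h
      by_cases he : ((r : cen b z) : G) = z
      · exact Or.inl (Subtype.ext (Subtype.ext he))
      · right
        have hcT : S.cd r ∈ T := Finset.mem_filter.2 ⟨Finset.mem_univ _, (S.conj_code_iff r).1 ⟨h, he⟩⟩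
        rcases S.cd_fibre r with e | e
        · exact Or.inl ⟨_, hcT, e.symm⟩
        · exact Or.inr ⟨_, hcT, e.symm⟩
    · rintro (rfl | ⟨c, hc, rfl⟩ | ⟨c, hc, rfl⟩)
      · exact IsConj.refl z
      · exact ((S.conj_code_iff _).2 (by rw [S.cd_sec]; exact (Finset.mem_filter.1 hc).2)).1
      · exact ((S.conj_code_iff _).2 (by
          rw [S.cd_mul, hz, add_zero, S.cd_sec]; exact (Finset.mem_filter.1 hc).2)).1
  rw [e2, Set.ncard_coe_finset]
  have hsec : Function.Injective S.sec := fun c d h => by rw [← S.cd_sec c, h, S.cd_sec]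
  have hsec' : Function.Injective fun c => S.sec c * S.zF := fun c d h => hsec (mul_right_cancel h)
  have h0 : ∀ c ∈ T, c ≠ 0 := fun c hc e => by
    have := (Finset.mem_filter.1 hc).2
    rw [e] at this
    revert this
    decide +kernel
  rw [Finset.card_insert_of_notMem, Finset.card_union_of_disjoint,
    Finset.card_image_of_injective _ hsec, Finset.card_image_of_injective _ hsec', hT,
    Held.card_sixty_four]
  · rw [Finset.disjoint_left]
    rintro r hr hr'
    obtain ⟨c, -, rfl⟩ := Finset.mem_image.1 hr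
    obtain ⟨d, -, e⟩ := Finset.mem_image.1 hr'
    have hcd : d = c := by
      have := congrArg S.cd e
      rwa [S.cd_mul, hz, add_zero, S.cd_sec, S.cd_sec] at this
    subst hcd
    exact S.zF_ne_one (mul_eq_left.1 e)
  · simp only [Finset.mem_union, Finset.mem_image, not_or, not_exists, not_and]
    refine ⟨fun c hc e => h0 c hc ?_, fun c hc e => h0 c hc ?_⟩
    · rw [← S.cd_sec c, e, hz]
    · have := congrArg S.cd e
      rwa [S.cd_mul, hz, add_zero, S.cd_sec] at this

theorem setting : Cfsg.IsExtraspecialCentralizerSetting S.zbar S.R 3 := by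
  haveI : Fact (Nat.Prime 2) := ⟨Nat.prime_two⟩
  refine ⟨?_, ?_, extraspecial_of_equiv S.equivR S.qFix_extraspecial,
    (Nat.card_congr S.equivR.toEquiv).symm.trans (by rw [S.card_qFix]), ?_⟩
  · refine orderOf_eq_prime ?_ ?_
    · rw [pow_two, zbar_def, ← QuotientGroup.mk_mul, QuotientGroup.eq_one_iff, Subgroup.mem_subgroupOf]
      show z * z ∈ _
      rw [D.z_sq]; exact Subgroup.one_mem _
    · rw [zbar_def]
      intro e
      rw [QuotientGroup.eq_one_iff, Subgroup.mem_subgroupOf] at e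
      exact D.z_ne_one (S.pow_two_eq S.hzb.symm (by rw [pow_two, D.z_sq]) e)
  · rw [(H73.charP_iff_generalizedFitting (p := 2)).1 (by
      rw [S.pCore_eq_R]; exact S.centralizer_R_le), S.pCore_eq_R]
  · set r := S.sec (Held.unit6 0) with hr
    obtain ⟨hc, hne⟩ := (S.conj_code_iff r).2 (by rw [S.cd_sec]; decide +kernel)
    obtain ⟨g, hg⟩ := isConj_iff.1 ((S.isConj_bar_iff r).2 hc)
    refine ⟨g, ?_, ?_⟩
    · rw [hg]
      exact ⟨(S.proj (r : cen b z)).2, ⟨_, r.2, rfl⟩⟩
    · rw [hg]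
      intro e
      have : r = S.zF := S.proj_inj (Subtype.ext e)
      exact hne (congrArg (fun r : S.qFix => ((r : cen b z) : G)) this)

theorem heldType : Cfsg.IsOfHeldType (NQ b) := by
  haveI := S.R_normal
  exact ⟨S.zbar, S.R, S.R_normal, S.setting,
    ⟨(QuotientGroup.quotientMulEquivOfEq S.gamma_ker).trans
      (QuotientGroup.quotientKerEquivOfSurjective S.gamma S.gamma_surjective)⟩, S.ncard_conj⟩

end Seven

end Data

end Cfsg.Agent.H18.Monster
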