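import Cfsg.Agent.H18.Monster.HeldLattice

/-!
Further facts on the centralizer of the permutation of type `1^3 7^3`.
-/

set_option autoImplicit false
set_option maxRecDepth 100000

namespace Cfsg.Agent.H18.Monster.Held

open Cfsg Cfsg.Agent.H14 Finset

theorem pairing_table : ∀ c : Code, c ≠ 0 → ∃ j : Fin 6, ¬ (16 : ℤ) ∣
    H15.listDot (repL.getD (num c) []) (repL.getD (num (unit6 j)) []) := by
  decide +kernel

theorem rep_pairing (c : Code) (hc : c ≠ 0) :
    ∃ j : Fin 6, ¬ (16 : ℤ) ∣ dotInt (rep c) (rep (unit6 j)) := by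
  obtain ⟨j, hj⟩ := pairing_table c hc
  exact ⟨j, by rw [rep, rep, dot_toVec (rep_ok c).2.1 (rep_ok _).2.1]; exact hj⟩

theorem dvd_of_congr {x y u v s t : V} (hx : IsLeech x) (hy : IsLeech y) (hu : IsLeech u)
    (ht : IsLeech t) (hs : IsLeech s) (ex : x - u = 2 • t) (ey : y - v = 2 • s)
    (h : (16 : ℤ) ∣ dotInt x y) : (16 : ℤ) ∣ dotInt u v := by
  have hv : IsLeech v := by
    have : v = y - (s + s) := by rw [← two_nsmul, ← ey, sub_sub_cancel]
    rw [this]; exact hy.sub (hs.add hs)
  obtain ⟨a, ha⟩ := ht.eight_dvd_dotInt hy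
  obtain ⟨c, hc⟩ := hu.eight_dvd_dotInt hs
  have e1 : dotInt x y = dotInt u v + 2 * dotInt t y + 2 * dotInt u s := by
    simp only [dotInt, mul_sum, ← sum_add_distrib]
    refine sum_congr rfl fun p _ => ?_
    have h1 := congrFun ex p
    have h2 := congrFun ey p
    simp only [Pi.sub_apply, Pi.smul_apply, nsmul_eq_mul, Nat.cast_ofNat] at h1 h2
    rw [show x p = u p + 2 * t p by linarith, show y p = v p + 2 * s p by linarith]
    ring
  omega

theorem negOne_pow_seven : negOne ^ 7 = negOne := by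
  have h2 : negOne * negOne = 1 := act_eq_of_forall fun x hx => by
    rw [mul_act, act_negOne hx, act_negOne hx.neg, neg_neg, one_act]
  simp only [pow_succ, pow_zero, one_mul, h2]

/-- The negated permutation is not conjugate to the permutation. -/
theorem sigA_not_negated {k : Co0} : sigA * k ≠ k * sigA * negOne := by
  intro e
  have hz : ∀ a : Co0, a * negOne = negOne * a := Subgroup.mem_center_iff.1 negOne_mem_center
  have h1 : k⁻¹ * sigA * k = sigA * negOne := by
    rw [mul_assoc, e, ← mul_assoc, ← mul_assoc, inv_mul_cancel, one_mul]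
  have h2 : (k⁻¹ * sigA * k) ^ 7 = 1 := by
    have := conj_pow (i := 7) (a := k⁻¹) (b := sigA)
    rw [inv_inv, sigA_seven, mul_one, inv_mul_cancel] at this
    exact this
  rw [h1, (show Commute sigA negOne from hz sigA).mul_pow, sigA_seven, one_mul, negOne_pow_seven] at h2
  exact negOne_ne_one h2

theorem code_neg {x : V} (hx : IsLeech x) : code (-x) = code x := by
  refine code_congr hx hx.neg ?_
  rw [two_nsmul]; abel

/-- The representation depends only on the image modulo the centre. -/
theorem mu_eq_of_mk {k l : K}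
    (h : (QuotientGroup.mk (k : Co0) : Spor.Co1) = QuotientGroup.mk (l : Co0)) : mu k = mu l := by
  rw [QuotientGroup.eq, mem_center_iff] at h
  rcases h with e | e
  · exact congrArg mu (Subtype.ext (inv_mul_eq_one.1 e))
  · apply Subtype.ext
    show muMat (k : Co0) = muMat (l : Co0)
    rw [show (l : Co0) = negOne * k by
      rw [← (Subgroup.mem_center_iff.1 negOne_mem_center (k : Co0)), ← e, mul_inv_cancel_left]]
    funext i j
    show code (act _ _) _ = code (act _ _) _
    rw [mul_act, act_negOne (isLeech_act _ (fixV_rep _).1), code_neg (isLeech_act _ (fixV_rep _).1)]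

theorem muMat_sigA_pow (m : ℕ) : muMat (sigA ^ m) = 1 := by
  have h : muMat sigA = 1 := by
    funext i j
    rw [← congrFun (congrFun muMat_one i) j]
    show code (act _ _) _ = code (act _ _) _
    rw [act_sigA (fixV_rep _).1, (fixV_rep _).2, one_act]
  induction m with
  | zero => rw [pow_zero, muMat_one]
  | succ m ih => rw [pow_succ, muMat_mul (mem_K.2 rfl), ih, h, one_mul]

theorem sl_equiv_gl : Nonempty (Matrix.SpecialLinearGroup (Fin 3) (ZMod 2) ≃* GL (Fin 3) (ZMod 2)) := by
  have hone : ∀ r : ZMod 2, r ≠ 0 → r = 1 := by decide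
  refine ⟨MulEquiv.ofBijective (Matrix.SpecialLinearGroup.toGL (n := Fin 3) (R := ZMod 2))
    ⟨fun a b h => Subtype.ext (congrArg Units.val h), fun g => ?_⟩⟩
  exact ⟨⟨(g : Matrix (Fin 3) (Fin 3) (ZMod 2)),
    hone _ (g.isUnit.map Matrix.detMonoidHom).ne_zero⟩, Units.ext rfl⟩

theorem sl_card : Nat.card (Matrix.SpecialLinearGroup (Fin 3) (ZMod 2)) = 168 := by
  obtain ⟨e⟩ := sl_equiv_gl
  rw [Nat.card_congr e.toEquiv, H50.AltEight.gl_three_two.2]

theorem sl_simple : IsSimpleGroup (Matrix.SpecialLinearGroup (Fin 3) (ZMod 2)) := by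
  obtain ⟨e⟩ := sl_equiv_gl
  haveI := H50.AltEight.gl_three_two.1
  haveI : Nontrivial (Matrix.SpecialLinearGroup (Fin 3) (ZMod 2)) := e.toEquiv.nontrivial
  exact IsSimpleGroup.isSimpleGroup_of_surjective e.symm.toMonoidHom e.symm.surjective

end Cfsg.Agent.H18.Monster.Held
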