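import Cfsg.Agent.H18.Monster.HeldPerm
import Cfsg.Agent.H14.LeechMonomial
import Cfsg.Agent.H18.Monster.CrossClass
import Cfsg.Agent.H50.AltEight.Classify

/-!
The centralizer of the permutation of type `1^3 7^3` in the automorphism group of the Leech lattice
and its action on the fixed sublattice modulo two.
-/

set_option autoImplicit false
set_option maxRecDepth 100000

namespace Cfsg.Agent.H18.Monster.Held

open Cfsg Cfsg.Agent.H14 Finset

/-- The six coordinates modulo two. -/
abbrev Code : Type := Fin 6 → ZMod 2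

/-- A number as a code. -/
def bits (n : ℕ) : Code := fun i => if n.testBit i.val then 1 else 0

/-- A code as a number. -/
def num (c : Code) : ℕ := Nat.ofBits fun i => decide (c i = 1)

/-- The coordinates modulo two of a vector. -/
noncomputable def code (v : V) : Code := fun i =>
  ((dotInt (H15.toVec (codeRows.getD i.val [])) v / 8 : ℤ) : ZMod 2)

/-- The coordinates modulo two of a list. -/
noncomputable def codeL (l : List ℤ) : Code := fun i =>
  ((H15.listDot (codeRows.getD i.val []) l / 8 : ℤ) : ZMod 2)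

theorem dot_toVec {a b : List ℤ} (ha : a.length = 24) (hb : b.length = 24) :
    dotInt (H15.toVec a) (H15.toVec b) = H15.listDot a b := by
  rw [H15.listDot_eq (ha.trans hb.symm), ha]
  exact H15.sum24 fun i => a.getD i 0 * b.getD i 0

theorem rows_ok : (∀ i : Fin 6, H15.leechOk (codeRows.getD i.val []) = true ∧
    (codeRows.getD i.val []).length = 24) ∧
    (∀ i : Fin 6, H15.leechOk (dualL.getD i.val []) = true ∧ (dualL.getD i.val []).length = 24) ∧
    ∀ i : Fin 6, H15.leechOk (basL.getD i.val []) = true ∧ (basL.getD i.val []).length = 24 := by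
  decide +kernel

theorem code_toVec {l : List ℤ} (hl : l.length = 24) : code (H15.toVec l) = codeL l := by
  funext i
  rw [code, codeL, dot_toVec (rows_ok.1 i).2 hl]

/-- A lattice vector fixed by the permutation. -/
def FixV (v : V) : Prop := IsLeech v ∧ permFun sig v = v

theorem FixV.leech {v : V} (h : FixV v) : IsLeech v := h.1

theorem FixV.zero : FixV 0 := ⟨isLeech_zero, rfl⟩

theorem FixV.add {v w : V} (hv : FixV v) (hw : FixV w) : FixV (v + w) :=
  ⟨hv.1.add hw.1, by rw [show permFun sig (v + w) = permFun sig v + permFun sig w from rfl, hv.2, hw.2]⟩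

theorem FixV.sub {v w : V} (hv : FixV v) (hw : FixV w) : FixV (v - w) :=
  ⟨hv.1.sub hw.1, by rw [show permFun sig (v - w) = permFun sig v - permFun sig w from rfl, hv.2, hw.2]⟩

theorem dot_add_right (a x y : V) : dotInt a (x + y) = dotInt a x + dotInt a y := by
  simp only [dotInt, Pi.add_apply, mul_add, sum_add_distrib]

theorem code_add {x y : V} (hx : IsLeech x) (hy : IsLeech y) : code (x + y) = code x + code y := by
  funext i
  have hr := H15.leechOk_spec (rows_ok.1 i).1
  obtain ⟨a, ha⟩ := hr.eight_dvd_dotInt hx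
  obtain ⟨b, hb⟩ := hr.eight_dvd_dotInt hy
  simp only [code, Pi.add_apply, dot_add_right, ha, hb, ← mul_add,
    Int.mul_ediv_cancel_left _ (by norm_num : (8 : ℤ) ≠ 0), Int.cast_add]

theorem code_zero : code 0 = 0 := by
  funext i; simp [code, dotInt]

theorem code_two_smul {t : V} (ht : IsLeech t) : code (2 • t) = 0 := by
  rw [two_nsmul, code_add ht ht]
  funext i
  exact (by decide : ∀ a : ZMod 2, a + a = 0) _

theorem code_congr {x y t : V} (hy : IsLeech y) (ht : IsLeech t) (e : x - y = 2 • t) :
    code x = code y := by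
  rw [← sub_add_cancel x y, e, code_add (by rw [two_nsmul]; exact ht.add ht) hy, code_two_smul ht,
    zero_add]

/-- The vector of an orbit. -/
noncomputable def indV (k : Fin 6) : V := fun p => if orbLab.getD (H15.idx p) 0 = k.val then 1 else 0

theorem lab_of : ∀ p : GolayPt, ∃ k : Fin 6, orbLab.getD (H15.idx p) 0 = k.val := fun p =>
  ⟨⟨_, lab_lt p⟩, rfl⟩

theorem eq_orbit_sum {w : V} (hw : permFun sig w = w) :
    w = ∑ k : Fin 6, w (pt (orbRep.getD k.val 0)) • indV k := by
  have hinv : ∀ (n : ℕ) p, w ((sig ^ n) p) = w p := by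
    intro n
    induction n with
    | zero => intro p; rfl
    | succ n ih =>
      intro p
      rw [pow_succ, Equiv.Perm.mul_apply, ih]
      conv_lhs => rw [← hw]
      exact congrArg w (Equiv.symm_apply_apply sig p)
  funext p
  obtain ⟨k, hk⟩ := lab_of p
  rw [Finset.sum_apply, Finset.sum_eq_single k]
  · simp only [Pi.smul_apply, indV, hk, if_true, smul_eq_mul, mul_one]
    conv_lhs => rw [orb_spec p, hinv, hk]
  · intro j _ hj
    simp only [Pi.smul_apply, indV, hk, smul_eq_mul]
    rw [if_neg (fun e => hj (Fin.ext e.symm)), mul_zero]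
  · simp

/-- The orbit sums of the dual vectors have trivial kernel. -/
theorem dual_kernel {a : Fin 6 → ℤ}
    (h : ∀ i : Fin 6, ∑ k, a k * dotInt (H15.toVec (dualL.getD i.val [])) (indV k) = 0) : a = 0 := by
  have hS : ∀ i k : Fin 6, dotInt (H15.toVec (dualL.getD i.val [])) (indV k) =
      ((List.range 24).map fun p => if orbLab.getD p 0 = k.val then
        (dualL.getD i.val []).getD p 0 else 0).sum := by decide +kernel
  simp only [hS, Fin.sum_univ_six] at h
  have h0 := h 0
  have h1 := h 1
  have h2 := h 2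
  have h3 := h 3
  have h4 := h 4
  have h5 := h 5
  simp [dualL, orbLab, List.range_succ] at h0 h1 h2 h3 h4 h5
  funext k
  fin_cases k <;> simp <;> omega

theorem fixed_bas : ∀ (i : Fin 6) (p : GolayPt),
    H15.toVec (basL.getD i.val []) (sig.symm p) = H15.toVec (basL.getD i.val []) p := by
  decide +kernel

theorem fixV_bas (i : Fin 6) : FixV (H15.toVec (basL.getD i.val [])) :=
  ⟨H15.leechOk_spec (rows_ok.2.2 i).1, funext fun p => fixed_bas i p⟩

theorem dual_dot : ∀ i j : Fin 6, H15.listDot (dualL.getD i.val []) (basL.getD j.val []) =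
    if i = j then 8 else 0 := by decide +kernel

theorem code_bas_ker : ∀ b : Code,
    (∀ i : Fin 6, ∑ j, b j * codeL (basL.getD j.val []) i = 0) → b = 0 := by decide +kernel

theorem code_sum {ι : Type} (s : Finset ι) (f : ι → V) (hf : ∀ j, IsLeech (f j)) :
    IsLeech (∑ j ∈ s, f j) ∧ code (∑ j ∈ s, f j) = ∑ j ∈ s, code (f j) := by
  classical
  induction s using Finset.induction_on with
  | empty => exact ⟨by simpa using isLeech_zero, by simp [code_zero]⟩
  | insert a s ha ih =>
    rw [sum_insert ha, sum_insert ha]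
    exact ⟨(hf a).add ih.1, by rw [code_add (hf a) ih.1, ih.2]⟩

theorem isLeech_zsmul {x : V} (hx : IsLeech x) (n : ℤ) : IsLeech (n • x) :=
  AddSubgroup.zsmul_mem leechAdd hx n

theorem code_zsmul {x : V} (hx : IsLeech x) (n : ℤ) : code (n • x) = (n : ZMod 2) • code x := by
  funext i
  obtain ⟨a, ha⟩ := (H15.leechOk_spec (rows_ok.1 i).1).eight_dvd_dotInt hx
  have h1 : dotInt (H15.toVec (codeRows.getD i.val [])) (n • x) =
      n * dotInt (H15.toVec (codeRows.getD i.val [])) x := by
    simp only [dotInt, Pi.smul_apply, smul_eq_mul, mul_sum]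
    exact sum_congr rfl fun p _ => by ring
  simp only [code, Pi.smul_apply, smul_eq_mul, h1, ha, ← Int.cast_mul]
  congr 1
  rw [← mul_assoc, mul_comm n, mul_assoc, Int.mul_ediv_cancel_left _ (by norm_num : (8 : ℤ) ≠ 0),
    Int.mul_ediv_cancel_left _ (by norm_num : (8 : ℤ) ≠ 0)]

/-- A fixed vector is an integral combination of the basis. -/
theorem exists_decomp {v : V} (hv : FixV v) :
    ∃ c : Fin 6 → ℤ, v = ∑ j : Fin 6, c j • H15.toVec (basL.getD j.val []) := by
  have hd : ∀ i : Fin 6, ∃ c, dotInt (H15.toVec (dualL.getD i.val [])) v = 8 * c := fun i =>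
    (H15.leechOk_spec (rows_ok.2.1 i).1).eight_dvd_dotInt hv.1
  choose c hc using hd
  refine ⟨c, ?_⟩
  set u := ∑ j : Fin 6, c j • H15.toVec (basL.getD j.val []) with hu
  have hfix : permFun sig u = u := by
    funext p
    simp only [hu, permFun, Finset.sum_apply, Pi.smul_apply, fixed_bas]
  have hw : permFun sig (v - u) = v - u := by
    rw [show permFun sig (v - u) = permFun sig v - permFun sig u from rfl, hv.2, hfix]
  have hzero : ∀ i : Fin 6, dotInt (H15.toVec (dualL.getD i.val [])) (v - u) = 0 := by
    intro i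
    rw [dotInt_sub_right, hc, hu]
    have : dotInt (H15.toVec (dualL.getD i.val []))
        (∑ j : Fin 6, c j • H15.toVec (basL.getD j.val [])) =
        ∑ j : Fin 6, c j * dotInt (H15.toVec (dualL.getD i.val [])) (H15.toVec (basL.getD j.val [])) := by
      simp only [dotInt, Finset.sum_apply, Pi.smul_apply, smul_eq_mul, mul_sum]
      rw [sum_comm]
      exact sum_congr rfl fun j _ => sum_congr rfl fun p _ => by ring
    rw [this, Fintype.sum_eq_single i]
    · rw [dot_toVec (rows_ok.2.1 i).2 (rows_ok.2.2 i).2, dual_dot, if_pos rfl]; ring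
    · intro j hj
      rw [dot_toVec (rows_ok.2.1 i).2 (rows_ok.2.2 j).2, dual_dot, if_neg (Ne.symm hj), mul_zero]
  have ha := dual_kernel (a := fun k => (v - u) (pt (orbRep.getD k.val 0))) fun i => by
    rw [← hzero i]
    conv_rhs => rw [eq_orbit_sum hw]
    simp only [dotInt, Finset.sum_apply, Pi.smul_apply, smul_eq_mul, mul_sum]
    rw [sum_comm]
    exact sum_congr rfl fun j _ => sum_congr rfl fun p _ => by ring
  have hz : v - u = 0 := by
    rw [eq_orbit_sum hw]
    exact sum_eq_zero fun k _ => by
      have := congrFun ha k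
      simp only [Pi.zero_apply] at this
      rw [this, zero_smul]
  exact sub_eq_zero.1 hz

/-- A fixed vector with trivial code is twice a lattice vector. -/
theorem two_dvd_of_code {v : V} (hv : FixV v) (h : code v = 0) :
    ∃ t, IsLeech t ∧ v = 2 • t := by
  obtain ⟨c, rfl⟩ := exists_decomp hv
  have hl : ∀ j : Fin 6, IsLeech (H15.toVec (basL.getD j.val [])) := fun j => (fixV_bas j).1
  rw [(code_sum univ _ fun j => isLeech_zsmul (hl j) (c j)).2] at h
  have h2 : (fun j => ((c j : ℤ) : ZMod 2)) = (0 : Code) := code_bas_ker _ fun i => by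
    have := congrFun h i
    simp only [Finset.sum_apply, code_zsmul (hl _), Pi.smul_apply, smul_eq_mul, Pi.zero_apply] at this
    simpa only [code_toVec (rows_ok.2.2 _).2] using this
  have h3 : ∀ j, ∃ d, c j = 2 * d := fun j =>
    (ZMod.intCast_zmod_eq_zero_iff_dvd (c j) 2).1 (congrFun h2 j)
  choose d hd using h3
  refine ⟨∑ j : Fin 6, d j • H15.toVec (basL.getD j.val []),
    (code_sum univ _ fun j => isLeech_zsmul (hl j) (d j)).1, ?_⟩
  rw [Finset.smul_sum]
  refine sum_congr rfl fun j _ => ?_
  rw [hd j, mul_smul, two_nsmul, two_smul]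

/-- Fixed vectors with one code are congruent. -/
theorem congr_of_code {v w : V} (hv : FixV v) (hw : FixV w) (h : code v = code w) :
    ∃ t, IsLeech t ∧ v - w = 2 • t := by
  refine two_dvd_of_code (hv.sub hw) ?_
  have h1 := code_add (hv.1.sub hw.1) hw.1
  rw [sub_add_cancel, h] at h1
  exact right_eq_add.1 h1 |>.trans rfl

/-- The short vector of a code. -/
noncomputable def rep (c : Code) : V := H15.toVec (repL.getD (num c) [])

theorem rep_ok : ∀ c : Code, H15.leechOk (repL.getD (num c) []) = true ∧
    (repL.getD (num c) []).length = 24 ∧ codeL (repL.getD (num c) []) = c ∧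
    H15.listDot (repL.getD (num c) []) (repL.getD (num c) []) = repNorm.getD (num c) 0 := by
  decide +kernel

theorem rep_fixed : ∀ (c : Code) (p : GolayPt),
    H15.toVec (repL.getD (num c) []) (sig.symm p) = H15.toVec (repL.getD (num c) []) p := by
  decide +kernel

theorem fixV_rep (c : Code) : FixV (rep c) :=
  ⟨H15.leechOk_spec (rep_ok c).1, funext fun p => rep_fixed c p⟩

theorem code_rep (c : Code) : code (rep c) = c := by
  rw [rep, code_toVec (rep_ok c).2.1]; exact (rep_ok c).2.2.1

theorem sqNorm_rep (c : Code) : sqNorm (rep c) = repNorm.getD (num c) 0 := by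
  rw [← (rep_ok c).2.2.2, ← dot_toVec (rep_ok c).2.1 (rep_ok c).2.1, dotInt_self]
  rfl

/-- The first half. -/
def InOne (c : Code) : Prop := c 3 = 0 ∧ c 4 = 0 ∧ c 5 = 0

/-- The second half. -/
def InTwo (c : Code) : Prop := c 0 = 0 ∧ c 1 = 0 ∧ c 2 = 0

instance (c : Code) : Decidable (InOne c) := inferInstanceAs (Decidable (_ ∧ _))

instance (c : Code) : Decidable (InTwo c) := inferInstanceAs (Decidable (_ ∧ _))

theorem norm_cases : ∀ c : Code,
    (repNorm.getD (num c) 0 = 64 ∧ c ≠ 0 ∧ (InOne c ∨ InTwo c)) ∨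
      repNorm.getD (num c) 0 ≤ 48 := by decide +kernel

theorem card_sixty_four : (univ.filter fun c : Code => repNorm.getD (num c) 0 = 64).card = 14 := by
  decide +kernel

/-- The code of a fixed vector congruent to one of squared length 64. -/
theorem norm_of_congr {y v t : V} (hy : IsLeech y) (hn : sqNorm y = 64) (hv : FixV v)
    (ht : IsLeech t) (e : y - v = 2 • t) : repNorm.getD (num (code v)) 0 = 64 := by
  obtain ⟨s, hs, es⟩ := congr_of_code hv (fixV_rep (code v)) (code_rep _).symm
  rcases norm_cases (code v) with h | h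
  · exact h.1
  exfalso
  have e' : y - rep (code v) = 2 • (t + s) := by rw [nsmul_add, ← e, ← es]; abel
  rw [← sqNorm_rep] at h
  rcases congr_two_cases hy (fixV_rep _).1 (ht.add hs) e' hn.le (by omega) with h' | h' | h'
  · rw [h', hn] at h; omega
  · rw [h', sqNorm_neg, hn] at h; omega
  · omega

/-- The permutation as an automorphism of the lattice. -/
noncomputable def sigA : Co0 := permAut sig sig_mem

theorem act_sigA {x : V} (hx : IsLeech x) : act sigA x = permFun sig x := act_permAut sig_mem hx

theorem act_sigA_pow {x : V} (hx : IsLeech x) (n : ℕ) :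
    act (sigA ^ n) x = permFun (sig ^ n) x := by
  induction n with
  | zero => rw [pow_zero, pow_zero, one_act]; rfl
  | succ n ih =>
    rw [pow_succ', pow_succ', mul_act, ih, act_sigA (hx.permFun (pow_mem sig_mem n))]
    rfl

/-- The centralizer of the permutation. -/
noncomputable def K : Subgroup Co0 := Subgroup.centralizer {sigA}

theorem mem_K {k : Co0} : k ∈ K ↔ k * sigA = sigA * k := Subgroup.mem_centralizer_singleton_iff

/-- Elements conjugating the permutation to a power preserve fixed vectors. -/
theorem fixV_act {k : Co0} {n : ℕ} (hk : k * sigA = sigA ^ n * k) (hn : (sigA ^ n) ^ 5 = sigA ∨ n = 1)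
    {v : V} (hv : FixV v) : FixV (act k v) := by
  have hkL := isLeech_act k hv.1
  refine ⟨hkL, ?_⟩
  have h1 : act (sigA ^ n) (act k v) = act k v := by
    rw [← mul_act, ← hk, mul_act, act_sigA hv.1, hv.2]
  rw [← act_sigA hkL]
  rcases hn with h | h
  · have h5 : ∀ m : ℕ, act ((sigA ^ n) ^ m) (act k v) = act k v := by
      intro m
      induction m with
      | zero => rw [pow_zero, one_act]
      | succ m ih => rw [pow_succ', mul_act, ih, h1]
    have := h5 5
    rwa [h] at this
  · rwa [h, pow_one] at h1

theorem fixV_actK {k : Co0} (hk : k ∈ K) {v : V} (hv : FixV v) : FixV (act k v) :=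
  fixV_act (n := 1) (by rw [pow_one]; exact mem_K.1 hk) (Or.inr rfl) hv

theorem code_act_congr (k : Co0) {v w : V} (hv : FixV v) (hw : FixV w) (h : code v = code w) :
    code (act k v) = code (act k w) := by
  obtain ⟨t, ht, e⟩ := congr_of_code hv hw h
  exact code_congr (isLeech_act k hw.1) (isLeech_act k ht)
    (by rw [← act_sub k hv.1 hw.1, e, act_two_smul k ht])

/-- The unit codes. -/
def unit6 (j : Fin 6) : Code := fun i => if i = j then 1 else 0

theorem code_eq_sum (c : Code) : ∑ j, c j • unit6 j = c := by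
  funext i; simp [unit6]

/-- The code of an image is linear in the code. -/
theorem code_act_linear (k : Co0) {v : V} (hv : FixV v) :
    code (act k v) = ∑ j, code v j • code (act k (rep (unit6 j))) := by
  have hsum : ∀ s : Finset (Fin 6), ∃ w, FixV w ∧ code w = ∑ j ∈ s, code v j • unit6 j ∧
      code (act k w) = ∑ j ∈ s, code v j • code (act k (rep (unit6 j))) := by
    intro s
    induction s using Finset.induction_on with
    | empty =>
      refine ⟨0, FixV.zero, by simp [code_zero], ?_⟩
      have : act k (0 : V) = 0 := by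
        have := act_add k isLeech_zero isLeech_zero
        rwa [add_zero, left_eq_add] at this
      simp [this, code_zero]
    | insert a s ha ih =>
      obtain ⟨w, hw, h1, h2⟩ := ih
      rcases (by decide : ∀ z : ZMod 2, z = 0 ∨ z = 1) (code v a) with z | z
      · refine ⟨w, hw, ?_, ?_⟩ <;> rw [sum_insert ha, z, zero_smul, zero_add]
        exacts [h1, h2]
      · refine ⟨rep (unit6 a) + w, (fixV_rep _).add hw, ?_, ?_⟩ <;>
          rw [sum_insert ha, z, one_smul]
        · rw [code_add (fixV_rep _).1 hw.1, code_rep, h1]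
        · rw [act_add k (fixV_rep _).1 hw.1,
            code_add (isLeech_act k (fixV_rep _).1) (isLeech_act k hw.1), h2]
  obtain ⟨w, hw, h1, h2⟩ := hsum univ
  rw [code_act_congr k hv hw (by rw [h1, code_eq_sum]), h2]

/-! ### The generating elements -/

/-- The image of a list under a matrix. -/
noncomputable def actL (M : H15.Mat) (l : List ℤ) : List ℤ :=
  (M.rows.map fun r => H15.listDot r l).map fun z => z / 8

theorem mats_ok : matH.ok = true ∧ matK.ok = true := by decide +kernel

theorem act_matAut {M : H15.Mat} (h : M.ok = true) {b : List ℤ} (hb : b.length = 24)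
    (hL : IsLeech (H15.toVec b)) :
    act (H15.matAut M h) (H15.toVec b) = H15.toVec (actL M b) ∧ (actL M b).length = 24 := by
  obtain ⟨ht, -, -, -, -, hr, -, -⟩ := H15.Mat.ok_spec h
  obtain ⟨hlen, hl, -⟩ := H15.sizeOk_spec hr
  refine ⟨?_, by rw [actL, List.length_map, List.length_map, hlen]⟩
  rw [act_of_isLeech _ hL, H15.matAut, mkCo0_apply]
  funext p
  have hp : H15.idx p < M.rows.length := by rw [hlen]; exact H15.idx_lt p
  rw [H15.toVec, actL, H15.getD_map_of_lt (e := (0 : ℤ)) _ (by simpa using hp),
    H15.getD_map_of_lt (e := ([] : List ℤ)) _ hp,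
    H15.listDot_eq (by rw [hl _ (H15.idx_lt p), hb]), hl _ (H15.idx_lt p),
    ← H15.sum24 (fun j => (M.rows.getD (H15.idx p) []).getD j 0 * b.getD j 0), H15.divMap]
  congr 1
  simp only [Matrix.mulVec, dotProduct]
  refine sum_congr rfl fun q _ => ?_
  have := congrFun (congrFun ht q) p
  simp only [H15.colMat, Matrix.transpose_apply] at this
  simp only [H15.colMat, H15.toVec, this]

/-- Test that a matrix conjugates the permutation to a power. -/
noncomputable def powTest (M : H15.Mat) (n : ℕ) : Bool :=
  H15.allBelow (fun i => H15.allBelow (fun j =>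
    (M.cols.getD (sigIter 1 j) []).getD (sigIter n i) 0 == (M.cols.getD j []).getD i 0) 24) 24

theorem pow_tests : powTest matH 1 = true ∧ powTest matK 3 = true := by decide +kernel

theorem colMat_apply (L : List (List ℤ)) (p q : GolayPt) :
    H15.colMat L p q = (L.getD (H15.idx q) []).getD (H15.idx p) 0 := rfl

theorem mat_conj {M : H15.Mat} (h : M.ok = true) {n : ℕ} (ht : powTest M n = true) :
    H15.matAut M h * sigA = sigA ^ n * H15.matAut M h := by
  refine act_eq_of_forall fun x hx => ?_
  have hm : ∀ y, IsLeech y → act (H15.matAut M h) y = H15.divMap M.cols y := fun y hy => by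
    rw [act_of_isLeech _ hy, H15.matAut, mkCo0_apply]
  rw [mul_act, mul_act, act_sigA hx, act_sigA_pow (isLeech_act _ hx), hm _ hx,
    hm _ (hx.permFun sig_mem)]
  funext p
  show (H15.colMat M.cols).mulVec (permFun sig x) p / 8 =
    (H15.colMat M.cols).mulVec x ((sig ^ n).symm p) / 8
  congr 1
  simp only [Matrix.mulVec, dotProduct, permFun]
  refine (Equiv.sum_comp sig _).symm.trans ?_
  refine sum_congr rfl fun q _ => ?_
  rw [Equiv.symm_apply_apply]
  congr 1
  obtain ⟨r, rfl⟩ := (sig ^ n).surjective p
  rw [Equiv.symm_apply_apply, colMat_apply, colMat_apply, idx_pow,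
    show H15.idx (sig q) = sigIter 1 (H15.idx q) by rw [← idx_pow, pow_one]]
  exact beq_iff_eq.1 (H15.allBelow_eq_true (H15.allBelow_eq_true ht _ (H15.idx_lt r)) _ (H15.idx_lt q))

/-- The element of order seven. -/
noncomputable def gH : Co0 := H15.matAut matH mats_ok.1

/-- The element cubing the permutation. -/
noncomputable def gK : Co0 := H15.matAut matK mats_ok.2

theorem gH_mem : gH ∈ K := by
  rw [mem_K, gH, mat_conj mats_ok.1 pow_tests.1, pow_one]

theorem gK_conj : gK * sigA = sigA ^ 3 * gK := mat_conj mats_ok.2 pow_tests.2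

theorem sigA_seven : sigA ^ 7 = 1 := act_eq_of_forall fun x hx => by
  rw [act_sigA_pow hx, sig_pow_seven, one_act]; rfl

theorem sigA_pow_fifteen : (sigA ^ 3) ^ 5 = sigA := by
  rw [← pow_mul, show 3 * 5 = 7 * 2 + 1 from rfl, pow_succ, pow_mul, sigA_seven, one_pow, one_mul]

theorem fixV_gK {v : V} (hv : FixV v) : FixV (act gK v) :=
  fixV_act gK_conj (Or.inl sigA_pow_fifteen) hv

/-- The linear map of the element of order seven. -/
noncomputable def linH (c : Code) : Code := fun i => ∑ j, c j * bits (muH.getD j.val 0) i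

theorem muH_ok : ∀ j : Fin 6,
    codeL (actL matH (repL.getD (num (unit6 j)) [])) = bits (muH.getD j.val 0) := by decide +kernel

theorem code_gH {v : V} (hv : FixV v) : code (act gH v) = linH (code v) := by
  rw [code_act_linear gH hv]
  funext i
  rw [Finset.sum_apply, linH]
  refine sum_congr rfl fun j _ => ?_
  obtain ⟨e, hl⟩ := act_matAut mats_ok.1 (rep_ok (unit6 j)).2.1
    (H15.leechOk_spec (rep_ok (unit6 j)).1)
  rw [Pi.smul_apply, smul_eq_mul, gH, rep, e, code_toVec hl, muH_ok j]

theorem code_gH_pow (m : ℕ) {v : V} (hv : FixV v) :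
    code (act (gH ^ m) v) = linH^[m] (code v) := by
  induction m with
  | zero => rw [pow_zero, one_act]; rfl
  | succ m ih =>
    rw [pow_succ', mul_act, code_gH (fixV_actK (pow_mem gH_mem m) hv), ih,
      Function.iterate_succ_apply']

theorem eight_list : ∀ p, (eight oo : V) p = H15.toVec
    ((List.range 24).map fun i => if i = 23 then 8 else 0) p := by decide +kernel

theorem code_eight : code (eight oo) = unit6 0 := by
  rw [show (eight oo : V) = _ from funext eight_list, code_toVec (by simp)]
  decide +kernel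

theorem fixV_eight : FixV (eight oo) :=
  ⟨isLeech_eight oo, by rw [permFun_eight]; exact congrArg _ sig_fix_oo⟩

theorem code_gK_eight : code (act gK (eight oo)) = bits 16 := by
  have hL : IsLeech (H15.toVec ((List.range 24).map fun i => if i = 23 then (8 : ℤ) else 0)) := by
    rw [← show (eight oo : V) = _ from funext eight_list]; exact isLeech_eight oo
  obtain ⟨e, hl⟩ := act_matAut mats_ok.2 (by simp) hL
  rw [show (eight oo : V) = _ from funext eight_list, gK, e, code_toVec hl]
  clear hL e hl
  decide +kernel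

theorem orbit_two : ∀ c : Code, InTwo c → c ≠ 0 → ∃ m : Fin 7, linH^[m.val] (bits 16) = c := by
  decide +kernel

theorem orbit_one : ∀ c : Code, InOne c → c ≠ 0 → ∃ m : Fin 7, linH^[m.val] (unit6 0) = c := by
  decide +kernel

/-- A monomial element conjugating the permutation to a power. -/
theorem mono_conj {π : Equiv.Perm GolayPt} (hπ : π ∈ M24) {c : GolayPt → ZMod 2} (hc : c ∈ golayCode)
    {n : ℕ} (h : monoAut π hπ c hc * sigA = sigA ^ n * monoAut π hπ c hc) :
    π * sig = sig ^ n * π ∧ ∀ p, c ((sig ^ n) p) = c p := by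
  have hn : sig ^ n ∈ M24 := pow_mem sig_mem n
  have hc' : (fun p => c ((sig ^ n).symm p)) ∈ golayCode := ((mem_M24_iff _).1 hn c).1 hc
  have h1 : monoAut π hπ c hc * sigA = monoAut (π * sig) (mul_mem hπ sig_mem) c hc :=
    act_eq_of_forall fun x hx => by
      rw [mul_act, act_sigA hx, act_monoAut hπ hc (hx.permFun sig_mem),
        act_monoAut _ hc hx]
      rfl
  have h2 : sigA ^ n * monoAut π hπ c hc =
      monoAut (sig ^ n * π) (mul_mem hn hπ) _ hc' := act_eq_of_forall fun x hx => by
    rw [mul_act, act_monoAut hπ hc hx, act_sigA_pow ((hx.permFun hπ).signFun hc),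
      act_monoAut _ hc' hx]
    rfl
  rw [h1, h2] at h
  obtain ⟨e1, e2⟩ := monoAut_injective h
  refine ⟨e1, fun p => ?_⟩
  have := congrFun e2 ((sig ^ n) p)
  rwa [Equiv.symm_apply_apply] at this

theorem conj_five {Γ : Type*} [Group Γ] {g k x : Γ} (hg : g * x = x ^ 3 * g)
    (h15 : (x ^ 3) ^ 5 = x) (hk : k * x = x * k) : g⁻¹ * k * x = x ^ 5 * (g⁻¹ * k) := by
  have hs : SemiconjBy g x (x ^ 3) := hg
  have e5 : g * x ^ 5 = x * g := by
    have := (hs.pow_right 5).eq
    rwa [h15] at this
  rw [mul_assoc, hk, ← mul_assoc, ← mul_assoc]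
  congr 1
  rw [inv_mul_eq_iff_eq_mul, ← mul_assoc, e5, mul_inv_cancel_right]

/-- Elements of the centralizer map the standard class into the first half. -/
theorem inOne_eight {k : Co0} (hk : k ∈ K) :
    InOne (code (act k (eight oo))) ∧ code (act k (eight oo)) ≠ 0 := by
  have hy := fixV_actK hk fixV_eight
  have hn : sqNorm (act k (eight oo)) = 64 := by
    rw [sqNorm_act k (isLeech_eight oo), sqNorm_eight]
  have h64 := norm_of_congr hy.1 hn hy isLeech_zero (by rw [sub_self, smul_zero])
  rcases norm_cases (code (act k (eight oo))) with h | h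
  swap
  · omega
  refine ⟨h.2.2.resolve_right fun htwo => ?_, h.2.1⟩
  obtain ⟨m, hm⟩ := orbit_two _ htwo h.2.1
  set g := gH ^ m.val * gK with hg
  have hgconj : g * sigA = sigA ^ 3 * g := by
    have := mem_K.1 (pow_mem gH_mem m.val)
    rw [hg, mul_assoc, gK_conj, ← mul_assoc, (show Commute (gH ^ m.val) sigA from this).pow_right 3 |>.eq,
      mul_assoc]
  have hgc : code (act g (eight oo)) = code (act k (eight oo)) := by
    rw [hg, mul_act, code_gH_pow m.val (fixV_gK fixV_eight), code_gK_eight, hm]
  obtain ⟨t, ht, e⟩ := congr_of_code hy (fixV_act hgconj (Or.inl sigA_pow_fifteen) fixV_eight) hgc.symm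
  have hmem : g⁻¹ * k ∈ crossStab := by
    refine mem_crossStab_iff_class.2 ⟨act g⁻¹ t, isLeech_act _ ht, ?_⟩
    rw [← act_two_smul g⁻¹ ht, ← e, act_sub _ hy.1 (isLeech_act _ (isLeech_eight oo)), inv_act_act,
      mul_act]
  have h5 := conj_five hgconj sigA_pow_fifteen (mem_K.1 hk)
  obtain ⟨π, hπ, c, hc, e'⟩ := exists_mono hmem
  rw [e'] at h5
  exact no_power_five hπ (mono_conj hπ hc h5).1

/-- Elements of the centralizer preserve the first half. -/
theorem inOne_act {k : Co0} (hk : k ∈ K) {v : V} (hv : FixV v) (h : InOne (code v)) :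
    InOne (code (act k v)) := by
  by_cases h0 : code v = 0
  · have h1 := code_act_congr k hv FixV.zero (by rw [h0, code_zero])
    have h2 : act k (0 : V) = 0 := by
      have := act_add k isLeech_zero isLeech_zero
      rwa [add_zero, left_eq_add] at this
    rw [h1, h2, code_zero]; exact ⟨rfl, rfl, rfl⟩
  obtain ⟨m, hm⟩ := orbit_one _ h h0
  rw [code_act_congr k hv (fixV_actK (pow_mem gH_mem m.val) fixV_eight)
    (by rw [code_gH_pow m.val fixV_eight, code_eight, hm]), ← mul_act]
  exact (inOne_eight (mul_mem hk (pow_mem gH_mem m.val))).1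

/-! ### The representation of dimension three -/

/-- The first three coordinates. -/
abbrev lo (i : Fin 3) : Fin 6 := Fin.castLE (by norm_num) i

theorem inOne_unit : ∀ j : Fin 3, InOne (unit6 (lo j)) := by decide +kernel

/-- The matrix of an element. -/
noncomputable def muMat (k : Co0) : Matrix (Fin 3) (Fin 3) (ZMod 2) := fun i j =>
  code (act k (rep (unit6 (lo j)))) (lo i)

theorem muMat_one : muMat 1 = 1 := by
  funext i j
  rw [muMat, one_act, code_rep, Matrix.one_apply]
  revert i j
  decide +kernel

theorem muMat_mul {k l : Co0} (hl : l ∈ K) : muMat (k * l) = muMat k * muMat l := by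
  funext i j
  have hv := fixV_actK hl (fixV_rep (unit6 (lo j)))
  have hone := inOne_act hl (fixV_rep (unit6 (lo j))) (by rw [code_rep]; exact inOne_unit j)
  rw [Matrix.mul_apply]
  show code (act (k * l) _) (lo i) = _
  rw [mul_act, code_act_linear k hv, Finset.sum_apply, Fin.sum_univ_six, Fin.sum_univ_three]
  obtain ⟨h3, h4, h5⟩ := hone
  simp only [muMat, Pi.smul_apply, smul_eq_mul, h3, h4, h5, zero_mul, add_zero]
  show _ = code (act k (rep (unit6 (lo 0)))) (lo i) * code (act l _) (lo 0) +
    code (act k (rep (unit6 (lo 1)))) (lo i) * code (act l _) (lo 1) +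
    code (act k (rep (unit6 (lo 2)))) (lo i) * code (act l _) (lo 2)
  simp only [show lo 0 = 0 from rfl, show lo 1 = 1 from rfl, show lo 2 = 2 from rfl]
  ring

theorem det_muMat {k : Co0} (hk : k ∈ K) : (muMat k).det = 1 := by
  have h := congrArg Matrix.det (muMat_mul (k := k⁻¹) hk)
  rw [inv_mul_cancel, muMat_one, Matrix.det_one, Matrix.det_mul] at h
  exact (by decide : ∀ a b : ZMod 2, 1 = a * b → b = 1) _ _ h

/-- The representation. -/
noncomputable def mu : K →* Matrix.SpecialLinearGroup (Fin 3) (ZMod 2) where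
  toFun k := ⟨muMat k, det_muMat k.2⟩
  map_one' := Subtype.ext muMat_one
  map_mul' k l := Subtype.ext (muMat_mul l.2)

/-! ### The monomial part -/

theorem tau_zero : tau 0 = 1 := by
  ext p : 1
  revert p
  decide +kernel

theorem fix_words_mem : ∀ n : Fin 8, isWord (fixWords.getD n.val 0) = true ∧
    ∀ p, (fixWords.getD n.val 0).testBit (H15.idx (sig p)) =
      (fixWords.getD n.val 0).testBit (H15.idx p) := by decide +kernel

/-- A fixed code word. -/
noncomputable def fw (n : Fin 8) : GolayPt → ZMod 2 := H9.natWord (fixWords.getD n.val 0)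

theorem fw_mem (n : Fin 8) : fw n ∈ golayCode := word_of_test (fix_words_mem n).1

theorem fw_sig (n : Fin 8) (p : GolayPt) : fw n (sig p) = fw n p := by
  show (if (fixWords.getD n.val 0).testBit (H15.idx (sig p)) = true then (1 : ZMod 2) else 0) = _
  rw [(fix_words_mem n).2 p]
  rfl

/-- The monomial elements of the centralizer. -/
noncomputable def monoK (t : Fin 6) (n : Fin 8) : Co0 := monoAut (tau t) (tau_mem t) (fw n) (fw_mem n)

theorem monoK_mem (t : Fin 6) (n : Fin 8) : monoK t n ∈ K := by
  rw [mem_K]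
  refine act_eq_of_forall fun x hx => ?_
  rw [mul_act, mul_act, act_sigA hx, monoK, act_monoAut _ _ (hx.permFun sig_mem),
    act_monoAut _ _ hx, act_sigA ((hx.permFun (tau_mem t)).signFun (fw_mem n))]
  funext p
  have hp : fw n (sig.symm p) = fw n p := by
    conv_rhs => rw [← sig.apply_symm_apply p, fw_sig]
  have ht : sig.symm ((tau t).symm p) = (tau t).symm (sig.symm p) := by
    apply (tau t).injective
    apply sig.injective
    have hc := congrFun (congrArg DFunLike.coe (tau_comm t)) (sig.symm ((tau t).symm p))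
    simp only [Equiv.Perm.mul_apply, Equiv.apply_symm_apply] at hc ⊢
    have hc2 := congrFun (congrArg DFunLike.coe (tau_comm t)) ((tau t).symm (sig.symm p))
    simp only [Equiv.Perm.mul_apply, Equiv.apply_symm_apply] at hc2
    rw [← hc]
  simp only [signFun, permFun, hp, ht]

/-- The image of a list under a monomial element. -/
noncomputable def monoL (t : Fin 6) (n : Fin 8) (l : List ℤ) : List ℤ :=
  (List.range 24).map fun i =>
    if (fixWords.getD n.val 0).testBit i then -l.getD ((tauI.getD t.val []).getD i 0) 0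
    else l.getD ((tauI.getD t.val []).getD i 0) 0

theorem act_monoK (t : Fin 6) (n : Fin 8) {l : List ℤ} (hL : IsLeech (H15.toVec l)) :
    act (monoK t n) (H15.toVec l) = H15.toVec (monoL t n l) := by
  rw [monoK, act_monoAut _ _ hL]
  funext p
  rw [H15.toVec, monoL, H15.getD_map_of_lt (e := 0) _ (by simpa using H15.idx_lt p),
    List.getD_eq_getElem (List.range 24) _ (by simpa using H15.idx_lt p), List.getElem_range]
  have hidx : H15.idx ((tau t).symm p) = (tauI.getD t.val []).getD (H15.idx p) 0 :=
    idx_pf.2.2 t p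
  simp only [signFun, permFun, fw, H9.natWord, H15.toVec, ← hidx]
  show (if (if (fixWords.getD n.val 0).testBit (H15.idx p) = true then (1 : ZMod 2) else 0) = 0 then
    _ else _) = _
  cases (fixWords.getD n.val 0).testBit (H15.idx p) <;> simp

theorem muS_ok : ∀ (t : Fin 6) (n : Fin 8) (j : Fin 3),
    codeL (monoL t n (repL.getD (num (unit6 (lo j))) [])) =
      bits ((muS.getD (8 * t.val + n.val) []).getD j.val 0) := by decide +kernel

theorem muMat_monoK (t : Fin 6) (n : Fin 8) (i j : Fin 3) :
    muMat (monoK t n) i j = bits ((muS.getD (8 * t.val + n.val) []).getD j.val 0) (lo i) := by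
  rw [muMat, rep, act_monoK t n (H15.leechOk_spec (rep_ok _).1), code_toVec (by simp [monoL]),
    muS_ok]

theorem muS_one : ∀ (t : Fin 6) (n : Fin 8),
    (∀ i j : Fin 3, bits ((muS.getD (8 * t.val + n.val) []).getD j.val 0) (lo i) =
      if i = j then 1 else 0) → t = 0 ∧ (n = 0 ∨ n = 7) := by decide +kernel

theorem muS_inj : ∀ (t u : Fin 6) (n m : Fin 4),
    muS.getD (8 * t.val + n.val) [] = muS.getD (8 * u.val + m.val) [] → t = u ∧ n = m := by
  decide +kernel

theorem muS_small : ∀ (t : Fin 6) (n : Fin 4),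
    (muS.getD (8 * t.val + n.val) []).getD 0 0 = 1 ∧ ∀ j : Fin 3,
      (muS.getD (8 * t.val + n.val) []).getD j.val 0 < 8 := by decide +kernel

theorem muS_len : ∀ (t : Fin 6) (n : Fin 4), (muS.getD (8 * t.val + n.val) []).length = 3 := by
  decide +kernel

theorem fw_ends : (∀ p, fw 0 p = 0) ∧ ∀ p, fw 7 p = 1 := by decide +kernel

theorem invariant_words : ∀ b : Code,
    isWord (Nat.ofBits fun p : Fin 24 => decide (b (Fin.ofNat 6 (orbLab.getD p.val 0)) = 1)) = true →
      ∃ n : Fin 8, ∀ p : Fin 24, decide (b (Fin.ofNat 6 (orbLab.getD p.val 0)) = 1) =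
        (fixWords.getD n.val 0).testBit p.val := by decide +kernel

/-- The fixed code words are the eight listed. -/
theorem exists_fw {c : GolayPt → ZMod 2} (hc : c ∈ golayCode) (h : ∀ p, c (sig p) = c p) :
    ∃ n, c = fw n := by
  have hinv : ∀ (m : ℕ) p, c ((sig ^ m) p) = c p := by
    intro m
    induction m with
    | zero => intro p; rfl
    | succ m ih => intro p; rw [pow_succ, Equiv.Perm.mul_apply, ih, h]
  set b : Code := fun k => c (pt (orbRep.getD k.val 0)) with hb
  have hval : ∀ p : GolayPt, c p = b (Fin.ofNat 6 (orbLab.getD (H15.idx p) 0)) := fun p => by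
    conv_lhs => rw [orb_spec p, hinv]
    simp only [hb, Fin.ofNat, Nat.mod_eq_of_lt (lab_lt p)]
  have hz : ∀ z : ZMod 2, z = if decide (z = 1) = true then 1 else 0 := by decide
  have e : c = H9.natWord
      (Nat.ofBits fun p : Fin 24 => decide (b (Fin.ofNat 6 (orbLab.getD p.val 0)) = 1)) := by
    funext p
    show _ = if Nat.testBit (Nat.ofBits _) (H9.gIdx p).val = true then (1 : ZMod 2) else 0
    rw [Nat.testBit_ofBits_lt _ _ (H9.gIdx p).2, hval p]
    exact hz _
  obtain ⟨n, hn⟩ := invariant_words b (test_of_word (Nat.ofBits_lt_two_pow _) (e ▸ hc))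
  refine ⟨n, funext fun p => ?_⟩
  rw [hval p]
  show _ = if (fixWords.getD n.val 0).testBit (H9.gIdx p).val = true then (1 : ZMod 2) else 0
  rw [← hn (H9.gIdx p)]
  exact hz _

/-- The elements acting trivially. -/
theorem ker_mu {k : Co0} (hk : k ∈ K) (h : muMat k = 1) :
    ∃ m : ℕ, k = sigA ^ m ∨ k = negOne * sigA ^ m := by
  have h0 : code (act k (eight oo)) = unit6 0 := by
    rw [code_act_congr k fixV_eight (fixV_rep (unit6 0)) (by rw [code_eight, code_rep])]
    have hone := inOne_act hk (fixV_rep (unit6 0)) (by rw [code_rep]; exact inOne_unit 0)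
    obtain ⟨h3, h4, h5⟩ := hone
    have hlow : ∀ i : Fin 3, code (act k (rep (unit6 0))) (lo i) = if i = 0 then 1 else 0 := fun i => by
      have := congrFun (congrFun h i) 0
      rw [Matrix.one_apply] at this
      exact this
    funext i
    fin_cases i
    exacts [hlow 0, hlow 1, hlow 2, h3, h4, h5]
  obtain ⟨t, ht, e⟩ := congr_of_code (fixV_actK hk fixV_eight) fixV_eight (by rw [h0, code_eight])
  obtain ⟨π, hπ, c, hc, rfl⟩ := exists_mono (mem_crossStab_iff_class.2 ⟨t, ht, e⟩)
  obtain ⟨hπc, hcinv⟩ := mono_conj hπ hc (n := 1) (by rw [pow_one]; exact mem_K.1 hk)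
  rw [pow_one] at hπc hcinv
  obtain ⟨m, u, rfl⟩ := comm_cases hπ hπc
  obtain ⟨n, rfl⟩ := exists_fw hc hcinv
  have hinv : ∀ j p, fw n ((sig ^ j).symm p) = fw n p := by
    intro j p
    obtain ⟨q, rfl⟩ := (sig ^ j).surjective p
    rw [Equiv.symm_apply_apply]
    induction j with
    | zero => rfl
    | succ j ih => rw [pow_succ', Equiv.Perm.mul_apply, fw_sig, ← ih]
  have hsplit : monoAut (sig ^ m * tau u) hπ (fw n) hc = sigA ^ m * monoK u n := by
    refine act_eq_of_forall fun x hx => ?_
    rw [mul_act, monoK, act_monoAut _ _ hx, act_monoAut _ _ hx,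
      act_sigA_pow ((hx.permFun (tau_mem u)).signFun (fw_mem n))]
    funext p
    simp only [signFun, permFun, hinv m p]
    rfl
  rw [hsplit] at h ⊢
  have hpow : sigA ^ m ∈ K := pow_mem (mem_K.2 rfl) m
  have hσ : muMat (sigA ^ m) = 1 := by
    funext i j
    rw [← congrFun (congrFun muMat_one i) j]
    show code (act _ _) _ = code (act _ _) _
    rw [act_sigA_pow (fixV_rep _).1, one_act]
    congr 2
    suffices H : ∀ n : ℕ, permFun (sig ^ n) (rep (unit6 (lo j))) = rep (unit6 (lo j)) from H m
    intro n'
    induction n' with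
    | zero => rfl
    | succ n' ih =>
      rw [pow_succ', show permFun (sig * sig ^ n') (rep (unit6 (lo j))) =
        permFun sig (permFun (sig ^ n') (rep (unit6 (lo j)))) from rfl, ih, (fixV_rep _).2]
  rw [muMat_mul (monoK_mem u n), hσ, one_mul] at h
  obtain ⟨rfl, hn⟩ := muS_one u n fun i j => by
    rw [← muMat_monoK, h, Matrix.one_apply]
  refine ⟨m, ?_⟩
  rcases hn with rfl | rfl
  · left
    have : monoK 0 0 = 1 := act_eq_of_forall fun x hx => by
      rw [monoK, act_monoAut _ _ hx, one_act, tau_zero]
      funext p; simp [signFun, permFun, fw_ends.1 p, Equiv.Perm.one_symm]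
    rw [this, mul_one]
  · right
    have : monoK 0 7 = negOne := act_eq_of_forall fun x hx => by
      rw [monoK, act_monoAut _ _ hx, act_negOne hx, tau_zero]
      funext p; simp [signFun, permFun, fw_ends.2 p, Equiv.Perm.one_symm]
    rw [this]
    exact Subgroup.mem_center_iff.1 negOne_mem_center _

theorem linH_first : ∀ a b : Fin 7, linH^[a.val] (unit6 0) = linH^[b.val] (unit6 0) → a = b := by
  decide +kernel

/-- The representation is onto. -/
theorem mu_surjective : Function.Surjective mu := by
  let f : Fin 7 × Fin 6 × Fin 4 → Matrix.SpecialLinearGroup (Fin 3) (ZMod 2) := fun a =>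
    mu ⟨gH ^ a.1.val * monoK a.2.1 (Fin.castLE (by norm_num) a.2.2),
      mul_mem (pow_mem gH_mem _) (monoK_mem _ _)⟩
  have hf : Function.Injective f := by
    rintro ⟨a, t, n⟩ ⟨b, u, m⟩ e
    have e' : muMat (gH ^ a.val * monoK t (Fin.castLE (by norm_num) n)) =
        muMat (gH ^ b.val * monoK u (Fin.castLE (by norm_num) m)) := congrArg Subtype.val e
    rw [muMat_mul (monoK_mem _ _), muMat_mul (monoK_mem _ _)] at e'
    have hcol : ∀ (a : Fin 7) (t : Fin 6) (n : Fin 4) (i : Fin 3),
        (muMat (gH ^ a.val) * muMat (monoK t (Fin.castLE (by norm_num) n))) i 0 =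
          linH^[a.val] (unit6 0) (lo i) := by
      intro a t n i
      have hb : ∀ i : Fin 3, bits 1 (lo i) = if i = 0 then 1 else 0 := by decide
      rw [Matrix.mul_apply, Finset.sum_eq_single 0]
      · rw [muMat_monoK]
        show _ * bits ((muS.getD (8 * t.val + n.val) []).getD 0 0) _ = _
        rw [(muS_small t n).1, hb, if_pos rfl, mul_one, muMat, code_gH_pow _ (fixV_rep _), code_rep]
        rfl
      · intro j _ hj
        rw [muMat_monoK]
        show _ * bits ((muS.getD (8 * t.val + n.val) []).getD 0 0) _ = _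
        rw [(muS_small t n).1, hb, if_neg hj, mul_zero]
      · simp
    have hab : a = b := by
      refine linH_first a b (funext fun i => ?_)
      have hhigh : ∀ (a : Fin 7) (j : Fin 3), linH^[a.val] (unit6 0) (Fin.natAdd 3 j) = 0 := by
        decide +kernel
      fin_cases i
      · exact (hcol a t n 0).symm.trans ((congrFun (congrFun e' 0) 0).trans (hcol b u m 0))
      · exact (hcol a t n 1).symm.trans ((congrFun (congrFun e' 1) 0).trans (hcol b u m 1))
      · exact (hcol a t n 2).symm.trans ((congrFun (congrFun e' 2) 0).trans (hcol b u m 2))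
      · exact (hhigh a 0).trans (hhigh b 0).symm
      · exact (hhigh a 1).trans (hhigh b 1).symm
      · exact (hhigh a 2).trans (hhigh b 2).symm
    subst hab
    have hinv : muMat ((gH ^ a.val)⁻¹) * muMat (gH ^ a.val) = 1 := by
      rw [← muMat_mul (pow_mem gH_mem _), inv_mul_cancel, muMat_one]
    have e'' := congrArg (muMat ((gH ^ a.val)⁻¹) * ·) e'
    simp only [← mul_assoc, hinv, one_mul] at e''
    have hbits : ∀ x y : Fin 8, (∀ i : Fin 3, bits x.val (lo i) = bits y.val (lo i)) → x = y := by
      decide +kernel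
    obtain ⟨rfl, rfl⟩ := muS_inj t u n m <| List.ext_getElem (by rw [muS_len, muS_len])
      fun j hj hj' => by
        rw [← List.getD_eq_getElem _ 0 hj, ← List.getD_eq_getElem _ 0 hj']
        have hj3 : j < 3 := by rwa [muS_len] at hj
        have := hbits ⟨_, (muS_small t n).2 ⟨j, hj3⟩⟩ ⟨_, (muS_small u m).2 ⟨j, hj3⟩⟩ fun i => by
          have h1 := congrFun (congrFun e'' i) ⟨j, hj3⟩
          rw [muMat_monoK, muMat_monoK] at h1
          exact h1
        exact congrArg Fin.val this
    rfl
  have hcard : Nat.card (Matrix.SpecialLinearGroup (Fin 3) (ZMod 2)) ≤ Nat.card (Fin 7 × Fin 6 × Fin 4) := by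
    rw [Nat.card_prod, Nat.card_prod, Nat.card_fin, Nat.card_fin, Nat.card_fin]
    refine le_trans ?_ H50.AltEight.gl_three_two.2.le
    exact Nat.card_le_card_of_injective
      (Matrix.SpecialLinearGroup.toGL (n := Fin 3) (R := ZMod 2))
      fun a b h => Subtype.ext (congrArg Units.val h)
  intro g
  have hbij := (Nat.bijective_iff_injective_and_card f).2
    ⟨hf, le_antisymm (Nat.card_le_card_of_injective f hf) hcard⟩
  obtain ⟨a, rfl⟩ := hbij.2 g
  exact ⟨_, rfl⟩

end Cfsg.Agent.H18.Monster.Held
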