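import Cfsg.Agent.H18.Monster.Held
import Cfsg.Agent.H14.CrossBlock

/-!
A Sylow 7-subgroup of the centralizer of two commuting conjugates of the central involution can be
put in standard position.
-/

set_option autoImplicit false

namespace Cfsg.Agent.H18.Monster.Data

open Cfsg.Agent.H14

variable {G : Type*} [Group G] [Finite G] {z : G}
  {Q : Subgroup (Subgroup.centralizer ({z} : Set G))} [Q.Normal] (D : Data z Q)

include D in
theorem exists_seven {q : Q} (h1 : IsConj z (gv q)) (h2 : gv q ≠ z) (B : Subgroup G)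
    (hB : B ≤ Subgroup.centralizer ({z, gv q} : Set G))
    (hBp : Nat.card B = 7 ^ (Nat.card ↥(Subgroup.centralizer ({z, gv q} : Set G))).factorization 7) :
    ∃ (D' : Data z Q) (b : G), Seven D' b ∧ B = Subgroup.zpowers b := by
  haveI : Fact (Nat.Prime 7) := ⟨by norm_num⟩
  set L := Subgroup.centralizer ({z} : Set G) ⊓ Subgroup.centralizer ({gv q} : Set G) with hL
  have hpair : Subgroup.centralizer ({z, gv q} : Set G) = L := by
    ext g; simp [hL, Subgroup.mem_centralizer_iff]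
  rw [hpair] at hB hBp
  obtain ⟨j, hj⟩ := D.card_pair h1 h2
  have hf : (Nat.card L).factorization 7 = 1 := by
    have hp : Nat.Prime 7 := by norm_num
    have hn : Nat.card L ≠ 0 := Nat.card_pos.ne'
    have a := (hp.dvd_iff_one_le_factorization hn).1 (by
      rw [hj]; exact dvd_mul_of_dvd_left (by norm_num) _)
    have b : ¬ 2 ≤ (Nat.card L).factorization 7 := fun h => D.not_49_dvd h1 h2
      ((hp.pow_dvd_iff_le_factorization (k := 2) hn).2 h)
    omega
  rw [hf, pow_one] at hBp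
  obtain ⟨⟨b₀, hb₀B⟩, hb₀1⟩ : ∃ b : B, b ≠ 1 := by
    haveI : Nontrivial B := Finite.one_lt_card_iff_nontrivial.1 (by omega)
    exact exists_ne 1
  have hord : orderOf b₀ = 7 := by
    have h : orderOf (⟨b₀, hb₀B⟩ : B) ∣ 7 := hBp ▸ orderOf_dvd_natCard _
    rcases (Nat.dvd_prime (by norm_num)).1 h with h | h
    · exact absurd (orderOf_eq_one_iff.1 h) hb₀1
    · rwa [← Subgroup.orderOf_coe] at h
  obtain ⟨D₁, hq⟩ := D.exists_standard h1 h2
  obtain ⟨g, hg⟩ := isConj_iff.1 h1
  have hstd : Std D₁ q g := ⟨hq, hg, h2⟩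
  have hb₀C : b₀ ∈ Subgroup.centralizer ({z} : Set G) := (hB hb₀B).1
  set c₀ : Subgroup.centralizer ({z} : Set G) := ⟨b₀, hb₀C⟩
  set X : Subgroup Cfsg.Spor.Co1 := crossStab.map (QuotientGroup.mk' (Subgroup.center Co0)) with hX
  have hyX : D₁.e (QuotientGroup.mk c₀) ∈ X := by
    have hmem : (QuotientGroup.mk c₀ : Subgroup.centralizer ({z} : Set G) ⧸ Q) ∈
        crossStab.map hstd.toQuot := by
      rw [← hstd.stab_eq]; exact ⟨c₀, ⟨hb₀C, (hB hb₀B).2⟩, rfl⟩
    obtain ⟨k, hk, e⟩ := hmem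
    exact ⟨k, hk, hstd.toQuot_eq_iff.1 e⟩
  have hordy : orderOf (D₁.e (QuotientGroup.mk c₀)) = 7 := by
    rw [MulEquiv.orderOf_eq]
    refine orderOf_eq_prime ?_ fun e => ?_
    · rw [← QuotientGroup.mk_pow, show c₀ ^ 7 = 1 from Subtype.ext (by
        show b₀ ^ 7 = 1
        rw [← hord, pow_orderOf_eq_one]), QuotientGroup.mk_one]
    · rw [QuotientGroup.eq_one_iff] at e
      have h : orderOf b₀ ∣ 2 ^ 25 := by
        show orderOf ((c₀ : Subgroup.centralizer ({z} : Set G)) : G) ∣ _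
        rw [Subgroup.orderOf_coe, show c₀ = ((⟨c₀, e⟩ : Q) : Subgroup.centralizer ({z} : Set G)) from rfl,
          Subgroup.orderOf_coe, show (2 : ℕ) ^ 25 = Nat.card Q from D₁.hset.2.2.2.1.symm]
        exact orderOf_dvd_natCard _
      rw [hord] at h
      norm_num at h
  have hσX : (QuotientGroup.mk Held.sigA : Cfsg.Spor.Co1) ∈ X :=
    ⟨_, permAut_mem_crossStab _ Held.sig_mem, rfl⟩
  have hordσ : orderOf (QuotientGroup.mk Held.sigA : Cfsg.Spor.Co1) = 7 := by
    refine orderOf_eq_prime (by rw [← QuotientGroup.mk_pow, Held.sigA_seven, QuotientGroup.mk_one])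
      fun e => ?_
    rw [QuotientGroup.eq_one_iff, mem_center_iff] at e
    rcases e with e | e
    · have h := congrArg (fun k => act k (eight (Held.pt (Held.repA 0)))) e
      simp only [one_act, Held.act_sigA (isLeech_eight _), permFun_eight] at h
      exact Held.rep_moves 0 (eight_injective h)
    · have h := Held.sigA_seven
      rw [e, Held.negOne_pow_seven] at h
      exact negOne_ne_one h
  have h49 : ¬ 49 ∣ Nat.card X := by
    intro h
    have := dvd_trans h (Subgroup.card_map_dvd (H := crossStab) (QuotientGroup.mk' (Subgroup.center Co0)))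
    rw [exists_crossStab_card] at this
    norm_num at this
  obtain ⟨⟨x, k, hk, hkx⟩, hx⟩ := conj_seven h49
    (H := Subgroup.zpowers (⟨_, hyX⟩ : X)) (K := Subgroup.zpowers (⟨_, hσX⟩ : X))
    (by rw [Nat.card_zpowers, ← Subgroup.orderOf_coe]; exact hordy)
    (by rw [Nat.card_zpowers, ← Subgroup.orderOf_coe]; exact hordσ)
  have hm : (⟨x, ⟨k, hk, hkx⟩⟩ : X) * ⟨_, hσX⟩ * (⟨x, ⟨k, hk, hkx⟩⟩ : X)⁻¹ ∈
      Subgroup.zpowers (⟨_, hyX⟩ : X) := by
    rw [← hx]; exact ⟨_, Subgroup.mem_zpowers _, rfl⟩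
  obtain ⟨i, hi⟩ := Subgroup.mem_zpowers_iff.1 hm
  have hi' : D₁.e (QuotientGroup.mk c₀) ^ i = x * QuotientGroup.mk Held.sigA * x⁻¹ := by
    have := congrArg Subtype.val hi
    simpa using this
  have hbz : b₀ ^ i * z = z * b₀ ^ i :=
    ((show Commute b₀ z from Subgroup.mem_centralizer_singleton_iff.1 hb₀C).zpow_left i).eq
  have hne : b₀ ^ i ≠ 1 := by
    intro e
    have e' : D₁.e (QuotientGroup.mk c₀) ^ i = 1 := by
      rw [← map_zpow, ← QuotientGroup.mk_zpow, show c₀ ^ i = 1 from Subtype.ext (by simpa using e),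
        QuotientGroup.mk_one, map_one]
    rw [hi', conj_eq_one_iff] at e'
    rw [e', orderOf_one] at hordσ
    omega
  have hBmem : b₀ ^ i ∈ B := B.zpow_mem hb₀B i
  have hbord : orderOf (b₀ ^ i) = 7 := by
    have h : orderOf (⟨b₀ ^ i, hBmem⟩ : B) ∣ 7 := hBp ▸ orderOf_dvd_natCard _
    rcases (Nat.dvd_prime (by norm_num)).1 h with h | h
    · exact absurd (congrArg Subtype.val (orderOf_eq_one_iff.1 h)) hne
    · rwa [← Subgroup.orderOf_coe] at h
  refine ⟨D₁.twist k, b₀ ^ i, ⟨hbz, hbord, ?_⟩, ?_⟩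
  · show (MulAut.conj (QuotientGroup.mk k : Cfsg.Spor.Co1)⁻¹)
      (D₁.e (QuotientGroup.mk _)) = _
    rw [show (⟨b₀ ^ i, Subgroup.mem_centralizer_singleton_iff.2 hbz⟩ :
      Subgroup.centralizer ({z} : Set G)) = c₀ ^ i from Subtype.ext (by simp [c₀]),
      QuotientGroup.mk_zpow, map_zpow, hi', ← hkx, MulAut.conj_apply]
    simp only [QuotientGroup.mk'_apply]
    group
  · refine (Subgroup.eq_of_le_of_card_ge (by rw [Subgroup.zpowers_le]; exact hBmem) ?_).symm
    rw [Nat.card_zpowers, hbord, hBp]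

end Cfsg.Agent.H18.Monster.Data
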