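import Cfsg.Agent.H18.Monster.HeldData

/-!
The permutation of cycle type `1^3 7^3` of the code, its centralizer among the code permutations,
and the absence of code permutations raising it to the fifth power.
-/

set_option autoImplicit false
set_option maxRecDepth 100000

namespace Cfsg.Agent.H18.Monster.Held

open Cfsg Cfsg.Agent.H14 Cfsg.Agent.H15

/-- The point at a position. -/
noncomputable def pt (i : ℕ) : GolayPt := H9.gPt ⟨i % 24, Nat.mod_lt _ (by norm_num)⟩

/-- The point function of a table. -/
noncomputable def pf (l : List ℕ) (p : GolayPt) : GolayPt := pt (l.getD (idx p) 0)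

theorem idx_pt {i : ℕ} (hi : i < 24) : idx (pt i) = i := by
  show (H9.gIdx (H9.gPt _)).val = i
  rw [H9.gIdx_gPt]; exact Nat.mod_eq_of_lt hi

theorem pt_idx (p : GolayPt) : pt (idx p) = p := idx_injective (idx_pt (idx_lt p))

theorem sig_inv : (∀ p, pf sigI (pf sigL p) = p) ∧ ∀ p, pf sigL (pf sigI p) = p := by decide +kernel

theorem tau_inv : (∀ t : Fin 6, ∀ p, pf (tauI.getD t.val []) (pf (tauL.getD t.val []) p) = p) ∧
    ∀ t : Fin 6, ∀ p, pf (tauL.getD t.val []) (pf (tauI.getD t.val []) p) = p := by decide +kernel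

/-- The permutation of cycle type `1^3 7^3`. -/
noncomputable def sig : Equiv.Perm GolayPt := ⟨pf sigL, pf sigI, sig_inv.1, sig_inv.2⟩

/-- The code permutations commuting with it, up to its powers. -/
noncomputable def tau (t : Fin 6) : Equiv.Perm GolayPt :=
  ⟨pf (tauL.getD t.val []), pf (tauI.getD t.val []), tau_inv.1 t, tau_inv.2 t⟩

/-- Test that a number encodes a code word. -/
noncomputable def isWord (k : ℕ) : Bool := xorSel k H9.golayRows == k

theorem word_of_test {k : ℕ} (h : isWord k = true) : H9.natWord k ∈ golayCode := by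
  rw [← beq_iff_eq.1 h]
  exact xorSel_mem k _ fun _ hr => hr

theorem codeList_test : H9.codeList.all isWord = true := by decide +kernel

theorem test_of_word {k : ℕ} (hk : k < 2 ^ 24) (h : H9.natWord k ∈ golayCode) : isWord k = true := by
  rw [H9.golayCode_eq_span, H9.mem_span_natWord_iff] at h
  obtain ⟨n, hn, e⟩ := h
  have hlt : n < 2 ^ 24 := by
    have := H9.codeList_lt n hn
    norm_num
    omega
  rw [← H9.natWord_injOn hlt hk e]
  exact List.all_eq_true.1 codeList_test n hn

/-- The word pulled back along a table. -/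
noncomputable def pull (k : ℕ) (img : List ℕ) : ℕ := Nat.ofBits fun i : Fin 24 => k.testBit (img.getD i.val 0)

theorem natWord_pull (k : ℕ) {img : List ℕ} {π : GolayPt → GolayPt}
    (h : ∀ p, idx (π p) = img.getD (idx p) 0) :
    H9.natWord (pull k img) = fun p => H9.natWord k (π p) := by
  funext p
  have e : (pull k img).testBit (H9.gIdx p).val = k.testBit (img.getD (idx p) 0) :=
    Nat.testBit_ofBits_lt _ _ (H9.gIdx p).2
  show (if (pull k img).testBit (H9.gIdx p).val = true then (1 : ZMod 2) else 0) = _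
  rw [e]
  rw [← h p]
  rfl

theorem pull_lt (k : ℕ) (img : List ℕ) : pull k img < 2 ^ 24 := Nat.ofBits_lt_two_pow _

/-- Test that a table preserves the code. -/
noncomputable def preserves (img : List ℕ) : Bool := H9.golayRows.all fun r => isWord (pull r img)

theorem mem_M24_of_preserves {π : Equiv.Perm GolayPt} {img : List ℕ}
    (h : ∀ p, idx (π.symm p) = img.getD (idx p) 0) (ht : preserves img = true) : π ∈ M24 := by
  have himg : ∀ w ∈ golayCode, (fun i => w (π.symm i)) ∈ golayCode := by
    intro w hw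
    rw [H9.golayCode_eq_span] at hw
    induction hw using Submodule.span_induction with
    | mem x hx =>
      obtain ⟨r, hr, rfl⟩ := hx
      have := word_of_test (List.all_eq_true.1 ht r hr)
      rwa [natWord_pull r h] at this
    | zero => exact zero_mem _
    | add x y _ _ hx hy => exact add_mem hx hy
    | smul a x _ hx => exact Submodule.smul_mem _ a hx
  let F : golayCode → golayCode := fun w => ⟨_, himg w.1 w.2⟩
  have Finj : Function.Injective F := fun a b e => by
    ext i
    have := congrFun (congrArg Subtype.val e) (π i)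
    simpa [F] using this
  rw [mem_M24_iff]
  refine fun w => ⟨himg w, fun hw => ?_⟩
  obtain ⟨v, hv⟩ := (Finite.injective_iff_bijective.1 Finj).2 ⟨_, hw⟩
  convert v.2 using 1
  funext i
  have := congrFun (congrArg Subtype.val hv) (π i)
  simp [F] at this
  exact this.symm

theorem idx_pf : (∀ p, idx (pf sigI p) = sigI.getD (idx p) 0) ∧
    (∀ p, idx (pf sigL p) = sigL.getD (idx p) 0) ∧
    ∀ t : Fin 6, ∀ p, idx (pf (tauI.getD t.val []) p) = (tauI.getD t.val []).getD (idx p) 0 := by
  decide +kernel

theorem preserves_ok : preserves sigI = true ∧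
    ∀ t : Fin 6, preserves (tauI.getD t.val []) = true := by decide +kernel

theorem sig_mem : sig ∈ M24 := mem_M24_of_preserves idx_pf.1 preserves_ok.1

theorem tau_mem (t : Fin 6) : tau t ∈ M24 := mem_M24_of_preserves (idx_pf.2.2 t) (preserves_ok.2 t)

theorem preserves_of_mem {π : Equiv.Perm GolayPt} (hπ : π ∈ M24) {img : List ℕ}
    (h : ∀ p, idx (π p) = img.getD (idx p) 0) : preserves img = true := by
  refine List.all_eq_true.2 fun r hr => test_of_word (pull_lt r img) ?_
  rw [natWord_pull r h]
  have hw : H9.natWord r ∈ golayCode := by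
    rw [H9.golayCode_eq_span]; exact Submodule.subset_span ⟨r, hr, rfl⟩
  exact ((mem_M24_iff π⁻¹).1 (inv_mem hπ) _).1 hw

theorem sig_pow_seven : sig ^ 7 = 1 := by
  ext p : 1
  revert p
  decide +kernel

theorem sig_fix_oo : sig none = none := by decide +kernel

theorem tau_comm (t : Fin 6) : tau t * sig = sig * tau t := by
  refine Equiv.ext fun p => ?_
  revert t p
  decide +kernel

/-- The representatives of the three orbits of length seven. -/
noncomputable def repA (k : Fin 3) : ℕ := orbRep.getD (k.val + 3) 0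

/-- The iterate of the permutation on positions. -/
noncomputable def sigIter : ℕ → ℕ → ℕ
  | 0, p => p
  | m + 1, p => sigL.getD (sigIter m p) 0

theorem idx_pow (m : ℕ) (p : GolayPt) : idx ((sig ^ m) p) = sigIter m (idx p) := by
  induction m with
  | zero => rfl
  | succ m ih =>
    rw [pow_succ', Equiv.Perm.mul_apply]
    show idx (pf sigL _) = _
    rw [idx_pf.2.1, ih]
    rfl

/-- The fixed positions in the order of the orbit table. -/
noncomputable def fixPos (k : Fin 3) : ℕ := orbRep.getD k.val 0

theorem fixed_iff : ∀ p, sig p = p ↔ ∃ k, p = pt (fixPos k) := by decide +kernel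

theorem fixed_of_pow_five : ∀ p, (sig ^ 5) p = p → sig p = p := by decide +kernel

theorem rep_moves : ∀ k : Fin 3, ¬ sig (pt (repA k)) = pt (repA k) := by decide +kernel

/-- The image of a position from the images of the representatives. -/
noncomputable def imgFn (i : ℕ) (R : List ℕ) (p : ℕ) : ℕ :=
  sigIter (i * orbPos.getD p 0 % 7) (R.getD (orbLab.getD p 0) 0)

/-- The orderings of the three fixed positions. -/
noncomputable def fixOrders : List (List ℕ) :=
  [[23, 0, 10], [23, 10, 0], [0, 23, 10], [0, 10, 23], [10, 23, 0], [10, 0, 23]]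

/-- The positions of the orbit of a label. -/
noncomputable def orbit (l : ℕ) : List ℕ := (List.range 24).filter fun p => orbLab.getD p 0 == l

/-- The fixed octads, pulled back by the labels, are words. -/
noncomputable def labTest (R : List ℕ) : Bool :=
  [145176, 6326497, 10305542].all fun w =>
    isWord (Nat.ofBits fun p : Fin 24 => Nat.testBit w (R.getD (orbLab.getD p.val 0) 0))

/-- The test of one candidate. -/
noncomputable def fullTest (i : ℕ) (R : List ℕ) (targets : List (List ℕ)) : Bool :=
  (H9.golayRows.any fun r =>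
    !(isWord (Nat.ofBits fun p : Fin 24 => r.testBit (imgFn i R p.val)))) ||
      targets.any fun l => allBelow (fun p => imgFn i R p == l.getD p 0) 24

/-- The search for code permutations with given behaviour on the permutation. -/
noncomputable def search (i : ℕ) (targets : List (List ℕ)) : Bool :=
  fixOrders.all fun F => [3, 4, 5].all fun la => [3, 4, 5].all fun lb => [3, 4, 5].all fun lc =>
    !(labTest (F ++ [orbRep.getD la 0, orbRep.getD lb 0, orbRep.getD lc 0])) ||
      (orbit lb).all fun b => (orbit lc).all fun c =>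
        fullTest i (F ++ [orbRep.getD la 0, b, c]) targets

theorem search_five : search 5 [] = true := by decide +kernel

theorem search_one : search 1 tauL = true := by decide +kernel

theorem moving_spec : ∀ p : GolayPt, ¬ sig p = p →
    orbLab.getD (idx p) 0 ∈ [3, 4, 5] ∧ idx p ∈ orbit (orbLab.getD (idx p) 0) := by decide +kernel

theorem exists_rep_shift : ∀ p : GolayPt, ¬ sig p = p →
    ∃ m : Fin 7, ∃ k : Fin 3, (sig ^ m.val) p = pt (repA k) := by decide +kernel

theorem fix_perm : ∀ a b c : Fin 3, a ≠ b → a ≠ c → b ≠ c →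
    [fixPos a, fixPos b, fixPos c] ∈ fixOrders := by decide +kernel

theorem orb_spec : ∀ p : GolayPt,
    p = (sig ^ orbPos.getD (idx p) 0) (pt (orbRep.getD (orbLab.getD (idx p) 0) 0)) := by
  decide +kernel

theorem fixPos_lt : ∀ a, fixPos a < 24 := by decide +kernel

theorem repA_lt : ∀ a, repA a < 24 := by decide +kernel

theorem fixPos_inj : ∀ a b, pt (fixPos a) = pt (fixPos b) → a = b := by decide +kernel

theorem lab_sig : ∀ p, orbLab.getD (idx (sig p)) 0 = orbLab.getD (idx p) 0 := by decide +kernel

theorem rep_lab_fix : ∀ a, orbRep.getD (orbLab.getD (fixPos a) 0) 0 = fixPos a := by decide +kernel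

theorem rep_lab_mov : ∀ a, orbRep.getD (orbLab.getD (repA a) 0) 0 = repA a := by decide +kernel

theorem fix_words_ok : ∀ w ∈ [145176, 6326497, 10305542], isWord w = true ∧
    ∀ q : GolayPt, w.testBit (idx q) =
      w.testBit (orbRep.getD (orbLab.getD (idx q) 0) 0) := by decide +kernel

theorem lab_lt : ∀ p : GolayPt, orbLab.getD (idx p) 0 < 6 := by decide +kernel

/-- A code permutation conjugating the permutation to its power gives a passing table. -/
theorem search_spec {i : ℕ} {targets : List (List ℕ)} (hs : search i targets = true)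
    (hi : ∀ p, (sig ^ i) p = p → sig p = p) {π : Equiv.Perm GolayPt} (hπ : π ∈ M24)
    (hc : π * sig = sig ^ i * π) :
    ∃ m : ℕ, ∃ img ∈ targets, ∀ p, idx ((sig ^ m * π) p) = img.getD (idx p) 0 := by
  have hfix : ∀ (σ : Equiv.Perm GolayPt), σ * sig = sig ^ i * σ →
      ∀ p, sig p = p → sig (σ p) = σ p := by
    intro σ hσ p hp
    refine hi _ ?_
    have := congrArg (fun f : Equiv.Perm GolayPt => f p) hσ
    simp only [Equiv.Perm.mul_apply, hp] at this
    exact this.symm
  have hmove : ∀ (σ : Equiv.Perm GolayPt), σ * sig = sig ^ i * σ →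
      ∀ p, ¬ sig p = p → ¬ sig (σ p) = σ p := by
    intro σ hσ p hp h
    apply hp
    apply σ.injective
    have := congrArg (fun f : Equiv.Perm GolayPt => f p) hσ
    simp only [Equiv.Perm.mul_apply] at this
    rw [this, Equiv.Perm.pow_apply_eq_self_of_apply_eq_self h]
  obtain ⟨m, k, hm⟩ := exists_rep_shift _ (hmove π hc _ (rep_moves 0))
  obtain ⟨ρ, hρ⟩ : ∃ ρ : Equiv.Perm GolayPt, ρ = sig ^ m.val * π := ⟨_, rfl⟩
  have hρm : ρ (pt (repA 0)) = pt (repA k) := by rw [hρ]; exact hm
  have hρc : ρ * sig = sig ^ i * ρ := by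
    rw [hρ, mul_assoc, hc, ← mul_assoc, ← mul_assoc, ← pow_add, ← pow_add, add_comm]
  have hρM : ρ ∈ M24 := hρ ▸ mul_mem (pow_mem sig_mem _) hπ
  have hpow : ∀ j q, ρ ((sig ^ j) q) = (sig ^ (i * j)) (ρ q) := by
    intro j
    induction j with
    | zero => intro q; simp
    | succ j ih =>
      intro q
      rw [pow_succ, Equiv.Perm.mul_apply, ih, ← Equiv.Perm.mul_apply ρ, hρc, Equiv.Perm.mul_apply,
        ← Equiv.Perm.mul_apply, ← pow_add, Nat.mul_succ]
  have hf : ∀ a : Fin 3, ∃ b : Fin 3, ρ (pt (fixPos a)) = pt (fixPos b) := fun a =>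
    (fixed_iff _).1 (hfix ρ hρc _ ((fixed_iff _).2 ⟨a, rfl⟩))
  choose f hf using hf
  have hfinj : Function.Injective f := by
    intro a b e
    refine fixPos_inj a b (ρ.injective ?_)
    rw [hf, hf, e]
  have hF : [fixPos (f 0), fixPos (f 1), fixPos (f 2)] ∈ fixOrders :=
    fix_perm _ _ _ (hfinj.ne (by decide)) (hfinj.ne (by decide)) (hfinj.ne (by decide))
  obtain ⟨hlb, hb⟩ := moving_spec _ (hmove ρ hρc _ (rep_moves 1))
  obtain ⟨hlc, hc'⟩ := moving_spec _ (hmove ρ hρc _ (rep_moves 2))
  have hla : k.val + 3 ∈ [3, 4, 5] := by fin_cases k <;> decide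
  set lb := orbLab.getD (idx (ρ (pt (repA 1)))) 0 with hlbdef
  set lc := orbLab.getD (idx (ρ (pt (repA 2)))) 0 with hlcdef
  simp only [search, List.all_eq_true] at hs
  have h := hs _ hF _ hla lb hlb lc hlc
  rw [Bool.or_eq_true, Bool.not_eq_true'] at h
  set R := [fixPos (f 0), fixPos (f 1), fixPos (f 2)] ++
    [orbRep.getD (k.val + 3) 0, idx (ρ (pt (repA 1))), idx (ρ (pt (repA 2)))] with hR
  have hspec : ∀ p, idx (ρ p) = imgFn i R (idx p) := by
    intro p
    have ho := orb_spec p
    have hl := lab_lt p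
    set l := orbLab.getD (idx p) 0 with hldef
    have hbase : idx (ρ (pt (orbRep.getD l 0))) = R.getD l 0 := by
      have h1 : ∀ a : Fin 3, idx (ρ (pt (fixPos a))) = fixPos (f a) := fun a => by
        rw [hf, idx_pt (fixPos_lt _)]
      have h2 : idx (ρ (pt (repA 0))) = orbRep.getD (k.val + 3) 0 := by
        rw [hρm, idx_pt (repA_lt k)]; rfl
      obtain ⟨d, hd⟩ : ∃ d : Fin 6, d.val = l := ⟨⟨l, hl⟩, rfl⟩
      rw [← hd]
      fin_cases d
      exacts [h1 0, h1 1, h1 2, h2, rfl, rfl]
    conv_lhs => rw [ho]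
    rw [hpow, idx_pow, hbase, imgFn]
    have h7 : ∀ n q, q < 24 → sigIter n q = sigIter (n % 7) q := fun n q hq => by
      rw [← idx_pt hq, ← idx_pow, ← idx_pow]
      congr 2
      conv_lhs => rw [← Nat.mod_add_div n 7, pow_add, pow_mul, sig_pow_seven, one_pow, mul_one]
    exact h7 _ _ (hbase ▸ idx_lt _)
  have hlab : labTest ([fixPos (f 0), fixPos (f 1), fixPos (f 2)] ++
      [orbRep.getD (k.val + 3) 0, orbRep.getD lb 0, orbRep.getD lc 0]) = true := by
    refine List.all_eq_true.2 fun w hw => test_of_word (Nat.ofBits_lt_two_pow _) ?_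
    have hwc : H9.natWord w ∈ golayCode := word_of_test (fix_words_ok w hw).1
    have e : (fun p => H9.natWord w (ρ p)) = H9.natWord (Nat.ofBits fun p : Fin 24 =>
        Nat.testBit w (([fixPos (f 0), fixPos (f 1), fixPos (f 2)] ++
          [orbRep.getD (k.val + 3) 0, orbRep.getD lb 0, orbRep.getD lc 0]).getD
            (orbLab.getD p.val 0) 0)) := by
      funext p
      have hbit : ∀ q : GolayPt, (w.testBit (idx q)) =
          w.testBit (orbRep.getD (orbLab.getD (idx q) 0) 0) := (fix_words_ok w hw).2
      show (if w.testBit (idx (ρ p)) = true then (1 : ZMod 2) else 0) = if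
        Nat.testBit (Nat.ofBits _) (H9.gIdx p).val = true then 1 else 0
      rw [Nat.testBit_ofBits_lt _ _ (H9.gIdx p).2, hspec p]
      show _ = if Nat.testBit w (List.getD _ (orbLab.getD (idx p) 0) 0) = true then _ else _
      congr 2
      have hl := lab_lt p
      obtain ⟨q, hq⟩ : ∃ q, idx q = imgFn i R (idx p) := ⟨ρ p, hspec p⟩
      rw [← hq, hbit q, hq]
      have hlabel : ∀ n r, r < 24 → orbLab.getD (sigIter n r) 0 = orbLab.getD r 0 := by
        intro n r hr
        rw [← idx_pt hr, ← idx_pow]
        induction n with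
        | zero => rfl
        | succ n ih => rw [pow_succ', Equiv.Perm.mul_apply, lab_sig, ih]
      rw [imgFn, hlabel _ _ ?_]
      · obtain ⟨d, hd⟩ : ∃ d : Fin 6, d.val = orbLab.getD (idx p) 0 := ⟨⟨_, hl⟩, rfl⟩
        rw [← hd]
        fin_cases d
        exacts [(rep_lab_fix _).symm ▸ rfl, (rep_lab_fix _).symm ▸ rfl, (rep_lab_fix _).symm ▸ rfl,
          (rep_lab_mov _).symm ▸ rfl, rfl, rfl]
      · obtain ⟨d, hd⟩ : ∃ d : Fin 6, d.val = orbLab.getD (idx p) 0 := ⟨⟨_, hl⟩, rfl⟩
        rw [← hd]
        fin_cases d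
        exacts [fixPos_lt _, fixPos_lt _, fixPos_lt _, repA_lt k, idx_lt _, idx_lt _]
    rw [← e]
    exact ((mem_M24_iff ρ⁻¹).1 (inv_mem hρM) _).1 hwc
  have h := h.resolve_left (by rw [hlab]; simp)
  have h := List.all_eq_true.1 (List.all_eq_true.1 h _ hb) _ hc'
  rw [← hR, fullTest, Bool.or_eq_true] at h
  rcases h with h | h
  · exfalso
    obtain ⟨r, hr, hrt⟩ := List.any_eq_true.1 h
    rw [Bool.not_eq_true'] at hrt
    rw [test_of_word (Nat.ofBits_lt_two_pow _)] at hrt
    · exact Bool.noConfusion hrt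
    have hw : H9.natWord r ∈ golayCode := by
      rw [H9.golayCode_eq_span]; exact Submodule.subset_span ⟨r, hr, rfl⟩
    have e : (fun p => H9.natWord r (ρ p)) =
        H9.natWord (Nat.ofBits fun p : Fin 24 => r.testBit (imgFn i R p.val)) := by
      funext p
      show (if r.testBit (idx (ρ p)) = true then (1 : ZMod 2) else 0) = if
        Nat.testBit (Nat.ofBits _) (H9.gIdx p).val = true then 1 else 0
      rw [Nat.testBit_ofBits_lt _ _ (H9.gIdx p).2, hspec p]
      rfl
    rw [← e]
    exact ((mem_M24_iff ρ⁻¹).1 (inv_mem hρM) _).1 hw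
  · obtain ⟨l, hl, hlt⟩ := List.any_eq_true.1 h
    exact ⟨m.val, l, hl, fun p => by
      rw [← hρ, hspec p]; exact beq_iff_eq.1 (H15.allBelow_eq_true hlt _ (idx_lt p))⟩

/-- No code permutation raises the permutation to its fifth power. -/
theorem no_power_five {π : Equiv.Perm GolayPt} (hπ : π ∈ M24) : π * sig ≠ sig ^ 5 * π := fun hc => by
  obtain ⟨-, img, hmem, -⟩ := search_spec search_five fixed_of_pow_five hπ hc
  exact absurd hmem List.not_mem_nil

/-- The code permutations commuting with the permutation. -/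
theorem comm_cases {π : Equiv.Perm GolayPt} (hπ : π ∈ M24) (hc : π * sig = sig * π) :
    ∃ m : ℕ, ∃ t : Fin 6, π = sig ^ m * tau t := by
  obtain ⟨m, img, hmem, hspec⟩ := search_spec (i := 1) search_one (fun p hp => by rwa [pow_one] at hp)
    hπ (by rwa [pow_one])
  obtain ⟨t, ht, rfl⟩ := List.getElem_of_mem hmem
  have e : sig ^ m * π = tau ⟨t, ht⟩ := Equiv.ext fun p => idx_injective (by
    rw [hspec p]
    show _ = idx (pf _ p)
    rw [pf, idx_pt ?_, List.getD_eq_getElem tauL _ ht]
    have hb : ∀ t : Fin 6, ∀ p, (tauL.getD t.val []).getD (idx p) 0 < 24 := by decide +kernel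
    exact hb ⟨t, ht⟩ p)
  refine ⟨6 * m, ⟨t, ht⟩, ?_⟩
  rw [← e, ← mul_assoc, ← pow_add, show 6 * m + m = 7 * m by omega, pow_mul, sig_pow_seven, one_pow,
    one_mul]

end Cfsg.Agent.H18.Monster.Held
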