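import Cfsg.Agent.H14.LeechMonomial

/-! Generation of the Leech lattice by its vectors of squared length 32. -/

set_option autoImplicit false

namespace Cfsg.Agent.H18.Monster

open Finset Cfsg.Agent.H14

/-- The words spanned by octads are all code words. -/
theorem code_induction {P : (GolayPt → ZMod 2) → Prop} (h0 : P 0)
    (hstep : ∀ c O, O ∈ octads → c ∈ golayCode → P c → P (c + ind O))
    {c : GolayPt → ZMod 2} (hc : c ∈ golayCode) : P c := by
  induction hn : hammingNorm c using Nat.strong_induction_on generalizing c with
  | _ n ih =>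
    by_cases hc0 : c = 0
    · exact hc0 ▸ h0
    have hpos : hammingNorm c ≠ 0 := fun h => hc0 (hammingNorm_eq_zero.1 h)
    have h8 : 8 ≤ hammingNorm c := by
      rcases golay_weight c hc with h | h | h | h | h <;> omega
    obtain ⟨T, hTs, hT⟩ := exists_subset_card_eq (s := univ.filter fun i => c i ≠ 0) (n := 5)
      (by show 5 ≤ hammingNorm c; omega)
    obtain ⟨O, hO, hTO⟩ := exists_octad T hT.le
    have hd : c + ind O ∈ golayCode := add_mem hc (octad_ind_mem hO)
    have hlt : hammingNorm (c + ind O) < n := by
      have hsub : (univ.filter fun i => (c + ind O) i ≠ 0) ⊆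
          ((univ.filter fun i => c i ≠ 0) \ T) ∪ (O \ T) := by
        intro i hi
        replace hi : (c + ind O) i ≠ 0 := (mem_filter.1 hi).2
        simp only [Pi.add_apply, ind_apply] at hi
        by_cases hiT : i ∈ T
        · exfalso
          have hz : ∀ z : ZMod 2, z ≠ 0 → z + 1 = 0 := by decide
          rw [if_pos (hTO hiT)] at hi
          exact hi (hz _ (mem_filter.1 (hTs hiT)).2)
        · by_cases hiO : i ∈ O
          · exact mem_union_right _ (mem_sdiff.2 ⟨hiO, hiT⟩)
          · rw [if_neg hiO, add_zero] at hi
            exact mem_union_left _ (mem_sdiff.2 ⟨mem_filter.2 ⟨mem_univ _, hi⟩, hiT⟩)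
      have := (card_le_card hsub).trans (card_union_le _ _)
      rw [card_sdiff_of_subset hTs, card_sdiff_of_subset hTO, hT, octad_card hO] at this
      have e : (univ.filter fun i => c i ≠ 0).card = n := hn
      change (univ.filter fun i => (c + ind O) i ≠ 0).card < n
      omega
    have := hstep _ O hO hd (ih _ hlt hd rfl)
    have e : c + ind O + ind O = c := by
      ext i
      have hz : ∀ a b : ZMod 2, a + b + b = a := by decide
      exact hz _ _
    rwa [e] at this

/-- An additive subgroup containing the vectors of squared length 32 contains the lattice. -/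
theorem mem_of_min {K : AddSubgroup V} (hK : ∀ x, IsLeech x → sqNorm x = 32 → x ∈ K)
    {x : V} (hx : IsLeech x) : x ∈ K := by
  have hp : ∀ i, i ≠ oo → pairVec oo i ∈ K := fun i hi =>
    hK _ (isLeech_pairVec (Ne.symm hi)) (sqNorm_pairVec (Ne.symm hi))
  have h8 : eight oo ∈ K := by
    have e : eight oo = pairVec oo ll + v0 := by
      ext i
      by_cases a : i = oo
      · subst a; rw [Pi.add_apply, v0_oo]; simp [eight, pairVec]
      by_cases b : i = ll
      · subst b; rw [Pi.add_apply, v0_ll]; simp [eight, pairVec]
      rw [Pi.add_apply, v0_other i a b]; simp [eight, pairVec, a, b]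
    rw [e]; exact add_mem (hp ll (by decide)) (hK _ isLeech_v0 sqNorm_v0)
  have hfour : ∀ y, IsLeech y → (∀ i, 4 ∣ y i) → y ∈ K := by
    intro y hy h4
    choose k hk using h4
    set r : V := y - ∑ i ∈ univ.erase oo, k i • pairVec oo i with hr
    have hsum : ∑ i ∈ univ.erase oo, k i • pairVec oo i ∈ K :=
      sum_mem fun i hi => zsmul_mem (hp i (mem_erase.1 hi).1) _
    have hval : ∀ j, j ≠ oo → r j = 0 := by
      intro j hj
      simp only [hr, Pi.sub_apply, Finset.sum_apply, Pi.smul_apply, smul_eq_mul]
      rw [sum_eq_single j]
      · simp [pairVec, hk j]; ring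
      · intro i hi hij; simp [pairVec, hj, Ne.symm hij]
      · intro h; exact absurd (mem_erase.2 ⟨hj, mem_univ j⟩) h
    obtain ⟨t, ht⟩ : 8 ∣ r oo := by
      have hro : r oo = 4 * k oo - 4 * ∑ i ∈ univ.erase oo, k i := by
        simp only [hr, Pi.sub_apply, Finset.sum_apply, Pi.smul_apply, smul_eq_mul, hk oo]
        rw [mul_sum]
        congr 1
        exact sum_congr rfl fun i hi => by simp [pairVec]; ring
      obtain ⟨m, a, hxa, -, t, ht⟩ := hy
      have hs : ∑ i, y i = 4 * ∑ i, k i := by rw [mul_sum]; exact sum_congr rfl fun i _ => hk i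
      have hm : 2 ∣ m := by have h1 := hxa oo; have h2 := hk oo; omega
      rw [← add_sum_erase univ k (mem_univ oo)] at hs
      rw [hs] at ht
      omega
    have hreq : r = t • eight oo := by
      ext j
      by_cases hj : j = oo
      · subst hj; simp [ht, eight]; ring
      · simp [hval j hj, eight, hj]
    have hrK : r ∈ K := hreq ▸ zsmul_mem h8 t
    have : y = r + ∑ i ∈ univ.erase oo, k i • pairVec oo i := by rw [hr, sub_add_cancel]
    exact this ▸ add_mem hrK hsum
  have heven : ∀ y, IsLeech y → (∀ i, y i % 2 = 0) → y ∈ K := by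
    suffices h : ∀ c ∈ golayCode, ∀ y, IsLeech y → (∀ i, y i % 2 = 0) →
        par (fun i => y i / 2) = c → y ∈ K from
      fun y hy he => h _ (par_half_mem hy he) y hy he rfl
    intro c hc
    refine code_induction (P := fun c => ∀ y, IsLeech y → (∀ i, y i % 2 = 0) →
      par (fun i => y i / 2) = c → y ∈ K) ?_ ?_ hc
    · intro y hy he hpar
      refine hfour y hy fun i => ?_
      have h := congrFun hpar i
      simp only [par_apply, Pi.zero_apply, ZMod.intCast_zmod_eq_zero_iff_dvd] at h
      have := he i
      omega
    · intro d O hO _ ih y hy he hpar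
      have hO' : IsLeech (twice (ind O)) := isLeech_twice (octad_ind_mem hO)
      have hn : sqNorm (twice (ind O)) = 32 := by
        have : ∀ i, twice (ind O) i ^ 2 = if i ∈ O then 4 else 0 := fun i => by
          by_cases h : i ∈ O <;> simp [twice, h, ZMod.val_one]
        unfold sqNorm
        rw [sum_congr rfl fun i _ => this i, sum_ite_mem, univ_inter, sum_const, octad_card hO]
        rfl
      have := ih (y - twice (ind O)) (hy.sub hO') (fun i => by
        have := he i; simp only [Pi.sub_apply, twice]; omega) (by
        funext i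
        have h := congrFun hpar i
        simp only [par_apply, Pi.add_apply] at h ⊢
        have hz : ∀ a b : ZMod 2, a + b - b = a := by decide
        rw [show (y - twice (ind O)) i / 2 = y i / 2 - ((ind O i).val : ℤ) by
          simp only [Pi.sub_apply, twice]; omega]
        rw [Int.cast_sub, h, intCast_val, hz])
      have := add_mem this (hK _ hO' hn)
      rwa [sub_add_cancel] at this
  rcases parity_all hx with he | ho
  · exact heven x hx he
  · have hn : sqNorm oddVec = 32 := by decide
    have := add_mem (heven (x - oddVec) (hx.sub isLeech_oddVec) fun i => by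
      have := ho i; simp only [Pi.sub_apply, oddVec]; split <;> omega) (hK _ isLeech_oddVec hn)
    rwa [sub_add_cancel] at this

end Cfsg.Agent.H18.Monster
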