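import Cfsg.Agent.H18.Monster.Form
import Cfsg.Agent.H18.Duality

/-! An extraspecial group whose central quotient is the Leech lattice modulo 2. -/

set_option autoImplicit false

namespace Cfsg.Agent.H18.Monster

open Cfsg.Agent.H14
open scoped IsMulCommutative

/-- `P` is extraspecial with `P / Z(P)` the lattice modulo 2, the lattice automorphisms being
realised by automorphisms of `P`. -/
structure LeechModule (P : Type*) [Group P] where
  extra : Cfsg.IsExtraspecial 2 P
  ψ : leechLattice → P ⧸ Subgroup.center P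
  map_add : ∀ v w, ψ (v + w) = ψ v * ψ w
  surj : Function.Surjective ψ
  ker : ∀ v, ψ v = 1 ↔ ∃ w, v = w + w
  lift : ∀ g : Co0, ∃ φ : P ≃* P, ∀ (v : leechLattice) (q : P),
    ψ v = QuotientGroup.mk q → ψ (g • v) = QuotientGroup.mk (φ q)

namespace LeechModule

variable {P : Type*} [Group P] (L : LeechModule P)

/-- The class of a vector, trivial outside the lattice. -/
noncomputable def cls (x : V) : P ⧸ Subgroup.center P :=
  open Classical in if h : x ∈ leechLattice then L.ψ ⟨x, h⟩ else 1

theorem cls_coe (v : leechLattice) : L.cls (v : V) = L.ψ v := by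
  unfold cls
  rw [dif_pos v.2]

theorem cls_of {x : V} (hx : IsLeech x) : L.cls x = L.ψ ⟨x, mem_leechLattice_iff.2 hx⟩ :=
  L.cls_coe ⟨x, _⟩

theorem cls_add {x y : V} (hx : IsLeech x) (hy : IsLeech y) :
    L.cls (x + y) = L.cls x * L.cls y := by
  rw [L.cls_of hx, L.cls_of hy, L.cls_of (hx.add hy), ← L.map_add]
  rfl

theorem cls_double {x : V} (hx : IsLeech x) : L.cls (x + x) = 1 := by
  rw [L.cls_of (hx.add hx)]
  exact (L.ker _).2 ⟨⟨x, mem_leechLattice_iff.2 hx⟩, rfl⟩

theorem cls_shift {x y : V} (hx : IsLeech x) (hy : IsLeech y) :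
    L.cls (x + (y + y)) = L.cls x := by
  rw [L.cls_add hx (hy.add hy), L.cls_double hy, mul_one]

theorem cls_surj (q : P) : ∃ x, IsLeech x ∧ L.cls x = QuotientGroup.mk q := by
  obtain ⟨v, hv⟩ := L.surj (QuotientGroup.mk q)
  exact ⟨v, IsLeech.coe v, by rw [L.cls_coe, hv]⟩

theorem cls_sq (x : V) : L.cls x * L.cls x = 1 := by
  obtain ⟨v, hv⟩ := L.surj (L.cls x)
  rw [← hv, ← L.map_add]
  exact (L.ker _).2 ⟨v, rfl⟩

/-- A representative in `P` of the class of a vector. -/
noncomputable def rep (x : V) : P := (L.cls x).out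

theorem mk_rep (x : V) : (QuotientGroup.mk (L.rep x) : P ⧸ Subgroup.center P) = L.cls x :=
  Quotient.out_eq _

/-- The square of the representative of a class, in the centre. -/
noncomputable def form (x : V) : Subgroup.center P :=
  ⟨L.rep x * L.rep x, by
    rw [← QuotientGroup.eq_one_iff, QuotientGroup.mk_mul, L.mk_rep]; exact L.cls_sq x⟩

open scoped commutatorElement

theorem center_sq_one (hP : Cfsg.IsExtraspecial 2 P) (c : Subgroup.center P) : c * c = 1 := by
  obtain ⟨z, -, hz, hmem⟩ := center_eq_pair hP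
  apply Subtype.ext
  rcases (hmem c).1 c.2 with h | h <;> simp [h, hz]

theorem center_two (hP : Cfsg.IsExtraspecial 2 P) (a b : Subgroup.center P)
    (ha : a ≠ 1) (hb : b ≠ 1) : a = b := by
  obtain ⟨z, -, -, hmem⟩ := center_eq_pair hP
  rcases (hmem a).1 a.2 with h | h
  · exact absurd (Subtype.ext h) ha
  rcases (hmem b).1 b.2 with h' | h'
  · exact absurd (Subtype.ext h') hb
  exact Subtype.ext (h.trans h'.symm)

theorem center_fixed (hP : Cfsg.IsExtraspecial 2 P) (φ : P ≃* P) {c : P}
    (hc : c ∈ Subgroup.center P) : φ c = c := by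
  by_cases h1 : c = 1
  · rw [h1, map_one]
  have hφc : φ c ∈ Subgroup.center P := Subgroup.mem_center_iff.2 fun g => by
    rw [← φ.apply_symm_apply g, ← map_mul, ← map_mul, Subgroup.mem_center_iff.1 hc]
  have h2 : φ c ≠ 1 := fun h => h1 (φ.injective (h.trans φ.map_one.symm))
  exact congrArg Subtype.val (center_two hP ⟨_, hφc⟩ ⟨_, hc⟩
    (fun h => h2 (congrArg Subtype.val h)) (fun h => h1 (congrArg Subtype.val h)))

theorem sq_eq_form {x : V} {q : P} (hq : (QuotientGroup.mk q : P ⧸ Subgroup.center P) = L.cls x) :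
    q * q = L.form x := by
  rw [← L.mk_rep, QuotientGroup.eq] at hq
  set c := q⁻¹ * L.rep x with hc
  have hcc : c * c = 1 := congrArg Subtype.val (center_sq_one L.extra ⟨c, hq⟩)
  have hr : L.rep x = q * c := by rw [hc, mul_inv_cancel_left]
  show q * q = L.rep x * L.rep x
  have hcomm : c * q = q * c := ((Subgroup.mem_center_iff.1 hq) q).symm
  rw [hr, mul_assoc q c (q * c), ← mul_assoc c q c, hcomm, mul_assoc q c c, hcc, mul_one]

/-- The bilinear form is the commutator of representatives. -/
theorem bil_eq {x y : V} (hx : IsLeech x) (hy : IsLeech y) {q r : P}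
    (hq : (QuotientGroup.mk q : P ⧸ Subgroup.center P) = L.cls x)
    (hr : (QuotientGroup.mk r : P ⧸ Subgroup.center P) = L.cls y) :
    ((L.form (x + y) * L.form x * L.form y : Subgroup.center P) : P) = ⁅r, q⁆ := by
  have h1 : q * r * (q * r) = L.form (x + y) := L.sq_eq_form (by
    rw [QuotientGroup.mk_mul, hq, hr, L.cls_add hx hy])
  have hc : ⁅r, q⁆ ∈ Subgroup.center P := commutator_mem_center L.extra r q
  set c : Subgroup.center P := ⟨⁅r, q⁆, hc⟩
  have h2 : L.form (x + y) = c * L.form x * L.form y := by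
    apply Subtype.ext
    rw [Subgroup.coe_mul, Subgroup.coe_mul, ← h1, ← L.sq_eq_form hq, ← L.sq_eq_form hr]
    show _ = ⁅r, q⁆ * (q * q) * (r * r)
    calc q * r * (q * r) = q * (⁅r, q⁆ * q * r) * r := by
          rw [commutatorElement_def]; group
      _ = (q * ⁅r, q⁆) * (q * r * r) := by simp only [mul_assoc]
      _ = (⁅r, q⁆ * q) * (q * r * r) := by rw [Subgroup.mem_center_iff.1 hc q]
      _ = ⁅r, q⁆ * (q * q) * (r * r) := by simp only [mul_assoc]
  have h3 : L.form (x + y) * L.form x * L.form y = c := by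
    rw [h2, show c * L.form x * L.form y * L.form x * L.form y =
      c * (L.form x * L.form x) * (L.form y * L.form y) by ac_rfl,
      center_sq_one L.extra, center_sq_one L.extra, mul_one, mul_one]
  exact congrArg Subtype.val h3

/-- The quadratic form of the module. -/
noncomputable def qform : QForm (Subgroup.center P) where
  f := L.form
  sq_one := center_sq_one L.extra
  two := center_two L.extra
  act_eq := fun g x hx => by
    obtain ⟨φ, hφ⟩ := L.lift g
    apply Subtype.ext
    have h := hφ ⟨x, mem_leechLattice_iff.2 hx⟩ (L.rep x) (by rw [L.mk_rep, L.cls_of hx])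
    rw [← L.cls_coe, ← act_coe] at h
    rw [← L.sq_eq_form h.symm, ← map_mul]
    exact center_fixed L.extra φ (L.form x).2
  shift := fun x y hx hy => Subtype.ext (by
    rw [← L.sq_eq_form ((L.mk_rep x).trans (L.cls_shift hx hy).symm)]; rfl)
  add_left := fun x y t hx hy ht => by
    apply Subtype.ext
    have hq := L.mk_rep x
    have hr := L.mk_rep y
    have hs := L.mk_rep t
    have hqr : (QuotientGroup.mk (L.rep x * L.rep y) : P ⧸ Subgroup.center P) = L.cls (x + y) := by
      rw [QuotientGroup.mk_mul, hq, hr, L.cls_add hx hy]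
    rw [Subgroup.coe_mul (Subgroup.center P) (L.form (x + t) * L.form x * L.form t),
      L.bil_eq (hx.add hy) ht hqr hs, L.bil_eq hx ht hq hs, L.bil_eq hy ht hr hs]
    have hc := commutator_mem_center L.extra (L.rep t) (L.rep y)
    rw [show ⁅L.rep t, L.rep x * L.rep y⁆ =
      ⁅L.rep t, L.rep x⁆ * (L.rep x * ⁅L.rep t, L.rep y⁆ * (L.rep x)⁻¹) by
        simp only [commutatorElement_def]; group,
      Subgroup.mem_center_iff.1 hc (L.rep x), mul_inv_cancel_right]

theorem qform_f (x : V) : L.qform.f x = L.form x := rfl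

theorem beta_ne_one [Finite P] : L.qform.beta ≠ 1 := by
  refine QForm.beta_ne_one _ ?_
  by_contra h
  push Not at h
  refine not_center_eq_top L.extra (eq_top_iff.2 fun q _ => Subgroup.mem_center_iff.2 fun r => ?_)
  obtain ⟨x, hx, hqx⟩ := L.cls_surj q
  obtain ⟨y, hy, hry⟩ := L.cls_surj r
  have e := L.bil_eq hx hy hqx.symm hry.symm
  have e' : L.form (x + y) * L.form x * L.form y = 1 := h x y hx hy
  rw [e', OneMemClass.coe_one] at e
  exact commutatorElement_eq_one_iff_mul_comm.1 e.symm

/-- Elements commute exactly when the inner product of their vectors is divisible by 16. -/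
theorem commute_iff [Finite P] {x y : V} (hx : IsLeech x) (hy : IsLeech y) {q r : P}
    (hq : (QuotientGroup.mk q : P ⧸ Subgroup.center P) = L.cls x)
    (hr : (QuotientGroup.mk r : P ⧸ Subgroup.center P) = L.cls y) :
    q * r = r * q ↔ (16 : ℤ) ∣ dotInt x y := by
  have h := L.bil_eq hx hy hq hr
  have h' : L.form (x + y) * L.form x * L.form y = L.qform.chi (dotInt x y) := L.qform.B_eq hx hy
  rw [h'] at h
  rw [eq_comm, ← commutatorElement_eq_one_iff_mul_comm, ← h]
  unfold QForm.chi
  by_cases hd : (16 : ℤ) ∣ dotInt x y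
  · simp [hd]
  · simp only [hd, if_false, iff_false]
    exact fun e => L.beta_ne_one (Subtype.ext e)

/-- An element squares to 1 exactly when the squared length of its vector is divisible by 32. -/
theorem sq_one_iff [Finite P] {x : V} (hx : IsLeech x) {q : P}
    (hq : (QuotientGroup.mk q : P ⧸ Subgroup.center P) = L.cls x) :
    q * q = 1 ↔ (32 : ℤ) ∣ sqNorm x := by
  rw [L.sq_eq_form hq, show L.form x = _ from L.qform.f_eq hx]
  by_cases hd : (32 : ℤ) ∣ sqNorm x
  · simp [hd]
  · simp only [hd, if_false, iff_false]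
    exact fun e => L.beta_ne_one (Subtype.ext e)

end LeechModule

end Cfsg.Agent.H18.Monster
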