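import Cfsg.Agent.H18.Monster.SecondLocal

/-! A second conjugate and a non-central involution with fusion inside the centralizer of the latter. -/

set_option autoImplicit false

namespace Cfsg.Agent.H18.Monster

open Finset Cfsg.Agent.H14

/-- A code word meeting a given octad in exactly two points. -/
theorem exists_word_two {O : Finset GolayPt} (hO : O ∈ octads) :
    ∃ c ∈ golayCode, (O.filter fun i => c i ≠ 0).card = 2 := by
  obtain ⟨T, hTO, hT⟩ := exists_subset_card_eq (s := O) (n := 5) (by rw [octad_card hO]; norm_num)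
  obtain ⟨a, ha, b, hb, hab⟩ := one_lt_card.1 (show 1 < T.card by omega)
  have hkey : ∀ p, p ∈ T → ∃ c ∈ golayCode, (O.filter fun i => c i ≠ 0).card = 2 ∨
      ∀ i ∈ O, c i = if i = p ∨ i ∉ T then 1 else 0 := by
    intro p hp
    obtain ⟨c, hc, hcT⟩ := exists_code_word T hT.le fun i => if i = p then 1 else 0
    refine ⟨c, hc, ?_⟩
    have hsplit : O.filter (fun i => c i ≠ 0) =
        {p} ∪ (O \ T).filter (fun i => c i ≠ 0) := by
      ext i
      simp only [Finset.mem_filter, Finset.mem_union, Finset.mem_singleton, Finset.mem_sdiff]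
      constructor
      · rintro ⟨hi, hci⟩
        by_cases hiT : i ∈ T
        · left
          by_contra hip
          exact hci (by rw [hcT i hiT, if_neg hip])
        · exact Or.inr ⟨⟨hi, hiT⟩, hci⟩
      · rintro (rfl | ⟨⟨hi, -⟩, hci⟩)
        · exact ⟨hTO hp, by rw [hcT _ hp, if_pos rfl]; decide⟩
        · exact ⟨hi, hci⟩
    have hcard : (O.filter fun i => c i ≠ 0).card = 1 + ((O \ T).filter fun i => c i ≠ 0).card := by
      rw [hsplit, card_union_of_disjoint, card_singleton]
      rw [disjoint_singleton_left]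
      intro h
      exact (mem_sdiff.1 (mem_filter.1 h).1).2 hp
    have hR : (O \ T).card = 3 := by rw [card_sdiff_of_subset hTO, octad_card hO, hT]
    have hle : ((O \ T).filter fun i => c i ≠ 0).card ≤ 3 := hR ▸ card_filter_le _ _
    have heven : 2 ∣ (O.filter fun i => c i ≠ 0).card := by
      have h := golay_orth c (ind O) hc (octad_ind_mem hO)
      have h1 : ∑ i, c i * ind O i = ((O.filter fun i => c i ≠ 0).card : ZMod 2) := by
        have hz : ∀ z : ZMod 2, z = if z ≠ 0 then 1 else 0 := by decide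
        rw [← sum_boole, sum_congr rfl (s₂ := univ) fun i _ => (show c i * ind O i =
          if i ∈ O then c i else 0 by by_cases h : i ∈ O <;> simp [h]), sum_ite_mem, univ_inter]
        exact sum_congr rfl fun i _ => hz _
      rw [h1, ZMod.natCast_eq_zero_iff_even] at h
      exact h.two_dvd
    rw [hcard] at heven
    rcases (show ((O \ T).filter fun i => c i ≠ 0).card = 1 ∨
        ((O \ T).filter fun i => c i ≠ 0).card = 3 by omega) with h | h
    · exact Or.inl (by rw [hcard, h])
    · right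
      intro i hi
      by_cases hiT : i ∈ T
      · rw [hcT i hiT]
        simp [hiT]
      · have hall := eq_of_subset_of_card_le (filter_subset (fun i => c i ≠ 0) (O \ T))
          (by rw [h, hR])
        have hmem : i ∈ (O \ T).filter fun i => c i ≠ 0 := by
          rw [hall]; exact mem_sdiff.2 ⟨hi, hiT⟩
        have hz : ∀ z : ZMod 2, z ≠ 0 → z = 1 := by decide
        rw [if_pos (Or.inr hiT)]
        exact hz _ (mem_filter.1 hmem).2
  obtain ⟨c1, hc1, h1 | h1⟩ := hkey a ha
  · exact ⟨c1, hc1, h1⟩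
  obtain ⟨c2, hc2, h2 | h2⟩ := hkey b hb
  · exact ⟨c2, hc2, h2⟩
  refine ⟨c1 + c2, add_mem hc1 hc2, ?_⟩
  have : O.filter (fun i => (c1 + c2) i ≠ 0) = {a, b} := by
    ext i
    simp only [Finset.mem_filter, Finset.mem_insert, Finset.mem_singleton]
    constructor
    · rintro ⟨hi, hne⟩
      by_contra hcon
      push Not at hcon
      apply hne
      rw [Pi.add_apply, h1 i hi, h2 i hi]
      by_cases hiT : i ∈ T <;> simp [hiT, hcon.1, hcon.2] <;> decide
    · rintro (rfl | rfl)
      · refine ⟨hTO ha, ?_⟩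
        rw [Pi.add_apply, h1 i (hTO ha), h2 i (hTO ha)]
        simp [ha, hab]
      · refine ⟨hTO hb, ?_⟩
        rw [Pi.add_apply, h1 i (hTO hb), h2 i (hTO hb)]
        simp [hb, Ne.symm hab]
  rw [this, card_pair hab]

namespace Data

variable {G : Type*} [Group G] [Finite G] {z : G}
  {Q : Subgroup (Subgroup.centralizer ({z} : Set G))} [Q.Normal] (D : Data z Q)

namespace Std

variable {D} {q : Q} {g : G} (h : Std D q g)
include h

/-- `Q ∩ Q_s` contains a class of squared length 32. -/
theorem exists_inter_min : ∃ a : Q, gv a ∈ D.F.map (MulAut.conj g).toMonoidHom ∧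
    ∃ x, IsLeech x ∧ sqNorm x = 32 ∧
      (QuotientGroup.mk a : Q ⧸ Subgroup.center Q) = D.mod.cls x := by
  obtain ⟨O, hO, -, hOo⟩ := exists_octad_missing ∅ (by simp) oo (by simp)
  obtain ⟨c, hc, hcard⟩ := exists_word_two hO
  have hyL : IsLeech (twice (ind O)) := isLeech_twice (octad_ind_mem hO)
  set y := twice (ind O) with hy
  have hval : ∀ i, y i = if i ∈ O then 2 else 0 := fun i => by
    by_cases hi : i ∈ O <;> simp [hy, twice, hi, ZMod.val_one]
  have hn : signAut c hc ∈ D.twoLocal g := by rw [h.twoLocal_eq]; exact signAut_mem_signSub c hc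
  obtain ⟨r, hr, er⟩ := D.mem_twoLocal.1 hn
  obtain ⟨u, hu⟩ := QuotientGroup.mk_surjective (D.mod.cls y)
  have hus : u * q = q * u := (D.mod.commute_iff hyL (isLeech_eight oo) hu h.hq).2 (by
    rw [dotInt_eight, hval, if_neg hOo]; norm_num)
  set u' : Q := ⟨r * u * r⁻¹, (inferInstance : Q.Normal).conj_mem _ u.2 r⟩ with hu'
  refine ⟨u' * u⁻¹, ?_, act (signAut c hc) y - y, (isLeech_act _ hyL).sub hyL, ?_, ?_⟩
  · have hus' : gv u * (g * z * g⁻¹) = g * z * g⁻¹ * gv u := by
      rw [h.hg]; exact congrArg gv hus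
    have h1 := (D.singPt.conj g).norm (gv u) hus' _
      ((D.F.map (MulAut.conj g).toMonoidHom).inv_mem hr)
    have h2 := (D.F.map (MulAut.conj g).toMonoidHom).mul_mem hr h1
    have e : gv (u' * u⁻¹) = (r : G) * (gv u * (r : G)⁻¹ * (gv u)⁻¹) := by
      show (r : G) * gv u * (r : G)⁻¹ * (gv u)⁻¹ = _
      group
    rw [e]; exact h2
  · rw [act_signAut hc hyL]
    have hd : ∀ i, (signFun c y - y) i ^ 2 = if i ∈ O ∧ c i ≠ 0 then 16 else 0 := fun i => by
      by_cases hci : c i = 0 <;> by_cases hi : i ∈ O <;>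
        simp [H14.signFun, hci, hi, hval i]
    unfold sqNorm
    rw [sum_congr rfl fun i _ => hd i]
    have e : ∀ i, (if i ∈ O ∧ c i ≠ 0 then (16 : ℤ) else 0) =
        if i ∈ O.filter (fun i => c i ≠ 0) then 16 else 0 := fun i => by simp
    rw [sum_congr rfl fun i _ => e i, sum_ite_mem, univ_inter, sum_const, hcard]
    norm_num
  · have h1 : D.mod.cls (act (signAut c hc) y) = QuotientGroup.mk u' :=
      D.cls_conj r _ er hyL u hu
    have h2 := D.mod.cls_add ((isLeech_act (signAut c hc) hyL).sub hyL) hyL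
    rw [sub_add_cancel, h1, ← hu] at h2
    rw [QuotientGroup.mk_mul, QuotientGroup.mk_inv, h2, mul_inv_cancel_right]

end Std

include D in
/-- For an involution `t` of `Q` not conjugate to `z` there is an element of `C(t)` carrying `z`
to an element of `Q` other than `z`. -/
theorem exists_fusion_centralizer {t : Q} (ht2 : orderOf (gv t) = 2) (ht : ¬ IsConj z (gv t)) :
    ∃ k : G, k * gv t = gv t * k ∧ ∃ s : Q, k * z * k⁻¹ = gv s ∧ gv s ≠ z := by
  obtain ⟨-, -, -, -, g, ⟨hC, hgQ⟩, hne⟩ := id D.hset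
  set q : Q := ⟨⟨g * z * g⁻¹, hC⟩, hgQ⟩
  obtain ⟨D', hD'⟩ := D.exists_standard (q := q) (isConj_iff.2 ⟨g, rfl⟩) hne
  have h : Std D' q g := ⟨hD', rfl, hne⟩
  obtain ⟨a, ha, x, hx, hnx, hax⟩ := h.exists_inter_min
  obtain ⟨b, hb, hab⟩ := Subgroup.mem_map.1 ha
  obtain ⟨b', rfl⟩ := D'.mem_F.1 hb
  have hab' : g * gv b' * g⁻¹ = gv a := hab
  have hnc : ¬ IsConj z (gv a) := by
    intro hc
    by_cases haz : gv a = z
    · have : a = D'.zQ := gv_injective haz
      have hc1 := (D'.cls_eq_one_iff a hax).2 (Or.inr this)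
      rw [D'.mod.cls_of hx] at hc1
      obtain ⟨w, hw⟩ := (D'.mod.ker _).1 hc1
      have hw' : x - 0 = 2 • (w : V) := by
        rw [sub_zero, two_nsmul]; exact congrArg Subtype.val hw
      rcases congr_two_cases hx isLeech_zero (IsLeech.coe w) hw' (by omega) (by decide) with e | e | e
      · rw [← e] at hnx; exact absurd hnx (by decide)
      · rw [eq_comm, neg_eq_zero] at e; rw [e] at hnx; exact absurd hnx (by decide)
      · exact absurd e.2.1 (by decide)
    · exact D'.not_min hc haz hx hnx hax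
  have haa : a * a = 1 := (D'.mod.sq_one_iff hx hax).2 (by rw [hnx])
  have ha1 : gv a ≠ 1 := fun e => by
    have hc1 := (D'.cls_eq_one_iff a hax).2 (Or.inl (gv_injective e))
    rw [D'.mod.cls_of hx] at hc1
    obtain ⟨w, hw⟩ := (D'.mod.ker _).1 hc1
    have hw' : x - 0 = 2 • (w : V) := by
      rw [sub_zero, two_nsmul]; exact congrArg Subtype.val hw
    rcases congr_two_cases hx isLeech_zero (IsLeech.coe w) hw' (by omega) (by decide) with e | e | e
    · rw [← e] at hnx; exact absurd hnx (by decide)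
    · rw [eq_comm, neg_eq_zero] at e; rw [e] at hnx; exact absurd hnx (by decide)
    · exact absurd e.2.1 (by decide)
  have hao : orderOf (gv a) = 2 :=
    orderOf_eq_prime (by rw [pow_two]; exact congrArg gv haa) ha1
  have hbo : orderOf (gv b') = 2 := by
    rw [← hao, ← hab']
    exact (MulEquiv.orderOf_eq (MulAut.conj g) _).symm
  have hbc : ¬ IsConj z (gv b') := fun hc => hnc (hc.trans (isConj_iff.2 ⟨g, hab'⟩))
  obtain ⟨c, hcC, hc⟩ := D.exists_conj_other ht2 ht hbo hbc
  obtain ⟨d, hdC, hd⟩ := D.exists_conj_other hao hnc ht2 ht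
  refine ⟨d * g * c, ?_, ⟨(⟨d, hdC⟩ : Subgroup.centralizer ({z} : Set G)) * q *
    (⟨d, hdC⟩ : Subgroup.centralizer ({z} : Set G))⁻¹,
    (inferInstance : Q.Normal).conj_mem _ q.2 _⟩, ?_, ?_⟩
  · have h1 : d * g * c * gv t * (d * g * c)⁻¹ = gv t := by
      calc d * g * c * gv t * (d * g * c)⁻¹ = d * (g * (c * gv t * c⁻¹) * g⁻¹) * d⁻¹ := by group
        _ = gv t := by rw [hc, hab', hd]
    exact mul_inv_eq_iff_eq_mul.1 h1
  · have hcz : c * z = z * c := Subgroup.mem_centralizer_singleton_iff.1 hcC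
    show d * g * c * z * (d * g * c)⁻¹ = d * gv q * d⁻¹
    calc d * g * c * z * (d * g * c)⁻¹ = d * g * (c * z) * c⁻¹ * g⁻¹ * d⁻¹ := by group
      _ = d * (g * z * g⁻¹) * d⁻¹ := by rw [hcz]; group
      _ = d * gv q * d⁻¹ := rfl
  · show d * gv q * d⁻¹ ≠ z
    intro e
    have hdz : d * z = z * d := Subgroup.mem_centralizer_singleton_iff.1 hdC
    exact hne (mul_left_cancel (a := d) ((mul_inv_eq_iff_eq_mul.1 e).trans hdz.symm))

end Data

end Cfsg.Agent.H18.Monster
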