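import Cfsg.Agent.H18.Monster.Module
import Cfsg.Prelude.Def_MonsterType

/-! The group of Monster type gives a Leech module; its maximal elementary abelian subgroup. -/

set_option autoImplicit false

namespace Cfsg.Agent.H18.Monster

open Cfsg.Agent.H14

/-- The Leech module of a group of Monster type, for any identification. -/
def ofMonster {G : Type*} [Group G] {z : G}
    {Q : Subgroup (Subgroup.centralizer ({z} : Set G))} [Q.Normal]
    (hQ : Cfsg.IsExtraspecial 2 Q)
    (e : (Subgroup.centralizer ({z} : Set G)) ⧸ Q ≃* Cfsg.Spor.Co1)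
    (ψ : Cfsg.leechLattice → Q ⧸ Subgroup.center Q) (hψ : Cfsg.IsLeechModTwoIso Q e ψ) :
    LeechModule Q where
  extra := hQ
  ψ := ψ
  map_add := hψ.1
  surj := hψ.2.1
  ker := hψ.2.2.1
  lift := fun g => by
    obtain ⟨h, hh⟩ := QuotientGroup.mk_surjective (e.symm (QuotientGroup.mk g))
    refine ⟨MulAut.conjNormal h, fun v q hq => ?_⟩
    rw [hψ.2.2.2 h g (by rw [hh, MulEquiv.apply_symm_apply]) v q hq]
    congr 1

namespace LeechModule

variable {P : Type*} [Group P] (L : LeechModule P)

/-- The elements over vectors all of whose coordinates are divisible by 4. -/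
def fours : Subgroup P where
  carrier := {q | ∃ x : V, IsLeech x ∧ (∀ i, (4 : ℤ) ∣ x i) ∧
    (QuotientGroup.mk q : P ⧸ Subgroup.center P) = L.cls x}
  one_mem' := ⟨0, isLeech_zero, fun _ => dvd_zero _, by
    have h := L.cls_double isLeech_zero
    rw [add_zero] at h
    rw [h, QuotientGroup.mk_one]⟩
  mul_mem' := by
    rintro q r ⟨x, hx, hx4, hqx⟩ ⟨y, hy, hy4, hry⟩
    exact ⟨x + y, hx.add hy, fun i => dvd_add (hx4 i) (hy4 i),
      by rw [QuotientGroup.mk_mul, hqx, hry, L.cls_add hx hy]⟩
  inv_mem' := by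
    rintro q ⟨x, hx, hx4, hqx⟩
    exact ⟨x, hx, hx4, by rw [QuotientGroup.mk_inv, hqx]; exact inv_eq_of_mul_eq_one_right (L.cls_sq x)⟩

variable [Finite P]

theorem fours_elementary : Cfsg.IsElementaryAbelian 2 L.fours := by
  have hdot : ∀ x y : V, (∀ i, (4 : ℤ) ∣ x i) → (∀ i, (4 : ℤ) ∣ y i) → (16 : ℤ) ∣ dotInt x y :=
    fun x y hx hy => Finset.dvd_sum fun i _ => by
      rw [show (16 : ℤ) = 4 * 4 by norm_num]; exact mul_dvd_mul (hx i) (hy i)
  refine ⟨⟨⟨?_⟩⟩, ?_⟩
  · rintro ⟨q, x, hx, hx4, hq⟩ ⟨r, y, hy, hy4, hr⟩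
    exact Subtype.ext ((L.commute_iff hx hy hq hr).2 (hdot x y hx4 hy4))
  · rintro q ⟨x, hx, hx4, hq⟩
    rw [pow_two, L.sq_one_iff hx hq]
    choose k hk using hx4
    obtain ⟨m, a, hxa, -, t, ht⟩ := hx
    have hs : ∑ i, x i = 4 * ∑ i, k i := by
      rw [Finset.mul_sum]; exact Finset.sum_congr rfl fun i _ => hk i
    have hm : 2 ∣ m := by have h1 := hxa oo; have h2 := hk oo; omega
    have he : (2 : ℤ) ∣ ∑ i, k i := by omega
    have hsq : (2 : ℤ) ∣ ∑ i, k i ^ 2 := by
      have hd : (2 : ℤ) ∣ ∑ i, (k i ^ 2 - k i) := Finset.dvd_sum fun i _ => by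
        rw [show k i ^ 2 - k i = (k i - 1) * k i by ring]
        exact (Int.even_mul_pred_self (k i)).two_dvd.trans (by rw [mul_comm])
      rw [Finset.sum_sub_distrib] at hd
      omega
    have hn : sqNorm x = 16 * ∑ i, k i ^ 2 := by
      unfold sqNorm
      rw [Finset.mul_sum]
      exact Finset.sum_congr rfl fun i _ => by rw [hk i]; ring
    omega

theorem centralizer_fours : Subgroup.centralizer (L.fours : Set P) = L.fours := by
  refine le_antisymm (fun q hq => ?_) (fun q hq r hr => ?_)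
  · obtain ⟨x, hx, hqx⟩ := L.cls_surj q
    have hpair : ∀ a b, a ≠ b → (4 : ℤ) ∣ x a + x b := by
      intro a b hab
      obtain ⟨r, hr⟩ := QuotientGroup.mk_surjective (L.cls (pairVec a b))
      have hrE : r ∈ L.fours := ⟨pairVec a b, isLeech_pairVec hab,
        fun i => by unfold pairVec; split <;> norm_num, hr⟩
      have := (L.commute_iff (isLeech_pairVec hab) hx hr hqx.symm).1 (hq r hrE)
      rw [dotInt_pairVec hab] at this
      omega
    obtain ⟨c, -, hc, -, -⟩ := exists_pair_univ {oo, ll}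
      (by rw [Finset.card_pair (by decide)]; norm_num)
    simp only [Finset.mem_insert, Finset.mem_singleton, not_or] at hc
    have h1 := hpair oo ll (by decide)
    have h2 := hpair oo c (Ne.symm hc.1)
    have h3 := hpair ll c (Ne.symm hc.2)
    have hall : ∀ i, i ≠ oo → (4 : ℤ) ∣ x oo + x i := fun i hi => hpair oo i (Ne.symm hi)
    by_cases h4 : (4 : ℤ) ∣ x oo
    · refine ⟨x, hx, fun i => ?_, hqx.symm⟩
      by_cases hi : i = oo
      · rwa [hi]
      · have := hall i hi; omega
    · refine ⟨x + (oddVec + oddVec), hx.add (isLeech_oddVec.add isLeech_oddVec), fun i => ?_,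
        by rw [L.cls_shift hx isLeech_oddVec, hqx]⟩
      by_cases hi : i = oo
      · subst hi; simp only [Pi.add_apply, oddVec, if_true]; omega
      · have := hall i hi; simp only [Pi.add_apply, oddVec, if_neg hi]; omega
  · exact congrArg Subtype.val (L.fours_elementary.1.is_comm.comm ⟨r, hr⟩ ⟨q, hq⟩)

include L in
theorem exists_elementary (hcard : Nat.card P = 2 ^ 25) :
    ∃ E : Subgroup P, Cfsg.IsElementaryAbelian 2 E ∧ Nat.card E = 2 ^ 13 := by
  refine ⟨L.fours, L.fours_elementary, ?_⟩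
  have hz : Subgroup.center P ≤ L.fours := by
    rw [← L.centralizer_fours]; exact Subgroup.center_le_centralizer _
  have h := card_mul_card_centralizer L.extra L.fours hz
  rw [L.centralizer_fours, hcard] at h
  nlinarith [Nat.zero_le (Nat.card L.fours)]

end LeechModule

end Cfsg.Agent.H18.Monster
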