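import Cfsg.Agent.H18.Monster.PlusType
import Cfsg.Agent.H18.Singular.Final
import Cfsg.Agent.H18.Singular.Setting
import Cfsg.Agent.H51.FStar
import Cfsg.Agent.H14.Co0Order

/-! Groups of Monster type: singular points, lifting of lattice automorphisms, the subgroup of
the Conway group attached to a second conjugate of the central involution. -/

set_option autoImplicit false

namespace Cfsg.Agent.H18

/-- Extraspecial groups are preserved by isomorphisms. -/
theorem extraspecial_of_equiv {A B : Type*} [Group A] [Group B] (e : A ≃* B) {p : ℕ}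
    (h : Cfsg.IsExtraspecial p A) : Cfsg.IsExtraspecial p B := by
  obtain ⟨⟨hp, hfr, hcom⟩, hcard⟩ := h
  have hcen : (Subgroup.center A).map e.toMonoidHom = Subgroup.center B := by
    ext v
    constructor
    · rintro ⟨u, hu, rfl⟩
      refine Subgroup.mem_center_iff.mpr fun w => ?_
      obtain ⟨w', rfl⟩ := e.surjective w
      exact (map_mul e _ _).symm.trans
        ((congrArg e (Subgroup.mem_center_iff.mp hu w')).trans (map_mul e _ _))
    · intro hv
      obtain ⟨u, rfl⟩ := e.surjective v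
      refine ⟨u, Subgroup.mem_center_iff.mpr fun w => e.injective ?_, rfl⟩
      rw [map_mul, map_mul]
      exact Subgroup.mem_center_iff.mp hv (e w)
  refine ⟨⟨hp.of_equiv e, ?_, ?_⟩, ?_⟩
  · rw [← hcen, ← hfr]
    apply le_antisymm
    · intro v hv
      obtain ⟨u, rfl⟩ := e.surjective v
      refine ⟨u, ?_, rfl⟩
      have := frattini_le_comap_frattini_of_surjective (φ := e.symm.toMonoidHom) e.symm.surjective hv
      have h' : e.symm (e u) ∈ frattini A := this
      rwa [e.symm_apply_apply] at h'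
    · rw [Subgroup.map_le_iff_le_comap]
      exact frattini_le_comap_frattini_of_surjective (φ := e.toMonoidHom) e.surjective
  · rw [← hcen, ← hcom, commutator_def, commutator_def, Subgroup.map_commutator,
      Subgroup.map_top_of_surjective _ e.surjective]
  · rw [← hcen, Subgroup.card_map_of_injective e.injective, hcard]

namespace Monster

open Cfsg.Agent.H14

/-- The data of a group of Monster type at `(z, Q)`. -/
structure Data {G : Type*} [Group G] (z : G)
    (Q : Subgroup (Subgroup.centralizer ({z} : Set G))) [Q.Normal] where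
  e : (Subgroup.centralizer ({z} : Set G)) ⧸ Q ≃* Cfsg.Spor.Co1
  ψ : Cfsg.leechLattice → Q ⧸ Subgroup.center Q
  hψ : Cfsg.IsLeechModTwoIso Q e ψ
  hset : Cfsg.IsExtraspecialCentralizerSetting z Q 12

namespace Data

variable {G : Type*} [Group G] {z : G} {Q : Subgroup (Subgroup.centralizer ({z} : Set G))} [Q.Normal]
  (D : Data z Q)

/-- The Leech module. -/
def mod : LeechModule Q := ofMonster D.hset.2.2.1 D.e D.ψ D.hψ

/-- `Q` as a subgroup of `G`. -/
def F (_D : Data z Q) : Subgroup G := Q.map (Subgroup.centralizer ({z} : Set G)).subtype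

theorem mem_F {a : G} : a ∈ D.F ↔ ∃ q : Q, ((q : Subgroup.centralizer ({z} : Set G)) : G) = a :=
  ⟨fun ⟨c, hc, e⟩ => ⟨⟨c, hc⟩, e⟩, fun ⟨q, e⟩ => ⟨q, q.2, e⟩⟩

/-- `Q` is isomorphic to its image in `G`. -/
noncomputable def equivF (_D : Data z Q) :
    Q ≃* (Q.map (Subgroup.centralizer ({z} : Set G)).subtype : Subgroup G) :=
  Q.equivMapOfInjective _ (Subgroup.subtype_injective _)

theorem card_F : Nat.card D.F = 2 ^ 25 := by
  rw [F, ← Nat.card_congr (equivF D).toEquiv, D.hset.2.2.2.1]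

theorem z_mem_C (_D : Data z Q) : z ∈ Subgroup.centralizer ({z} : Set G) :=
  Subgroup.mem_centralizer_singleton_iff.2 rfl

theorem cent_mem_Q [Finite G] {c : Subgroup.centralizer ({z} : Set G)}
    (D : Data z Q) (h : ∀ q ∈ Q, q * c = c * q) : c ∈ Q := by
  rw [← D.hset.2.1]
  apply Cfsg.Agent.H51.centralizer_generalizedFitting_le
  intro q hq
  exact h q (D.hset.2.1 ▸ hq)

theorem z_mem_Q [Finite G] : (⟨z, D.z_mem_C⟩ : Subgroup.centralizer ({z} : Set G)) ∈ Q :=
  D.cent_mem_Q fun q _ => Subtype.ext (Subgroup.mem_centralizer_singleton_iff.1 q.2)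

/-- The central involution as an element of `Q`. -/
def zQ [Finite G] : Q := ⟨⟨z, D.z_mem_C⟩, D.z_mem_Q⟩

theorem z_ne_one (D : Data z Q) : z ≠ 1 := fun h => by
  have := D.hset.1; rw [h, orderOf_one] at this; omega

theorem z_sq (D : Data z Q) : z * z = 1 := by
  rw [← pow_two, ← D.hset.1, pow_orderOf_eq_one]

theorem center_iff [Finite G] (q : Q) : q ∈ Subgroup.center Q ↔ q = 1 ∨ q = D.zQ := by
  obtain ⟨w, -, -, hmem⟩ := center_eq_pair D.hset.2.2.1
  have hz : D.zQ ∈ Subgroup.center Q := Subgroup.mem_center_iff.2 fun p =>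
    Subtype.ext (Subtype.ext (Subgroup.mem_centralizer_singleton_iff.1
      (p : Subgroup.centralizer ({z} : Set G)).2))
  have hw := ((hmem _).1 hz).resolve_left fun e => D.z_ne_one
    (congrArg (fun t : Q => ((t : Subgroup.centralizer ({z} : Set G)) : G)) e)
  rw [hmem, hw]

theorem singPt [Finite G] : SingPt D.F z := by
  refine ⟨D.z_sq, D.z_ne_one, ⟨_, D.z_mem_Q, rfl⟩, extraspecial_of_equiv D.equivF D.hset.2.2.1,
    fun y hy => ?_, fun q hq => ?_, fun a ha q hq => ?_⟩
  · have hyC : y ∈ Subgroup.centralizer ({z} : Set G) :=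
      Subgroup.mem_centralizer_singleton_iff.2 (hy z ⟨_, D.z_mem_Q, rfl⟩).symm
    have hyQ : (⟨y, hyC⟩ : Subgroup.centralizer ({z} : Set G)) ∈ Q :=
      D.cent_mem_Q fun q hq => Subtype.ext (hy q ⟨q, hq, rfl⟩)
    have hc : (⟨_, hyQ⟩ : Q) ∈ Subgroup.center Q :=
      Subgroup.mem_center_iff.2 fun q => Subtype.ext (Subtype.ext (hy _ ⟨q, q.2, rfl⟩))
    rcases (D.center_iff _).1 hc with e | e
    · exact Or.inl (congrArg (fun t : Q => ((t : Subgroup.centralizer ({z} : Set G)) : G)) e)
    · exact Or.inr (congrArg (fun t : Q => ((t : Subgroup.centralizer ({z} : Set G)) : G)) e)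
  · obtain ⟨q', rfl⟩ := D.mem_F.1 hq
    exact Subgroup.mem_centralizer_singleton_iff.1 q'.1.2
  · obtain ⟨q', rfl⟩ := D.mem_F.1 hq
    exact ⟨⟨a, Subgroup.mem_centralizer_singleton_iff.2 ha⟩ * q' *
      (⟨a, Subgroup.mem_centralizer_singleton_iff.2 ha⟩)⁻¹,
      (inferInstance : Q.Normal).conj_mem _ q'.2 _, rfl⟩

theorem cls_eq_one_iff [Finite G] {x : V} (q : Q)
    (hq : (QuotientGroup.mk q : Q ⧸ Subgroup.center Q) = D.mod.cls x) :
    D.mod.cls x = 1 ↔ q = 1 ∨ q = D.zQ := by
  rw [← hq, QuotientGroup.eq_one_iff, D.center_iff]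

/-- Conjugation by `h` moves the class as `g` does. -/
theorem cls_conj (h : Subgroup.centralizer ({z} : Set G)) (g : Co0)
    (hg : (QuotientGroup.mk g : Cfsg.Spor.Co1) = D.e (QuotientGroup.mk h)) {x : V} (hx : IsLeech x)
    (q : Q) (hq : (QuotientGroup.mk q : Q ⧸ Subgroup.center Q) = D.mod.cls x) :
    D.mod.cls (act g x) = QuotientGroup.mk
      (⟨h * q * h⁻¹, (inferInstance : Q.Normal).conj_mem _ q.2 h⟩ : Q) := by
  rw [D.mod.cls_of hx] at hq
  have h1 := D.hψ.2.2.2 h g hg ⟨x, mem_leechLattice_iff.2 hx⟩ q hq.symm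
  rw [← h1]
  have h2 : act g x = ((g • (⟨x, mem_leechLattice_iff.2 hx⟩ : Cfsg.leechLattice) :
      Cfsg.leechLattice) : V) := act_coe g ⟨x, mem_leechLattice_iff.2 hx⟩
  rw [h2]
  exact D.mod.cls_coe _

open scoped commutatorElement

/-- A lattice automorphism mapping the class of `q` to that of `r` lifts to an element
conjugating `q` to `r`. -/
theorem exists_lift [Finite G] {x y : V} (hx : IsLeech x) (q r : Q)
    (hq : (QuotientGroup.mk q : Q ⧸ Subgroup.center Q) = D.mod.cls x)
    (hr : (QuotientGroup.mk r : Q ⧸ Subgroup.center Q) = D.mod.cls y)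
    (hr1 : r ≠ 1) (hrz : r ≠ D.zQ) (g : Co0) (hg : D.mod.cls (act g x) = D.mod.cls y) :
    ∃ h : Subgroup.centralizer ({z} : Set G),
      (QuotientGroup.mk g : Cfsg.Spor.Co1) = D.e (QuotientGroup.mk h) ∧
      h * q * h⁻¹ = (r : Subgroup.centralizer ({z} : Set G)) := by
  obtain ⟨h, hh⟩ := QuotientGroup.mk_surjective (D.e.symm (QuotientGroup.mk g))
  have hgh : (QuotientGroup.mk g : Cfsg.Spor.Co1) = D.e (QuotientGroup.mk h) := by
    rw [hh, MulEquiv.apply_symm_apply]
  set q' : Q := ⟨h * q * h⁻¹, (inferInstance : Q.Normal).conj_mem _ q.2 h⟩ with hq'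
  have h1 : (QuotientGroup.mk q' : Q ⧸ Subgroup.center Q) = QuotientGroup.mk r := by
    rw [← D.cls_conj h g hgh hx q hq, hg, hr]
  rw [QuotientGroup.eq, D.center_iff] at h1
  rcases h1 with e | e
  · exact ⟨h, hgh, congrArg Subtype.val (inv_mul_eq_one.1 e)⟩
  · -- correct the lift by an element of `Q` not commuting with `r`
    obtain ⟨u, hu⟩ : ∃ u : Q, u * r ≠ r * u := by
      by_contra hcon
      push Not at hcon
      rcases (D.center_iff r).1 (Subgroup.mem_center_iff.2 hcon) with e' | e'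
      exacts [hr1 e', hrz e']
    have hzc : D.zQ ∈ Subgroup.center Q := (D.center_iff _).2 (Or.inr rfl)
    have hcu : u * r * u⁻¹ * r⁻¹ = D.zQ := by
      rcases (D.center_iff _).1 (commutator_mem_center D.hset.2.2.1 u r) with e' | e'
      · exact absurd (commutatorElement_eq_one_iff_mul_comm.1 e') hu
      · rwa [commutatorElement_def] at e'
    have hzz : D.zQ * D.zQ = 1 := Subtype.ext (Subtype.ext D.z_sq)
    have hkey : u * q' * u⁻¹ = r := by
      have e1 : q' = r * D.zQ := by
        have e2 : r = q' * D.zQ := by rw [← e, mul_inv_cancel_left]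
        rw [e2, mul_assoc, hzz, mul_one]
      have e3 : u * r * u⁻¹ = D.zQ * r := by rw [← hcu, inv_mul_cancel_right]
      calc u * q' * u⁻¹ = u * r * u⁻¹ * (u * D.zQ * u⁻¹) := by rw [e1]; group
        _ = D.zQ * r * D.zQ := by
          rw [e3, Subgroup.mem_center_iff.1 hzc u, mul_inv_cancel_right]
        _ = r := by rw [← Subgroup.mem_center_iff.1 hzc r, mul_assoc, hzz, mul_one]
    refine ⟨u * h, ?_, ?_⟩
    · rw [hgh]
      congr 1
      rw [QuotientGroup.mk_mul, (QuotientGroup.eq_one_iff _).2 u.2, one_mul]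
    · have h3 := congrArg Subtype.val hkey
      simp only [Subgroup.coe_mul, Subgroup.coe_inv, hq'] at h3
      rw [← h3]
      group

/-- Change of the identification by a lattice automorphism. -/
noncomputable def twist (g : Co0) : Data z Q where
  e := D.e.trans (MulAut.conj (QuotientGroup.mk g : Cfsg.Spor.Co1)⁻¹)
  ψ := fun v => D.ψ (g • v)
  hψ := by
    obtain ⟨h1, h2, h3, h4⟩ := D.hψ
    refine ⟨fun v w => ?_, fun p => ?_, fun v => ?_, fun h k hk v q hq => ?_⟩
    · rw [← h1]; exact congrArg D.ψ (g.2.1 v w)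
    · obtain ⟨v, hv⟩ := h2 p
      exact ⟨g⁻¹ • v, by show D.ψ (g • g⁻¹ • v) = p; rw [smul_inv_smul, hv]⟩
    · show D.ψ (g • v) = 1 ↔ _
      rw [h3]
      constructor
      · rintro ⟨w, hw⟩
        refine ⟨g⁻¹ • w, ?_⟩
        rw [← inv_smul_smul g v, hw]
        exact g⁻¹.2.1 w w
      · rintro ⟨w, hw⟩
        exact ⟨g • w, by rw [hw]; exact g.2.1 w w⟩
    · have hk' : (QuotientGroup.mk (g * k * g⁻¹) : Cfsg.Spor.Co1) = D.e (QuotientGroup.mk h) := by
        simp only [MulEquiv.trans_apply, MulAut.conj_apply, inv_inv] at hk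
        rw [QuotientGroup.mk_mul, QuotientGroup.mk_mul, hk, QuotientGroup.mk_inv]
        group
      show D.ψ (g • k • v) = _
      rw [show g • k • v = (g * k * g⁻¹) • (g • v) by simp [smul_smul, mul_assoc]]
      exact h4 h (g * k * g⁻¹) hk' (g • v) q hq
  hset := D.hset

theorem twist_cls (g : Co0) {x : V} (hx : IsLeech x) :
    (D.twist g).mod.cls x = D.mod.cls (act g x) := by
  rw [(D.twist g).mod.cls_of hx]
  have h2 : act g x = ((g • (⟨x, mem_leechLattice_iff.2 hx⟩ : Cfsg.leechLattice) :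
      Cfsg.leechLattice) : V) := act_coe g ⟨x, mem_leechLattice_iff.2 hx⟩
  rw [h2]
  exact (D.mod.cls_coe _).symm

theorem F_twist (g : Co0) : (D.twist g).F = D.F := rfl

/-- The subgroup of `Co0` over the image of `Q_s ∩ C`, `s = g z g⁻¹`. -/
def twoLocal (g : G) : Subgroup Co0 :=
  Subgroup.comap (QuotientGroup.mk' (Subgroup.center Co0))
    (((((D.F.map (MulAut.conj g).toMonoidHom).subgroupOf
      (Subgroup.centralizer ({z} : Set G))).map (QuotientGroup.mk' Q)).map D.e.toMonoidHom))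

variable {g : G}

theorem mem_twoLocal {n : Co0} : n ∈ D.twoLocal g ↔
    ∃ r : Subgroup.centralizer ({z} : Set G), (r : G) ∈ D.F.map (MulAut.conj g).toMonoidHom ∧
      (QuotientGroup.mk n : Cfsg.Spor.Co1) = D.e (QuotientGroup.mk r) := by
  constructor
  · rintro ⟨-, ⟨r, hr, rfl⟩, e⟩; exact ⟨r, hr, e.symm⟩
  · rintro ⟨r, hr, e⟩; exact ⟨_, ⟨r, hr, rfl⟩, e.symm⟩

theorem center_le_twoLocal : Subgroup.center Co0 ≤ D.twoLocal g := fun n hn => by
  refine D.mem_twoLocal.2 ⟨1, Subgroup.one_mem _, ?_⟩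
  rw [QuotientGroup.mk_one, map_one, (QuotientGroup.eq_one_iff n).2 hn]

theorem twoLocal_isPGroup : IsPGroup 2 (D.twoLocal g) := by
  have hF : IsPGroup 2 (D.F.map (MulAut.conj g).toMonoidHom) :=
    ((D.hset.2.2.1.1.1).map _).map _
  refine (((IsPGroup.comap_of_injective hF (Subgroup.centralizer ({z} : Set G)).subtype
    (Subgroup.subtype_injective _)).map _).map _).comap_of_ker_isPGroup _ ?_
  rw [QuotientGroup.ker_mk']
  exact IsPGroup.of_card (n := 1) (by rw [H14.card_center, pow_one])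

theorem twoLocal_fix [Finite G] {x : V} (hx : IsLeech x) (q : Q)
    (hq : (QuotientGroup.mk q : Q ⧸ Subgroup.center Q) = D.mod.cls x)
    (hs : ((q : Subgroup.centralizer ({z} : Set G)) : G) = g * z * g⁻¹) {n : Co0}
    (hn : n ∈ D.twoLocal g) : D.mod.cls (act n x) = D.mod.cls x := by
  obtain ⟨r, hr, e⟩ := D.mem_twoLocal.1 hn
  rw [D.cls_conj r n e hx q hq, ← hq]
  congr 1
  apply Subtype.ext
  apply Subtype.ext
  show (r : G) * ((q : Subgroup.centralizer ({z} : Set G)) : G) * (r : G)⁻¹ = _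
  rw [hs, (D.singPt.conj g).comm_x _ hr, mul_inv_cancel_right]

theorem twoLocal_normalized [Finite G] {x : V} (hx : IsLeech x) (q : Q)
    (hq : (QuotientGroup.mk q : Q ⧸ Subgroup.center Q) = D.mod.cls x)
    (hs : ((q : Subgroup.centralizer ({z} : Set G)) : G) = g * z * g⁻¹)
    (hq1 : q ≠ 1) (hqz : q ≠ D.zQ) {k : Co0} (hk : D.mod.cls (act k x) = D.mod.cls x) {n : Co0}
    (hn : n ∈ D.twoLocal g) : k * n * k⁻¹ ∈ D.twoLocal g := by
  obtain ⟨h, hkh, hfix⟩ := D.exists_lift hx q q hq hq hq1 hqz k hk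
  obtain ⟨r, hr, e⟩ := D.mem_twoLocal.1 hn
  refine D.mem_twoLocal.2 ⟨h * r * h⁻¹, ?_, ?_⟩
  · refine (D.singPt.conj g).norm (h : G) ?_ _ hr
    rw [← hs]
    exact congrArg Subtype.val (mul_inv_eq_iff_eq_mul.1 hfix)
  · rw [QuotientGroup.mk_mul, QuotientGroup.mk_mul, QuotientGroup.mk_inv, hkh, e,
      QuotientGroup.mk_mul, QuotientGroup.mk_mul, QuotientGroup.mk_inv, map_mul, map_mul, map_inv]

variable [Finite G]

theorem z_mem_conj (hgF : g * z * g⁻¹ ∈ D.F) : z ∈ D.F.map (MulAut.conj g).toMonoidHom := by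
  refine D.singPt.symm_of_conj_big (D.singPt.conj g) ?_ (g := g) rfl (fun a => ?_) hgF
  · rw [D.card_F]; norm_num
  · constructor
    · exact fun ha => ⟨a, ha, rfl⟩
    · rintro ⟨b, hb, e⟩
      rwa [← (MulAut.conj g).injective e]

/-- `|Q_s ∩ C| ≥ 2^24`. -/
theorem le_card_local (hgF : g * z * g⁻¹ ∈ D.F) :
    2 ^ 24 ≤ Nat.card ((D.F.map (MulAut.conj g).toMonoidHom).subgroupOf
      (Subgroup.centralizer ({z} : Set G))) := by
  have hE := D.singPt.conj g
  set E := D.F.map (MulAut.conj g).toMonoidHom with hEdef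
  have hzE : z ∈ E := D.z_mem_conj hgF
  have h1 := index_centralizer_singleton_le hE.ext ⟨z, hzE⟩
  have h2 := Subgroup.card_mul_index (Subgroup.centralizer ({⟨z, hzE⟩} : Set E))
  have h3 : Nat.card (Subgroup.centralizer ({⟨z, hzE⟩} : Set E)) ≤
      Nat.card (E.subgroupOf (Subgroup.centralizer ({z} : Set G))) := by
    refine Nat.card_le_card_of_injective (fun a => ⟨⟨((a : E) : G),
      Subgroup.mem_centralizer_singleton_iff.2
        (congrArg Subtype.val (Subgroup.mem_centralizer_singleton_iff.1 a.2))⟩, (a : E).2⟩) ?_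
    intro a b h
    exact Subtype.ext (Subtype.ext (congrArg (fun t : (E.subgroupOf
      (Subgroup.centralizer ({z} : Set G))) => ((t : Subgroup.centralizer ({z} : Set G)) : G)) h))
  have h4 : Nat.card E = 2 ^ 25 := by
    rw [hEdef, Subgroup.card_map_of_injective (MulAut.conj g).injective, D.card_F]
  rw [h4] at h2
  have := Nat.mul_le_mul h3 h1
  rw [h2] at this
  omega

/-- `|Q ∩ Q_s| ≤ 2^13`. -/
theorem card_inter_le (hgF : g * z * g⁻¹ ∈ D.F) (hne : g * z * g⁻¹ ≠ z) :
    Nat.card (D.F ⊓ D.F.map (MulAut.conj g).toMonoidHom : Subgroup G) ≤ 2 ^ 13 := by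
  have hE := D.singPt.conj g
  set A := D.F ⊓ D.F.map (MulAut.conj g).toMonoidHom with hA
  have hab : A ≤ D.F ⊓ Subgroup.centralizer (A : Set G) := by
    intro a ha
    refine ⟨ha.1, fun b hb => ?_⟩
    have c1 := D.singPt.pair (D.singPt.comm hb.1 ha.1)
    have c2 := hE.pair (hE.comm hb.2 ha.2)
    have : b * a * b⁻¹ * a⁻¹ = 1 := by
      rcases c1 with e | e
      · exact e
      · rcases c2 with e' | e'
        · exact e'
        · exact absurd (e'.symm.trans e) hne
    rwa [mul_inv_eq_one, mul_inv_eq_iff_eq_mul] at this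
  have h := D.singPt.card_mul A inf_le_left ⟨D.singPt.mem, D.z_mem_conj hgF⟩
  rw [D.card_F] at h
  have h' := Subgroup.card_le_of_le hab
  nlinarith [Nat.mul_le_mul (le_refl (Nat.card A)) h']

/-- The order of `twoLocal` times the order of `Q ∩ Q_s` is at least `2^25`. -/
theorem le_card_twoLocal (hgF : g * z * g⁻¹ ∈ D.F) :
    2 ^ 25 ≤ Nat.card (D.twoLocal g) *
      Nat.card (D.F ⊓ D.F.map (MulAut.conj g).toMonoidHom : Subgroup G) := by
  set S := (D.F.map (MulAut.conj g).toMonoidHom).subgroupOf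
    (Subgroup.centralizer ({z} : Set G)) with hS
  set T := (S.map (QuotientGroup.mk' Q)).map D.e.toMonoidHom with hT
  have hT1 : Nat.card T = Nat.card (S.map (QuotientGroup.mk' Q)) :=
    Subgroup.card_map_of_injective D.e.injective
  have hN : Nat.card (D.twoLocal g) = 2 * Nat.card T := by
    show Nat.card (Subgroup.comap (QuotientGroup.mk' (Subgroup.center Co0)) T) = _
    rw [← H14.card_center]
    have h1 := Subgroup.card_mul_index (Subgroup.comap (QuotientGroup.mk' (Subgroup.center Co0)) T)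
    rw [Subgroup.index_comap_of_surjective _ (QuotientGroup.mk'_surjective _)] at h1
    have h2 := Subgroup.card_mul_index T
    have h3 := Subgroup.card_eq_card_quotient_mul_card_subgroup (Subgroup.center Co0)
    rw [← h2] at h3
    have hpos : 0 < T.index := Nat.pos_of_ne_zero Subgroup.index_ne_zero_of_finite
    refine Nat.eq_of_mul_eq_mul_right hpos (h1.trans (h3.trans (by ring)))
  have hker : Nat.card S = Nat.card (S.map (QuotientGroup.mk' Q)) *
      Nat.card (Q.subgroupOf S) := by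
    have h1 := Subgroup.card_mul_index (((QuotientGroup.mk' Q).comp S.subtype).ker)
    rw [Subgroup.index_ker, MonoidHom.range_comp, Subgroup.range_subtype, ← MonoidHom.comap_ker,
      QuotientGroup.ker_mk'] at h1
    change Nat.card (Q.subgroupOf S) * _ = _ at h1
    rw [← h1, mul_comm]
  have hA : Nat.card (Q.subgroupOf S) ≤
      Nat.card (D.F ⊓ D.F.map (MulAut.conj g).toMonoidHom : Subgroup G) := by
    refine Nat.card_le_card_of_injective (fun a => ⟨((a : S) : Subgroup.centralizer ({z} : Set G)),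
      ⟨((a : S) : Subgroup.centralizer ({z} : Set G)), a.2, rfl⟩, (a : S).2⟩) ?_
    intro a b h
    exact Subtype.ext (Subtype.ext (Subtype.ext
      (congrArg (fun t : (D.F ⊓ D.F.map (MulAut.conj g).toMonoidHom : Subgroup G) => (t : G)) h)))
  have h24 := D.le_card_local hgF
  rw [← hS, hker] at h24
  rw [hN, hT1]
  nlinarith [Nat.mul_le_mul (le_refl (Nat.card (S.map (QuotientGroup.mk' Q)))) hA]

end Data

end Monster

end Cfsg.Agent.H18
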